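import Mathlib
import Cfsg.Prelude.Def_Balance
import Cfsg.Agent.Lib.H26.CompNorm
import Cfsg.Agent.Lib.H1.Coprime2

/-!
`O_{p'}(G) = 1`, `x` of order `p`, `L` a component with `[L, x] ≠ L`: `L` centralizes `O_{p'}(C_G(x))`.
-/

set_option autoImplicit false
set_option linter.unusedSectionVars false

open Cfsg Subgroup H26.Basic H26.Components H26.PxQ H26.GenFitting H26.LocalFitting
open scoped Pointwise commutatorElement

namespace H26.CompCent

variable {G : Type*} [Group G]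

/-! ### diagonal elements -/

/-- `a · a^x · a^{x²} ⋯` (`n` factors) -/
def jj (x a : G) : ℕ → G
  | 0 => 1
  | n + 1 => jj x a n * (x ^ n * a * (x ^ n)⁻¹)

theorem jj_zero (x a : G) : jj x a 0 = 1 := rfl

theorem jj_succ (x a : G) (n : ℕ) : jj x a (n + 1) = jj x a n * (x ^ n * a * (x ^ n)⁻¹) := rfl

theorem jj_one (x a : G) : jj x a 1 = a := by simp [jj]

theorem jj_commute {x : G} {L : Subgroup G} {p : ℕ}
    (hc : ∀ i, 0 < i → i < p → ∀ a ∈ L, ∀ b ∈ L, Commute a (x ^ i * b * (x ^ i)⁻¹))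
    {a b : G} (ha : a ∈ L) (hb : b ∈ L) {m n : ℕ} (hmn : m ≤ n) (hn : n < p) :
    Commute (jj x a m) (x ^ n * b * (x ^ n)⁻¹) := by
  induction m with
  | zero => exact Commute.one_left _
  | succ m ih =>
    rw [jj_succ]
    refine (ih (by omega)).mul_left ?_
    obtain ⟨d, rfl⟩ : ∃ d, n = m + d := ⟨n - m, by omega⟩
    have h1 := hc d (by omega) (by omega) a ha b hb
    have h2 : x ^ (m + d) * b * (x ^ (m + d))⁻¹ = x ^ m * (x ^ d * b * (x ^ d)⁻¹) * (x ^ m)⁻¹ := by
      rw [pow_add]; group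
    rw [h2]
    exact (Commute.conj_iff (x ^ m)).mpr h1

theorem jj_mul {x : G} {L : Subgroup G} {p : ℕ}
    (hc : ∀ i, 0 < i → i < p → ∀ a ∈ L, ∀ b ∈ L, Commute a (x ^ i * b * (x ^ i)⁻¹))
    {a b : G} (ha : a ∈ L) (hb : b ∈ L) {n : ℕ} (hn : n ≤ p) :
    jj x (a * b) n = jj x a n * jj x b n := by
  induction n with
  | zero => simp [jj]
  | succ n ih =>
    rw [jj_succ, jj_succ, jj_succ, ih (by omega)]
    have h1 := (jj_commute hc hb ha (le_refl n) (by omega)).eq
    calc jj x a n * jj x b n * (x ^ n * (a * b) * (x ^ n)⁻¹)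
        = jj x a n * (jj x b n * (x ^ n * a * (x ^ n)⁻¹)) * (x ^ n * b * (x ^ n)⁻¹) := by group
      _ = jj x a n * ((x ^ n * a * (x ^ n)⁻¹) * jj x b n) * (x ^ n * b * (x ^ n)⁻¹) := by rw [h1]
      _ = _ := by group

/-- `a⁻¹ · jj a n` commutes with `L` -/
theorem jj_rest {x : G} {L : Subgroup G} {p : ℕ}
    (hc : ∀ i, 0 < i → i < p → ∀ a ∈ L, ∀ b ∈ L, Commute a (x ^ i * b * (x ^ i)⁻¹))
    {a b : G} (ha : a ∈ L) (hb : b ∈ L) {n : ℕ} (hn : n + 1 ≤ p) :
    Commute b (a⁻¹ * jj x a (n + 1)) := by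
  induction n with
  | zero => rw [jj_one, inv_mul_cancel]; exact Commute.one_right _
  | succ n ih =>
    rw [jj_succ, ← mul_assoc]
    exact (ih (by omega)).mul_right (hc (n + 1) (by omega) (by omega) b hb a ha)

theorem conj_jj (x a : G) (n : ℕ) : x * jj x a n * x⁻¹ = a⁻¹ * jj x a (n + 1) := by
  induction n with
  | zero => simp [jj]
  | succ n ih =>
    calc x * jj x a (n + 1) * x⁻¹ = (x * jj x a n * x⁻¹) * (x ^ (n + 1) * a * (x ^ (n + 1))⁻¹) := by
          rw [jj_succ, pow_succ']; group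
      _ = _ := by rw [ih, jj_succ x a (n + 1), mul_assoc]

theorem jj_commute_x {x : G} {L : Subgroup G} {p : ℕ} (hp : 0 < p) (hx : x ^ p = 1)
    (hc : ∀ i, 0 < i → i < p → ∀ a ∈ L, ∀ b ∈ L, Commute a (x ^ i * b * (x ^ i)⁻¹))
    {a : G} (ha : a ∈ L) : Commute x (jj x a p) := by
  obtain ⟨n, rfl⟩ : ∃ n, p = n + 1 := ⟨p - 1, by omega⟩
  have h1 := conj_jj x a (n + 1)
  rw [jj_succ x a (n + 1), hx] at h1
  have h2 := (jj_rest hc ha ha (le_refl (n + 1))).eq
  have h3 : x * jj x a (n + 1) * x⁻¹ = jj x a (n + 1) := by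
    rw [h1]
    calc a⁻¹ * (jj x a (n + 1) * (1 * a * (1 : G)⁻¹)) = (a⁻¹ * jj x a (n + 1)) * a := by group
      _ = a * (a⁻¹ * jj x a (n + 1)) := by rw [h2]
      _ = _ := by group
  calc x * jj x a (n + 1) = x * jj x a (n + 1) * x⁻¹ * x := by group
    _ = _ := by rw [h3]

theorem jj_conj {x t : G} (h : Commute t x) (a : G) (n : ℕ) :
    jj x (t * a * t⁻¹) n = t * jj x a n * t⁻¹ := by
  induction n with
  | zero => simp [jj]
  | succ n ih =>
    rw [jj_succ, ih, jj_succ]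
    have h1 : x ^ n * t = t * x ^ n := (h.pow_right n).eq.symm
    calc t * jj x a n * t⁻¹ * (x ^ n * (t * a * t⁻¹) * (x ^ n)⁻¹)
        = t * jj x a n * t⁻¹ * ((x ^ n * t) * a * (x ^ n * t)⁻¹) := by group
      _ = t * jj x a n * t⁻¹ * ((t * x ^ n) * a * (t * x ^ n)⁻¹) := by rw [h1]
      _ = _ := by group

/-- the diagonal homomorphism -/
def diag (x : G) (L : Subgroup G) (p : ℕ)
    (hc : ∀ i, 0 < i → i < p → ∀ a ∈ L, ∀ b ∈ L, Commute a (x ^ i * b * (x ^ i)⁻¹)) : L →* G :=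
  MonoidHom.mk' (fun a => jj x (a : G) p) (fun a b => jj_mul hc a.2 b.2 le_rfl)

/-! ### the centralizer of `x` -/

theorem core_le_ppc_normalizer [Finite G] {p : ℕ} (x : G) :
    centralizerPPrimeCore p x ≤ ppc p (Subgroup.normalizer (Subgroup.zpowers x : Set G)) := by
  have h1 : Subgroup.centralizer ({x} : Set G) =
      Subgroup.centralizer ((Subgroup.zpowers x : Subgroup G) : Set G) := by
    rw [Subgroup.zpowers_eq_closure, Subgroup.centralizer_closure]
  have h2 : Subgroup.centralizer ({x} : Set G) ≤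
      Subgroup.normalizer (Subgroup.zpowers x : Set G) := by
    rw [h1]; exact Subgroup.centralizer_le_normalizer _
  have h3 : Subgroup.normalizer (Subgroup.zpowers x : Set G) ≤
      Subgroup.normalizer (Subgroup.centralizer ({x} : Set G) : Set G) := by
    rw [h1]; exact H1.Coprime2.le_normalizer_centralizer le_rfl
  exact le_ppc ((ppc_le p _).trans h2) (h3.trans (normalizer_le_normalizer_ppc p _)) (card_ppc p _)

/-- `O_{p'}(C_G(x))` normalizes each component -/
theorem core_le_normalizer [Finite G] {p : ℕ} [hp : Fact p.Prime] (hO : pPrimeCore p G = ⊥)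
    {x : G} (hx : ∃ k : ℕ, x ^ p ^ k = 1) {L : Subgroup G} (hL : IsComponent L) :
    centralizerPPrimeCore p x ≤ Subgroup.normalizer (L : Set G) := by
  intro t ht
  obtain ⟨s, hs, rfl⟩ := core_le_ppc_normalizer x ht
  refine H26.CompNorm.pPrimeCore_normalizer_le_normalizer hO ?_ hL hs
  obtain ⟨k, hk⟩ := hx
  apply IsPGroup.of_card_dvd_pow (n := k)
  rw [Nat.card_zpowers]
  exact orderOf_dvd_of_pow_eq_one hk

/-- `O_{p'}(C_G(x))` centralizes `O_p(G)` -/
theorem core_le_centralizer_pCore [Finite G] {p : ℕ} [hp : Fact p.Prime]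
    {x : G} (hx : ∃ k : ℕ, x ^ p ^ k = 1) :
    centralizerPPrimeCore p x ≤ Subgroup.centralizer (pCore p G : Set G) := by
  intro t ht
  obtain ⟨s, hs, rfl⟩ := core_le_ppc_normalizer x ht
  have hP : IsPGroup p (Subgroup.zpowers x) := by
    obtain ⟨k, hk⟩ := hx
    apply IsPGroup.of_card_dvd_pow (n := k)
    rw [Nat.card_zpowers]
    exact orderOf_dvd_of_pow_eq_one hk
  exact ope_normalizer_le p (Subgroup.zpowers x) hP
    (Subgroup.mem_map_of_mem _ (pPrimeCore_le_ope p hs))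

theorem conj_smul_pow_ne {x : G} {p : ℕ} [hp : Fact p.Prime] (hx : orderOf x = p) {L : Subgroup G}
    (h : MulAut.conj x • L ≠ L) {i : ℕ} (hi : 0 < i) (hip : i < p) :
    MulAut.conj (x ^ i) • L ≠ L := by
  intro h1
  apply h
  rw [H1.SZ.conj_smul_eq_iff] at h1 ⊢
  have h2 : Nat.Coprime i (orderOf x) := by
    rw [hx]
    exact ((Nat.Prime.coprime_iff_not_dvd hp.out).mpr (fun h => by
      have := Nat.le_of_dvd hi h; omega)).symm
  exact (Subgroup.zpowers_le.mpr h1) (mem_zpowers_pow_iff.mpr h2)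

theorem commutator_core_eq_bot_of_ne [Finite G] {p : ℕ} [hp : Fact p.Prime]
    (hO : pPrimeCore p G = ⊥) {x : G} (hx : orderOf x = p) {L : Subgroup G} (hL : IsComponent L)
    (h : MulAut.conj x • L ≠ L) : ⁅L, centralizerPPrimeCore p x⁆ = ⊥ := by
  set X := centralizerPPrimeCore p x with hX
  have hxp : x ^ p = 1 := hx ▸ pow_orderOf_eq_one x
  have hXcard : (Nat.card X).Coprime p := card_ppc p _
  have hc : ∀ i, 0 < i → i < p → ∀ a ∈ L, ∀ b ∈ L, Commute a (x ^ i * b * (x ^ i)⁻¹) := by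
    intro i hi hip a ha b hb
    have h1 := commutator_eq_bot_of_ne hL (H26.CompNorm.isComponent_smul hL (x ^ i))
      (conj_smul_pow_ne hx h hi hip).symm
    refine commute_of_commutator_eq_bot h1 ha (H1.SZ.mem_conj_smul.mpr ?_)
    have : (x ^ i)⁻¹ * (x ^ i * b * (x ^ i)⁻¹) * x ^ i = b := by group
    rwa [this]
  have hXL : X ≤ Subgroup.normalizer (L : Set G) := core_le_normalizer hO ⟨1, by rwa [pow_one]⟩ hL
  have hXx : ∀ t ∈ X, Commute t x := by
    intro t ht
    have := (Subgroup.map_subtype_le _ : X ≤ Subgroup.centralizer {x}) ht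
    exact (Subgroup.mem_centralizer_iff.mp this x rfl).symm
  set φ := diag x L p hc with hφ
  have hφa : ∀ a : L, φ a = jj x (a : G) p := fun a => rfl
  have hφC : ∀ a : L, φ a ∈ Subgroup.centralizer ({x} : Set G) := by
    intro a
    rw [Subgroup.mem_centralizer_iff]
    intro y hy
    rw [Set.mem_singleton_iff.mp hy, hφa]
    exact (jj_commute_x hp.out.pos hxp hc a.2).eq
  have hφX : ∀ a : L, φ a ∈ Subgroup.normalizer (X : Set G) := fun a =>
    le_normalizer_ppc p (Subgroup.centralizer ({x} : Set G)) (hφC a)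
  set M : Subgroup L := X.comap φ with hM
  have hMn : M.Normal := by
    refine ⟨fun m hm a => ?_⟩
    rw [hM, Subgroup.mem_comap] at hm ⊢
    rw [map_mul, map_mul, map_inv]
    exact (Subgroup.mem_normalizer_iff.mp (hφX a) _).mp hm
  -- elements of `M` have `p'`-power in the centre
  have hpow : ∀ m : L, m ∈ M → ((m : G) ^ Nat.card X) ∈ Subgroup.centralizer (L : Set G) := by
    intro m hm
    rw [hM, Subgroup.mem_comap] at hm
    have h1 : φ (m ^ Nat.card X) = 1 := by
      rw [map_pow]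
      exact congrArg Subtype.val (pow_card_eq_one' (x := (⟨φ m, hm⟩ : X)))
    rw [hφa, Subgroup.coe_pow] at h1
    rw [Subgroup.mem_centralizer_iff]
    intro b hb
    obtain ⟨n, hn⟩ : ∃ n, p = n + 1 := ⟨p - 1, by have := hp.out.pos; omega⟩
    have h2 : Commute b (((m : G) ^ Nat.card X)⁻¹ * jj x ((m : G) ^ Nat.card X) (n + 1)) :=
      jj_rest hc (L.pow_mem m.2 _) hb (by omega)
    rw [← hn, h1, mul_one] at h2
    have h3 := h2.inv_right
    rw [inv_inv] at h3
    exact h3.eq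
  have hMcase : ⁅M.map L.subtype, L⁆ = ⊥ := by
    have hn' : ((M.map L.subtype).subgroupOf L).Normal := by
      rw [Subgroup.subgroupOf, Subgroup.comap_map_eq_self_of_injective L.subtype_injective]
      exact hMn
    rcases normal_eq_or_le_center_of_le hL.2 hn' (Subgroup.map_subtype_le M) with h1 | h1
    · exfalso
      have h2 : L ≤ Subgroup.centralizer (L : Set G) := by
        have h3 : H26.OPPrime.opp p L ≤ Subgroup.centralizer (L : Set G) := by
          rw [H26.OPPrime.opp, Subgroup.closure_le]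
          rintro y ⟨hy, hyk⟩
          have h4 : y ∈ M.map L.subtype := by rw [h1]; exact hy
          obtain ⟨m, hm, rfl⟩ := h4
          exact H26.OPPrime.mem_of_pow_mem hyk hXcard (hpow m hm)
        rwa [H26.PComponents.opp_component hO hL] at h3
      exact not_commutative hL (Subgroup.commutator_eq_bot_iff_le_centralizer.mpr h2)
    · exact h1
  apply commutator_eq_bot_of_perfect' (isPerfect hL)
  rw [Subgroup.commutator_eq_bot_iff_le_centralizer, Subgroup.commutator_le]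
  intro l hl t ht
  -- `l t l⁻¹ t⁻¹ = (l⁻¹)⁻¹ (t l⁻¹ t⁻¹)`
  have h1 : t * l⁻¹ * t⁻¹ ∈ L := (Subgroup.mem_normalizer_iff.mp (hXL ht) _).mp (L.inv_mem hl)
  have h2 : (⁅l, t⁆ : G) = l * (t * l⁻¹ * t⁻¹) := by rw [commutatorElement_def]; group
  have h3 : (⟨l * (t * l⁻¹ * t⁻¹), L.mul_mem hl h1⟩ : L) ∈ M := by
    rw [hM, Subgroup.mem_comap]
    have h4 : (⟨l * (t * l⁻¹ * t⁻¹), L.mul_mem hl h1⟩ : L) = ⟨l, hl⟩ * ⟨t * l⁻¹ * t⁻¹, h1⟩ := rfl
    rw [h4, map_mul]
    have h5 : φ ⟨t * l⁻¹ * t⁻¹, h1⟩ = t * (φ ⟨l, hl⟩)⁻¹ * t⁻¹ := by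
      have h6 : φ ⟨t * l⁻¹ * t⁻¹, h1⟩ = t * φ (⟨l, hl⟩⁻¹) * t⁻¹ := jj_conj (hXx t ht) _ _
      rw [h6, map_inv]
    rw [h5]
    have h7 := (Subgroup.mem_normalizer_iff.mp (hφX ⟨l, hl⟩) t).mp ht
    have h8 : φ ⟨l, hl⟩ * (t * (φ ⟨l, hl⟩)⁻¹ * t⁻¹) = (φ ⟨l, hl⟩ * t * (φ ⟨l, hl⟩)⁻¹) * t⁻¹ := by group
    rw [h8]
    exact X.mul_mem h7 (X.inv_mem ht)
  rw [h2]
  exact (Subgroup.commutator_eq_bot_iff_le_centralizer.mp hMcase) (Subgroup.mem_map_of_mem L.subtype h3)

theorem commutator_core_eq_bot_of_commute [Finite G] {p : ℕ} [hp : Fact p.Prime]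
    (hO : pPrimeCore p G = ⊥) {x : G} {L : Subgroup G} (hL : IsComponent L)
    (h : L ≤ Subgroup.centralizer ({x} : Set G)) : ⁅L, centralizerPPrimeCore p x⁆ = ⊥ := by
  set C := Subgroup.centralizer ({x} : Set G) with hC
  have hL' := subgroupOf_of_le hL h
  rcases le_or_commutator_eq_bot_of_normal hL' (H := pPrimeCore p C) with h1 | h1
  · exfalso
    have h2 := H26.PComponents.dvd_card_of_component hO hL
    have h3 := Subgroup.card_dvd_of_le h1
    rw [Nat.card_congr (Subgroup.subgroupOfEquivOfLe h).toEquiv] at h3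
    exact (Nat.Prime.coprime_iff_not_dvd hp.out).mp (H1.Cores.coprime_card_pPrimeCore p).symm
      (h2.trans h3)
  · rw [← map_commutator_eq_bot_iff C.subtype C.subtype_injective,
      Subgroup.map_subgroupOf_eq_of_le h] at h1
    exact h1

/-- S1270 -/
theorem commutator_core_eq_bot [Finite G] {p : ℕ} [hp : Fact p.Prime]
    (hO : pPrimeCore p G = ⊥) {x : G} (hx : orderOf x = p) {L : Subgroup G} (hL : IsComponent L)
    (hne : ⁅L, Subgroup.zpowers x⁆ ≠ L) : ⁅L, centralizerPPrimeCore p x⁆ = ⊥ := by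
  by_cases h : MulAut.conj x • L = L
  · have hxL : Subgroup.zpowers x ≤ Subgroup.normalizer (L : Set G) := by
      rw [Subgroup.zpowers_le]
      exact H1.SZ.mem_normalizer_of_conj_smul_eq h
    have h1 : ⁅L, Subgroup.zpowers x⁆ ≤ L := Subgroup.le_normalizer_iff_commutator_le_left.mp hxL
    have h2 : ((⁅L, Subgroup.zpowers x⁆).subgroupOf L).Normal :=
      Subgroup.normal_subgroupOf_of_le_normalizer
        (H1.Coprime2.le_normalizer_commutator_left L (Subgroup.zpowers x))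
    rcases normal_eq_or_le_center_of_le hL.2 h2 h1 with h3 | h3
    · exact absurd h3 hne
    · have h4 := commutator_eq_bot_of_perfect' (isPerfect hL) h3
      apply commutator_core_eq_bot_of_commute hO hL
      rw [Subgroup.commutator_eq_bot_iff_le_centralizer] at h4
      rwa [Subgroup.zpowers_eq_closure, Subgroup.centralizer_closure] at h4
  · exact commutator_core_eq_bot_of_ne hO hx hL h

end H26.CompCent
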