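import Mathlib
import Cfsg.Prelude.Def_Balance
import Cfsg.Agent.Lib.H26.CompCent

/-!
Balance of a group from balance of the automizers of its components.
-/

set_option autoImplicit false
set_option linter.unusedSectionVars false

open Cfsg Subgroup H26.Basic H26.Components H26.PxQ H26.GenFitting H26.LocalFitting H26.CompNorm
  H26.CompCent
open scoped Pointwise commutatorElement

namespace H26.CompBal

variable {G : Type*} [Group G] [Finite G] {p : ℕ} [hp : Fact p.Prime]

/-- `H/C_H(L)` has trivial `p'`-core when the component `L` is normal in `H`. -/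
theorem pPrimeCore_quotient_centralizer (hO : pPrimeCore p G = ⊥) {L H : Subgroup G}
    (hL : IsComponent L) (hLH : L ≤ H) (hHL : H ≤ Subgroup.normalizer (L : Set G))
    [((Subgroup.centralizer (L : Set G)).subgroupOf H).Normal] :
    pPrimeCore p (H ⧸ (Subgroup.centralizer (L : Set G)).subgroupOf H) = ⊥ := by
  set C := (Subgroup.centralizer (L : Set G)).subgroupOf H with hC
  set O := pPrimeCore p (H ⧸ C) with hOdef
  have hOn : (O.comap (QuotientGroup.mk' C)).Normal := inferInstance
  set O' := (O.comap (QuotientGroup.mk' C)).map H.subtype with hO'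
  have hO'H : O' ≤ H := Subgroup.map_subtype_le _
  have hHO' : H ≤ Subgroup.normalizer (O' : Set G) := by
    rw [← Subgroup.normal_subgroupOf_iff_le_normalizer hO'H, hO', Subgroup.subgroupOf,
      Subgroup.comap_map_eq_self_of_injective H.subtype_injective]
    exact hOn
  have h1 : ⁅O', L⁆ ≤ O' ⊓ L := le_inf
    (Subgroup.le_normalizer_iff_commutator_le_left.mp (hLH.trans hHO'))
    (Subgroup.le_normalizer_iff_commutator_le_right.mp (hO'H.trans hHL))
  have h2 : ((O' ⊓ L).subgroupOf L).Normal := by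
    apply Subgroup.normal_subgroupOf_of_le_normalizer
    intro l hl
    rw [Subgroup.mem_normalizer_iff]
    intro y
    rw [Subgroup.mem_inf, Subgroup.mem_inf]
    exact and_congr (Subgroup.mem_normalizer_iff.mp (hHO' (hLH hl)) y)
      (Subgroup.mem_normalizer_iff.mp (Subgroup.le_normalizer hl) y)
  have h3 : ⁅O' ⊓ L, L⁆ = ⊥ := by
    rcases normal_eq_or_le_center_of_le hL.2 h2 inf_le_right with h3 | h3
    · exfalso
      have h4 : H26.OPPrime.opp p L ≤ Subgroup.centralizer (L : Set G) := by
        rw [H26.OPPrime.opp, Subgroup.closure_le]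
        rintro y ⟨hy, k, hk⟩
        have hyO : y ∈ O' := (inf_eq_right.mp h3) hy
        obtain ⟨z, hz, rfl⟩ := hyO
        have h5 : orderOf (QuotientGroup.mk' C z) ∣ Nat.card O :=
          Subgroup.orderOf_dvd_natCard _ hz
        have h6 : orderOf (QuotientGroup.mk' C z) ∣ p ^ k := by
          apply orderOf_dvd_of_pow_eq_one
          rw [← map_pow]
          have : z ^ p ^ k = 1 := Subtype.ext (by simpa using hk)
          rw [this, map_one]
        have h7 : Nat.Coprime (Nat.card O) (p ^ k) :=
          Nat.Coprime.pow_right k (H1.Cores.coprime_card_pPrimeCore p)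
        have h8 : orderOf (QuotientGroup.mk' C z) ∣ 1 := by
          rw [← h7]; exact Nat.dvd_gcd h5 h6
        have h9 := (QuotientGroup.eq_one_iff z).mp (orderOf_eq_one_iff.mp (Nat.dvd_one.mp h8))
        exact Subgroup.mem_subgroupOf.mp h9
      rw [H26.PComponents.opp_component hO hL] at h4
      exact not_commutative hL (Subgroup.commutator_eq_bot_iff_le_centralizer.mpr h4)
    · exact h3
  have h4 : ⁅O', L⁆ = ⊥ :=
    commutator_eq_bot_of_perfect (isPerfect hL) (commutator_eq_bot_mono h3 h1 le_rfl)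
  have h5 : O' ≤ Subgroup.centralizer (L : Set G) := Subgroup.commutator_eq_bot_iff_le_centralizer.mp h4
  rw [eq_bot_iff]
  intro q hq
  obtain ⟨z, rfl⟩ := QuotientGroup.mk'_surjective C q
  rw [Subgroup.mem_bot]
  apply (QuotientGroup.eq_one_iff z).mpr
  exact Subgroup.mem_subgroupOf.mpr (h5 ⟨z, hq, rfl⟩)

/-- `O_{p'}(C_G(x)) = O_{p'}(C_G(x) ∩ C_G(O_p(G)))` -/
theorem core_eq_ppc {x : G} (hx : ∃ k : ℕ, x ^ p ^ k = 1) :
    centralizerPPrimeCore p x =
      ppc p (Subgroup.centralizer ({x} : Set G) ⊓ Subgroup.centralizer (pCore p G : Set G)) := by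
  set C := Subgroup.centralizer ({x} : Set G) with hC
  set C0 := C ⊓ Subgroup.centralizer (pCore p G : Set G) with hC0
  have h1 : centralizerPPrimeCore p x ≤ C0 := le_inf (ppc_le p C) (core_le_centralizer_pCore hx)
  apply le_antisymm
  · exact le_ppc h1 (inf_le_left.trans (le_normalizer_ppc p C)) (card_ppc p C)
  · have h2 : C ≤ Subgroup.normalizer (C0 : Set G) := by
      refine H1.Coprime2.le_normalizer_inf Subgroup.le_normalizer ?_
      rw [Subgroup.normalizer_eq_top_iff.mpr
        (inferInstance : (Subgroup.centralizer (pCore p G : Set G)).Normal)]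
      exact le_top
    exact le_ppc ((ppc_le p C0).trans inf_le_left) (h2.trans (normalizer_le_normalizer_ppc p C0))
      (card_ppc p C0)

/-- an element `l` with `[l, x] ∈ O_p(G)` normalizes `O_{p'}(C_G(x))` -/
theorem mem_normalizer_core {x l : G} (hx : ∃ k : ℕ, x ^ p ^ k = 1)
    (hl : l * x * l⁻¹ * x⁻¹ ∈ pCore p G) :
    l ∈ Subgroup.normalizer (centralizerPPrimeCore p x : Set G) := by
  rw [core_eq_ppc hx]
  apply normalizer_le_normalizer_ppc p
  set O := pCore p G with hO
  have key : ∀ l : G, l * x * l⁻¹ * x⁻¹ ∈ O →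
      ∀ g ∈ Subgroup.centralizer ({x} : Set G) ⊓ Subgroup.centralizer (O : Set G),
      l * g * l⁻¹ ∈ Subgroup.centralizer ({x} : Set G) ⊓ Subgroup.centralizer (O : Set G) := by
    intro l hl g hg
    obtain ⟨hg1, hg2⟩ := Subgroup.mem_inf.mp hg
    have h1 : l * g * l⁻¹ ∈ Subgroup.centralizer (O : Set G) :=
      (inferInstance : (Subgroup.centralizer (O : Set G)).Normal).conj_mem g hg2 l
    refine Subgroup.mem_inf.mpr ⟨?_, h1⟩
    rw [Subgroup.mem_centralizer_iff]
    intro y hy
    rw [Set.mem_singleton_iff.mp hy]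
    set z := l * x * l⁻¹ * x⁻¹ with hz
    have h2 : z * (l * g * l⁻¹) = (l * g * l⁻¹) * z := Subgroup.mem_centralizer_iff.mp h1 z hl
    have h3 : x * g = g * x := Subgroup.mem_centralizer_iff.mp hg1 x rfl
    have h4 : (z * x) * (l * g * l⁻¹) = (l * g * l⁻¹) * (z * x) := by
      have h5 : z * x = l * x * l⁻¹ := by rw [hz]; group
      rw [h5]
      calc l * x * l⁻¹ * (l * g * l⁻¹) = l * (x * g) * l⁻¹ := by group
        _ = l * (g * x) * l⁻¹ := by rw [h3]
        _ = _ := by group
    calc x * (l * g * l⁻¹) = z⁻¹ * ((z * x) * (l * g * l⁻¹)) := by group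
      _ = z⁻¹ * ((l * g * l⁻¹) * (z * x)) := by rw [h4]
      _ = z⁻¹ * ((l * g * l⁻¹) * z) * x := by group
      _ = z⁻¹ * (z * (l * g * l⁻¹)) * x := by rw [h2]
      _ = (l * g * l⁻¹) * x := by group
  rw [Subgroup.mem_normalizer_iff]
  intro g
  refine ⟨key l hl g, fun h => ?_⟩
  have h1 : l⁻¹ * x * l⁻¹⁻¹ * x⁻¹ ∈ O := by
    have h2 := (inferInstance : O.Normal).conj_mem _ (O.inv_mem hl) l⁻¹
    have h3 : l⁻¹ * (l * x * l⁻¹ * x⁻¹)⁻¹ * l⁻¹⁻¹ = l⁻¹ * x * l⁻¹⁻¹ * x⁻¹ := by group
    rwa [h3] at h2
  have := key l⁻¹ h1 _ h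
  simpa [mul_assoc] using this

/-- the core of the centralizer of `x` centralizes the components `L` with `[L, x] = L` if the
automizers of `L` are balanced -/
theorem core_le_centralizer (hO : pPrimeCore p G = ⊥) {x : G} (hx : orderOf x = p) {L : Subgroup G}
    (hL : IsComponent L) (hLx : ⁅L, Subgroup.zpowers x⁆ = L)
    (h : ∀ H : Subgroup G, L ≤ H → (L.subgroupOf H).Normal →
      ∀ [((Subgroup.centralizer (L : Set G)).subgroupOf H).Normal],
        IsBalancedFor p (↥H ⧸ (Subgroup.centralizer (L : Set G)).subgroupOf H)) :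
    centralizerPPrimeCore p x ≤ Subgroup.centralizer (L : Set G) := by
  set X := centralizerPPrimeCore p x with hX
  have hxp : x ^ p = 1 := hx ▸ pow_orderOf_eq_one x
  have hxk : ∃ k : ℕ, x ^ p ^ k = 1 := ⟨1, by rwa [pow_one]⟩
  have hXL : X ≤ Subgroup.normalizer (L : Set G) := core_le_normalizer hO hxk hL
  have hxL : Subgroup.zpowers x ≤ Subgroup.normalizer (L : Set G) := by
    have := H1.Coprime2.le_normalizer_commutator_right L (Subgroup.zpowers x)
    rwa [hLx] at this
  set R := X ⊔ Subgroup.zpowers x with hR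
  have hRL : R ≤ Subgroup.normalizer (L : Set G) := sup_le hXL hxL
  have hXC : X ≤ Subgroup.centralizer ({x} : Set G) := Subgroup.map_subtype_le _
  have hRC : R ≤ Subgroup.centralizer ({x} : Set G) := by
    refine sup_le hXC ?_
    rw [Subgroup.zpowers_le, Subgroup.mem_centralizer_iff]
    intro y hy
    rw [Set.mem_singleton_iff.mp hy]
  have hRX : R ≤ Subgroup.normalizer (X : Set G) :=
    hRC.trans (le_normalizer_ppc p (Subgroup.centralizer ({x} : Set G)))
  set H := L ⊔ R with hH
  have hLH : L ≤ H := le_sup_left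
  have hXH : X ≤ H := le_sup_left.trans le_sup_right
  have hxH : x ∈ H := Subgroup.mem_sup_right (Subgroup.mem_sup_right (Subgroup.mem_zpowers x))
  have hHL : H ≤ Subgroup.normalizer (L : Set G) := sup_le Subgroup.le_normalizer hRL
  have hLn : (L.subgroupOf H).Normal := Subgroup.normal_subgroupOf_of_le_normalizer hHL
  have hCn : ((Subgroup.centralizer (L : Set G)).subgroupOf H).Normal :=
    Subgroup.normal_subgroupOf_of_le_normalizer (hHL.trans (H1.Coprime2.le_normalizer_centralizer le_rfl))
  have hbal := h H hLH hLn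
  have hO' := pPrimeCore_quotient_centralizer hO hL hLH hHL
  set C := (Subgroup.centralizer (L : Set G)).subgroupOf H with hC
  set π := QuotientGroup.mk' C with hπ
  set x' : H := ⟨x, hxH⟩ with hx'
  have hy1 : π x' ≠ 1 := by
    intro h1
    have h2 : x ∈ Subgroup.centralizer (L : Set G) :=
      Subgroup.mem_subgroupOf.mp ((QuotientGroup.eq_one_iff x').mp h1)
    have h3 : ⁅L, Subgroup.zpowers x⁆ = ⊥ := by
      rw [Subgroup.commutator_comm, Subgroup.commutator_eq_bot_iff_le_centralizer, Subgroup.zpowers_le]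
      exact h2
    rw [hLx] at h3
    exact ne_bot hL h3
  have hyp : (π x') ^ p = 1 := by
    rw [← map_pow]
    have : x' ^ p = 1 := Subtype.ext hxp
    rw [this, map_one]
  have hy : orderOf (π x') = p := orderOf_eq_prime hyp hy1
  have h1 := hbal (π x') hy
  rw [hO'] at h1
  have h2 : (X.subgroupOf H).map π ≤ centralizerPPrimeCore p (π x') := by
    refine le_ppc ?_ ?_ ?_
    · rintro _ ⟨t, ht, rfl⟩
      rw [Subgroup.mem_centralizer_iff]
      intro y hy
      rw [Set.mem_singleton_iff.mp hy, ← map_mul, ← map_mul]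
      have h3 : x' * t = t * x' := by
        apply Subtype.ext
        exact Subgroup.mem_centralizer_iff.mp (hXC ht) x rfl
      rw [h3]
    · intro q hq
      obtain ⟨g, rfl⟩ := QuotientGroup.mk'_surjective C q
      have hgX : (g : G) ∈ Subgroup.normalizer (X : Set G) := by
        obtain ⟨l, hl, s, hs, hls⟩ := (mem_sup_of_le_normalizer' hRL).mp g.2
        rw [← hls]
        refine Subgroup.mul_mem _ ?_ (hRX hs)
        apply mem_normalizer_core hxk
        apply zl_le_pCore hO
        -- `[l, x] ∈ L ∩ C(L)`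
        have hsH : s ∈ H := Subgroup.mem_sup_right hs
        have hlH : l ∈ H := hLH hl
        have h3 : π (⟨l, hlH⟩ : H) * π x' = π x' * π (⟨l, hlH⟩ : H) := by
          have h4 := Subgroup.mem_centralizer_iff.mp hq (π x') rfl
          have h5 : g = (⟨l, hlH⟩ : H) * ⟨s, hsH⟩ := Subtype.ext hls.symm
          have h6 : x' * (⟨s, hsH⟩ : H) = (⟨s, hsH⟩ : H) * x' := by
            apply Subtype.ext
            exact Subgroup.mem_centralizer_iff.mp (hRC hs) x rfl
          have h7 : π x' * π (⟨s, hsH⟩ : H) = π (⟨s, hsH⟩ : H) * π x' := by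
            rw [← map_mul, ← map_mul, h6]
          rw [h5] at h4
          change π x' * π ((⟨l, hlH⟩ : H) * ⟨s, hsH⟩) = π ((⟨l, hlH⟩ : H) * ⟨s, hsH⟩) * π x' at h4
          rw [map_mul, mul_assoc, ← h7, ← mul_assoc, ← mul_assoc] at h4
          exact (mul_right_cancel h4).symm
        have h4 : (⟨l, hlH⟩ : H) * x' * (⟨l, hlH⟩ : H)⁻¹ * x'⁻¹ ∈ C := by
          apply (QuotientGroup.eq_one_iff _).mp
          change π _ = 1
          rw [map_mul, map_mul, map_mul, h3, map_inv, map_inv]
          group
        have h5 : l * x * l⁻¹ * x⁻¹ ∈ Subgroup.centralizer (L : Set G) := Subgroup.mem_subgroupOf.mp h4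
        have h6 : l * x * l⁻¹ * x⁻¹ ∈ L := by
          have h7 := (Subgroup.mem_normalizer_iff.mp (hxL (Subgroup.mem_zpowers x)) _).mp (L.inv_mem hl)
          have h8 := L.mul_mem hl h7
          simpa [mul_assoc] using h8
        exact component_centre_le_layer_centre hL (Subgroup.mem_inf.mpr ⟨h6, h5⟩)
      -- transfer to the quotient
      have h3 : g ∈ Subgroup.normalizer ((X.subgroupOf H : Subgroup H) : Set H) := by
        rw [Subgroup.mem_normalizer_iff]
        intro t
        rw [Subgroup.mem_subgroupOf, Subgroup.mem_subgroupOf]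
        exact Subgroup.mem_normalizer_iff.mp hgX t
      exact Subgroup.le_normalizer_map π (Subgroup.mem_map_of_mem π h3)
    · refine Nat.Coprime.coprime_dvd_left (Subgroup.card_map_dvd _ _) ?_
      rw [Nat.card_congr (Subgroup.subgroupOfEquivOfLe hXH).toEquiv]
      exact card_ppc p _
  have h3 : (X.subgroupOf H).map π = ⊥ := le_bot_iff.mp (h2.trans h1)
  rw [Subgroup.map_eq_bot_iff, hπ, QuotientGroup.ker_mk'] at h3
  intro t ht
  exact Subgroup.mem_subgroupOf.mp (h3 (show (⟨t, hXH ht⟩ : H) ∈ X.subgroupOf H from ht))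

/-- a `p'`-subgroup centralizing `O_p(G)` and all components is trivial if `O_{p'}(G) = 1` -/
theorem eq_bot_of_centralizes (hO : pPrimeCore p G = ⊥) {X : Subgroup G}
    (hX : (Nat.card X).Coprime p) (h1 : X ≤ Subgroup.centralizer (pCore p G : Set G))
    (h2 : ∀ L : Subgroup G, IsComponent L → ⁅L, X⁆ = ⊥) : X = ⊥ := by
  have h3 : ⁅generalizedFittingSubgroup G, X⁆ = ⊥ := by
    rw [gFitting_eq_of_pPrimeCore_eq_bot hO]
    refine commutator_sup_left_eq_bot (commutator_sSup_left_eq_bot fun L hL => h2 L hL) ?_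
    rw [Subgroup.commutator_comm, Subgroup.commutator_eq_bot_iff_le_centralizer]
    exact h1
  rw [Subgroup.commutator_comm, Subgroup.commutator_eq_bot_iff_le_centralizer] at h3
  have h4 : Subgroup.centralizer (generalizedFittingSubgroup G : Set G) ≤ fittingSubgroup G := by
    apply H1.Cores.le_fittingSubgroup inferInstance
    have h6 : IsMulCommutative (Subgroup.centralizer (generalizedFittingSubgroup G : Set G)) := by
      refine ⟨⟨fun a b => Subtype.ext ?_⟩⟩
      exact Subgroup.mem_centralizer_iff.mp b.2 a (centralizer_gFitting_le a.2)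
    let : CommGroup (Subgroup.centralizer (generalizedFittingSubgroup G : Set G)) :=
      { (inferInstance : Group (Subgroup.centralizer (generalizedFittingSubgroup G : Set G))) with
        mul_comm := h6.is_comm.comm }
    exact CommGroup.isNilpotent
  rw [H1.Cores.fittingSubgroup_eq_pCore_of p hO] at h4
  have h5 := inf_eq_bot_of_coprime (H1.Cores.isPGroup_pCore (G := G) p) hX
  rwa [inf_eq_right.mpr (h3.trans h4)] at h5

end H26.CompBal
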