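import Cfsg.Agent.Lib.H96.FrDef

set_option autoImplicit false

/-!
Frame stabilisers: `k d k⁻¹` monomial implies `k` monomial, odd dimension at least 7.
-/

namespace H26.FrP3

open Matrix H96.Fr

variable {ι F : Type*} [Fintype ι] [DecidableEq ι] [Field F] {K : Subgroup ((ι → F) ≃ₗ[F] (ι → F))}

lemma e_apply (i j : ι) : (e i : ι → F) j = if j = i then 1 else 0 := by
  simp [e, Pi.single_apply]

lemma e_self (i : ι) : (e i : ι → F) i = 1 := by simp [e_apply]

lemma e_ne {i j : ι} (h : j ≠ i) : (e i : ι → F) j = 0 := by simp [e_apply, h]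

lemma e_dot (i : ι) (x : ι → F) : (e i : ι → F) ⬝ᵥ x = x i := by
  simp [e]

lemma dot_e (i : ι) (x : ι → F) : x ⬝ᵥ (e i : ι → F) = x i := by
  simp [e]

/-- two linear equivalences agreeing on the basis are equal -/
lemma ext_e {f g : (ι → F) ≃ₗ[F] (ι → F)} (h : ∀ i, f (e i) = g (e i)) : f = g := by
  apply LinearEquiv.toLinearMap_injective
  refine LinearMap.pi_ext' fun i => ?_
  refine LinearMap.ext_ring ?_
  have := h i
  simpa [e] using this

lemma mul_app (f g : (ι → F) ≃ₗ[F] (ι → F)) (x : ι → F) : (f * g) x = f (g x) := rfl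

lemma inv_app (f : (ι → F) ≃ₗ[F] (ι → F)) (x : ι → F) : f (f⁻¹ x) = x := by
  rw [← mul_app, mul_inv_cancel]; rfl

lemma app_inv (f : (ι → F) ≃ₗ[F] (ι → F)) (x : ι → F) : f⁻¹ (f x) = x := by
  rw [← mul_app, inv_mul_cancel]; rfl

lemma sg_e_eq {i j k : ι} (h : k = i ∨ k = j) : sg i j (e k) = (- e k : ι → F) := by
  funext l
  rw [sg_apply]
  by_cases hl : l = i ∨ l = j
  · rw [if_pos hl]; rfl
  · rw [if_neg hl]
    have : l ≠ k := by rintro rfl; exact hl h
    simp [e_ne this]

lemma sg_e_ne {i j k : ι} (h : ¬ (k = i ∨ k = j)) : sg i j (e k) = (e k : ι → F) := by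
  funext l
  rw [sg_apply]
  by_cases hl : l = i ∨ l = j
  · rw [if_pos hl]
    have : l ≠ k := by rintro rfl; exact h hl
    simp [e_ne this]
  · rw [if_neg hl]

/-- the inverse of an element of `K` : coordinates -/
lemma inv_coord (D : Dat K) {g : (ι → F) ≃ₗ[F] (ι → F)} (hg : g ∈ K) (x : ι → F) (a : ι) :
    (g⁻¹ x) a = x ⬝ᵥ g (e a) := by
  rw [← dot_e a (g⁻¹ x), ← D.iso g hg, inv_app]

/-- an even sign change in `K` -/
lemma exists_sign (D : Dat K) (S : Finset ι) (hS : Even S.card) :
    ∃ z ∈ K, ∀ x : ι → F, ∀ k, (z : (ι → F) ≃ₗ[F] (ι → F)) x k = if k ∈ S then - x k else x k := by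
  induction' hn : S.card using Nat.strong_induction_on with n ih generalizing S
  rcases Nat.eq_zero_or_pos n with h0 | h0
  · refine ⟨1, K.one_mem, fun x k => ?_⟩
    have : S = ∅ := Finset.card_eq_zero.mp (hn.trans h0)
    subst this; simp
  · have h2 : 1 < S.card := by
      obtain ⟨m, hm⟩ := hS; omega
    obtain ⟨b, hb, c, hc, hbc⟩ := Finset.one_lt_card.mp h2
    have hcard : ((S.erase b).erase c).card = S.card - 2 := by
      rw [Finset.card_erase_of_mem (Finset.mem_erase.mpr ⟨hbc.symm, hc⟩), Finset.card_erase_of_mem hb]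
      omega
    have hev : Even ((S.erase b).erase c).card := by
      rw [hcard]; obtain ⟨m, hm⟩ := hS; exact ⟨m - 1, by omega⟩
    obtain ⟨z, hz, hz'⟩ := ih _ (by omega) ((S.erase b).erase c) hev rfl
    refine ⟨sg b c * z, K.mul_mem (D.sg b c hbc) hz, fun x k => ?_⟩
    rw [mul_app, sg_apply, hz']
    by_cases h1 : k = b
    · subst h1; simp [hb]
    · by_cases h3 : k = c
      · subst h3; simp [hc]
      · simp [h1, h3]

/-- the shape of a unit vector with monomial reflection -/
lemma shape (h2 : (2:F) ≠ 0) {v : ι → F} (hv : v ⬝ᵥ v = 1)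
    (h : ∀ p, ∃ q, - e p + (2 * v p) • v = e q ∨ - e p + (2 * v p) • v = - e q) :
    (∃ p, v = e p ∨ v = - e p) ∨
      ∃ p q, p ≠ q ∧ v p ≠ 0 ∧ (v q = v p ∨ v q = - v p) ∧ ∀ r, r ≠ p → r ≠ q → v r = 0 := by
  have hne : ∃ p, v p ≠ 0 := by
    by_contra hcon
    push Not at hcon
    have : v = 0 := funext hcon
    rw [this] at hv; simp at hv
  obtain ⟨p, hp⟩ := hne
  obtain ⟨q, hq⟩ := h p
  have hval : ∀ r, - (e p : ι → F) r + (2 * v p) * v r = (e q : ι → F) r ∨
      - (e p : ι → F) r + (2 * v p) * v r = - (e q : ι → F) r := by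
    intro r
    rcases hq with hq | hq
    · left; have := congrFun hq r; simpa using this
    · right; have := congrFun hq r; simpa using this
  have h0 : ∀ r, r ≠ p → r ≠ q → v r = 0 := by
    intro r hr hr'
    have h2p : 2 * v p ≠ 0 := mul_ne_zero h2 hp
    rcases hval r with h | h <;>
    · rw [e_ne hr, e_ne hr'] at h
      have : 2 * v p * v r = 0 := by simpa using h
      exact (mul_eq_zero.mp this).resolve_left h2p
  by_cases hpq : p = q
  · left
    subst hpq
    refine ⟨p, ?_⟩
    have hv' : v = v p • (e p : ι → F) := by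
      funext r
      by_cases hr : r = p
      · subst hr; simp [e_self]
      · simp [h0 r hr hr, e_ne hr]
    have hpp : v p * v p = 1 := by
      rw [hv'] at hv
      simpa [e_self, smul_dotProduct, dotProduct_smul, e_dot] using hv
    rcases mul_self_eq_one_iff.mp hpp with h | h
    · left; rw [hv', h, one_smul]
    · right; rw [hv', h]; simp
  · right
    refine ⟨p, q, hpq, hp, ?_, h0⟩
    have h1 : 2 * v p * v p = 1 := by
      rcases hval p with h | h <;>
      · rw [e_self, e_ne hpq] at h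
        linear_combination h
    have h3 : 2 * v p * v q = 1 ∨ 2 * v p * v q = -1 := by
      rcases hval q with h | h
      · left; rw [e_self, e_ne (Ne.symm hpq)] at h; linear_combination h
      · right; rw [e_self, e_ne (Ne.symm hpq)] at h; linear_combination h
    have h2p : 2 * v p ≠ 0 := mul_ne_zero h2 hp
    rcases h3 with h3 | h3
    · left; apply mul_left_cancel₀ h2p; rw [h3, h1]
    · right; apply mul_left_cancel₀ h2p; rw [h3, mul_neg, h1]

/-- an even permutation with two prescribed values -/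
lemma exists_even (hN : 4 ≤ Fintype.card ι) {p q a b : ι} (hpq : p ≠ q) (hab : a ≠ b) :
    ∃ σ : Equiv.Perm ι, Equiv.Perm.sign σ = 1 ∧ σ p = a ∧ σ q = b := by
  classical
  -- some permutation
  obtain ⟨τ, h1, h2⟩ : ∃ τ : Equiv.Perm ι, τ p = a ∧ τ q = b := by
    refine ⟨Equiv.swap (Equiv.swap p a q) b * Equiv.swap p a, ?_, ?_⟩
    · rw [Equiv.Perm.mul_apply, Equiv.swap_apply_left]
      apply Equiv.swap_apply_of_ne_of_ne
      · intro h
        have : Equiv.swap p a p = Equiv.swap p a q := by rw [Equiv.swap_apply_left]; exact h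
        exact hpq ((Equiv.swap p a).injective this)
      · exact hab
    · rw [Equiv.Perm.mul_apply, Equiv.swap_apply_left]
  rcases Int.units_eq_one_or (Equiv.Perm.sign τ) with h | h
  · exact ⟨τ, h, h1, h2⟩
  · -- two more points
    have hc : 1 < (({a, b} : Finset ι)ᶜ).card := by
      rw [Finset.card_compl, Finset.card_pair hab]; omega
    obtain ⟨c, hc, d, hd, hcd⟩ := Finset.one_lt_card.mp hc
    simp only [Finset.mem_compl, Finset.mem_insert, Finset.mem_singleton, not_or] at hc hd
    refine ⟨Equiv.swap c d * τ, ?_, ?_, ?_⟩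
    · rw [map_mul, Equiv.Perm.sign_swap hcd, h]; rfl
    · rw [Equiv.Perm.mul_apply, h1]; exact Equiv.swap_apply_of_ne_of_ne (Ne.symm hc.1) (Ne.symm hd.1)
    · rw [Equiv.Perm.mul_apply, h2]; exact Equiv.swap_apply_of_ne_of_ne (Ne.symm hc.2) (Ne.symm hd.2)

/-- final step: `g` maps the plane `W_ab` to the plane `W_pq` -/
lemma done (D : Dat K) (hc : C2 K) (hN : 4 ≤ Fintype.card ι) {g : (ι → F) ≃ₗ[F] (ι → F)} (hg : g ∈ K)
    {a b p q : ι} (hab : a ≠ b) (hpq : p ≠ q) (ha : ∀ r, r ≠ p → r ≠ q → g (e a) r = 0)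
    (hb : ∀ r, r ≠ p → r ≠ q → g (e b) r = 0) : Mon g := by
  classical
  obtain ⟨σ, hσ, h1, h2⟩ := exists_even hN hpq hab
  have hdot : ∀ (c d : ι), (∀ r, r ≠ p → r ≠ q → g (e d) r = 0) →
      g (e c) p * g (e d) p + g (e c) q * g (e d) q = if c = d then 1 else 0 := by
    intro c d hd
    have h := D.iso g hg (e c) (e d)
    rw [dotProduct, ← Finset.sum_subset (Finset.subset_univ ({p, q} : Finset ι)), Finset.sum_pair hpq] at h
    · rw [h, e_dot, e_apply]
    · intro r _ hr
      simp only [Finset.mem_insert, Finset.mem_singleton, not_or] at hr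
      rw [hd r hr.1 hr.2, mul_zero]
  have hcpq : ∀ c, c ≠ a → c ≠ b → g (e c) p = 0 ∧ g (e c) q = 0 := by
    intro c hca hcb
    have e1 := hdot c a ha
    have e2 := hdot c b hb
    have e3 := hdot a a ha
    have e4 := hdot b b hb
    have e5 := hdot a b hb
    rw [if_neg hca] at e1
    rw [if_neg hcb] at e2
    rw [if_pos rfl] at e3 e4
    rw [if_neg hab] at e5
    -- the 2 x 2 matrix is orthogonal
    have hdet : (g (e a) p * g (e b) q - g (e a) q * g (e b) p) *
        (g (e a) p * g (e b) q - g (e a) q * g (e b) p) = 1 := by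
      linear_combination (g (e b) p * g (e b) p + g (e b) q * g (e b) q) * e3 + e4 -
        (g (e a) p * g (e b) p + g (e a) q * g (e b) q) * e5
    have hdet0 : (g (e a) p * g (e b) q - g (e a) q * g (e b) p) ≠ 0 := by
      intro h; rw [h] at hdet; simp at hdet
    constructor
    · have : g (e c) p * (g (e a) p * g (e b) q - g (e a) q * g (e b) p) = 0 := by
        linear_combination (g (e b) q) * e1 - (g (e a) q) * e2
      exact (mul_eq_zero.mp this).resolve_right hdet0
    · have : g (e c) q * (g (e a) p * g (e b) q - g (e a) q * g (e b) p) = 0 := by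
        linear_combination (g (e a) p) * e2 - (g (e b) p) * e1
      exact (mul_eq_zero.mp this).resolve_right hdet0
  have hsa : σ.symm a = p := by rw [← h1, Equiv.symm_apply_apply]
  have hsb : σ.symm b = q := by rw [← h2, Equiv.symm_apply_apply]
  have hmon : Mon (pm σ * g) := by
    apply hc _ (K.mul_mem (D.pm σ hσ) hg) a b hab
    apply ext_e
    intro c
    by_cases hcc : c = a ∨ c = b
    · rw [mul_app, sg_e_eq hcc, map_neg, mul_app, mul_app, mul_app]
      funext r
      rw [Pi.neg_apply, pm_apply, sg_apply, pm_apply]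
      by_cases hr : r = a ∨ r = b
      · rw [if_pos hr]
      · rw [if_neg hr]
        have hrp : σ.symm r ≠ p := by
          intro h; apply hr; left; rw [← h1, ← h, Equiv.apply_symm_apply]
        have hrq : σ.symm r ≠ q := by
          intro h; apply hr; right; rw [← h2, ← h, Equiv.apply_symm_apply]
        rcases hcc with hcc | hcc <;> subst hcc
        · rw [ha _ hrp hrq, neg_zero]
        · rw [hb _ hrp hrq, neg_zero]
    · rw [mul_app, sg_e_ne hcc, mul_app, mul_app, mul_app]
      push Not at hcc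
      obtain ⟨e1, e2⟩ := hcpq c hcc.1 hcc.2
      funext r
      rw [pm_apply, sg_apply, pm_apply]
      by_cases hr : r = a ∨ r = b
      · rw [if_pos hr]
        rcases hr with hr | hr <;> subst hr
        · rw [hsa, e1, neg_zero]
        · rw [hsb, e2, neg_zero]
      · rw [if_neg hr]
  intro i
  obtain ⟨j, hj⟩ := hmon i
  refine ⟨σ.symm j, ?_⟩
  have hpm : ∀ x : ι → F, pm σ (pm σ.symm x) = x := by
    intro x; funext r; rw [pm_apply, pm_apply]; simp
  have hinj : ∀ x y : ι → F, pm σ x = pm σ y → x = y := fun x y h => (pm σ).injective h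
  rcases hj with hj | hj
  · left
    apply hinj
    rw [pm_e, Equiv.apply_symm_apply]; exact hj
  · right
    apply hinj
    rw [map_neg, pm_e, Equiv.apply_symm_apply]; exact hj

/-- the fixed basis vectors of `t` -/
lemma fixed (h2 : (2:F) ≠ 0) (hN : 7 ≤ Fintype.card ι) {k t : (ι → F) ≃ₗ[F] (ι → F)} {i j : ι}
    (ht_def : t = k * sg i j * k⁻¹) (ht : Mon t) :
    ∃ a b c : ι, a ≠ b ∧ a ≠ c ∧ b ≠ c ∧ t (e a) = e a ∧ t (e b) = e b ∧ t (e c) = e c := by
  classical
  set R : Finset ι := Finset.univ.filter (fun a => t (e a) = e a) with hR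
  have hmemR : ∀ a, a ∈ R ↔ t (e a) = e a := by intro a; simp [hR]
  -- it is enough to find three elements
  suffices hcard : 3 ≤ R.card by
    obtain ⟨a, ha, b, hb, c, hc, h1, h2, h3⟩ := Finset.two_lt_card.mp hcard
    exact ⟨a, b, c, h1, h2, h3, (hmemR a).mp ha, (hmemR b).mp hb, (hmemR c).mp hc⟩
  by_contra hlt
  push Not at hlt
  choose f hf using ht
  -- three elements outside R
  have pick : ∀ T : Finset ι, T.card ≤ 4 → ∃ a, a ∉ R ∧ a ∉ T := by
    intro T hT
    have h1 : (R ∪ T).card < Fintype.card ι := by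
      have := Finset.card_union_le R T; omega
    obtain ⟨a, ha⟩ : ∃ a, a ∉ R ∪ T := by
      by_contra hcon
      push Not at hcon
      have : R ∪ T = Finset.univ := Finset.eq_univ_of_forall hcon
      rw [this, Finset.card_univ] at h1
      exact lt_irrefl _ h1
    rw [Finset.mem_union, not_or] at ha
    exact ⟨a, ha.1, ha.2⟩
  obtain ⟨a1, ha1, -⟩ := pick ∅ (by simp)
  obtain ⟨a2, ha2, ha2'⟩ := pick {a1, f a1} (by have := Finset.card_le_two (a := a1) (b := f a1); omega)
  obtain ⟨a3, ha3, ha3'⟩ := pick {a1, f a1, a2, f a2} (by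
    have := Finset.card_le_four (a := a1) (b := f a1) (c := a2) (d := f a2); omega)
  simp only [Finset.mem_insert, Finset.mem_singleton, not_or] at ha2' ha3'
  -- vectors
  have hv : ∀ a r, r ≠ a → r ≠ f a → (t (e a) - e a : ι → F) r = 0 := by
    intro a r h1 h3
    rw [Pi.sub_apply, e_ne h1]
    rcases hf a with h | h
    · rw [h, e_ne h3, sub_zero]
    · rw [h, Pi.neg_apply, e_ne h3, neg_zero, sub_zero]
  have hd : ∀ a, a ∉ R → (t (e a) - e a : ι → F) a ≠ 0 := by
    intro a ha h0
    rw [Pi.sub_apply, e_self] at h0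
    apply ha
    rw [hmemR]
    by_cases hfa : f a = a
    · rcases hf a with h | h
      · rw [h, hfa]
      · exfalso
        rw [h, hfa, Pi.neg_apply, e_self] at h0
        apply h2
        linear_combination -h0
    · exfalso
      rcases hf a with h | h
      · rw [h, e_ne (Ne.symm hfa)] at h0
        simp at h0
      · rw [h, Pi.neg_apply, e_ne (Ne.symm hfa)] at h0
        simp at h0
  -- rank at most two
  have hrank : ∀ a r, (t (e a) - e a : ι → F) r =
      (-2 * (k⁻¹ (e a)) i) * (k (e i)) r + (if i = j then 0 else (-2 * (k⁻¹ (e a)) j)) * (k (e j)) r := by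
    intro a r
    have h1 : sg i j (k⁻¹ (e a)) = k⁻¹ (e a) + (-2 * (k⁻¹ (e a)) i) • (e i : ι → F) +
        (if i = j then 0 else (-2 * (k⁻¹ (e a)) j)) • (e j : ι → F) := by
      funext s
      rw [sg_apply, Pi.add_apply, Pi.add_apply, Pi.smul_apply, Pi.smul_apply, e_apply, e_apply]
      by_cases hij : i = j
      · subst hij
        by_cases hs : s = i
        · subst hs; simp; ring
        · simp [hs]
      · rw [if_neg hij]
        by_cases hs : s = i
        · subst hs; simp [hij]; ring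
        · by_cases hs' : s = j
          · subst hs'; simp [hs]; ring
          · simp [hs, hs']
    have h3 : t (e a) = e a + (-2 * (k⁻¹ (e a)) i) • k (e i) +
        (if i = j then 0 else (-2 * (k⁻¹ (e a)) j)) • k (e j) := by
      rw [ht_def, mul_app, mul_app, h1, map_add, map_add, map_smul, map_smul, inv_app]
    rw [h3]
    simp only [Pi.sub_apply, Pi.add_apply, Pi.smul_apply, smul_eq_mul]
    ring
  have h11 := hd a1 ha1
  have h22 := hd a2 ha2
  have h33 := hd a3 ha3
  have h12 := hv a1 a2 ha2'.1 ha2'.2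
  have h13 := hv a1 a3 ha3'.1 ha3'.2.1
  have h23 := hv a2 a3 ha3'.2.2.1 ha3'.2.2.2
  have hprod : (t (e a1) - e a1 : ι → F) a1 * (t (e a2) - e a2 : ι → F) a2 * (t (e a3) - e a3 : ι → F) a3 = 0 := by
    have r21 := hrank a2 a1
    have r31 := hrank a3 a1
    have r32 := hrank a3 a2
    rw [hrank] at h12 h13 h23
    rw [hrank, hrank, hrank]
    generalize (if i = j then (0:F) else (-2 * (k⁻¹ (e a1)) j)) = β1 at *
    generalize (if i = j then (0:F) else (-2 * (k⁻¹ (e a2)) j)) = β2 at *
    generalize (if i = j then (0:F) else (-2 * (k⁻¹ (e a3)) j)) = β3 at *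
    generalize (-2 * (k⁻¹ (e a1)) i) = α1 at *
    generalize (-2 * (k⁻¹ (e a2)) i) = α2 at *
    generalize (-2 * (k⁻¹ (e a3)) i) = α3 at *
    generalize (k (e i)) a1 = x1 at *
    generalize (k (e i)) a2 = x2 at *
    generalize (k (e i)) a3 = x3 at *
    generalize (k (e j)) a1 = y1 at *
    generalize (k (e j)) a2 = y2 at *
    generalize (k (e j)) a3 = y3 at *
    linear_combination
      ((α2 * x1 + β2 * y1) * (α3 * x3 + β3 * y3) - (α2 * x3 + β2 * y3) * (α3 * x1 + β3 * y1)) * h12 +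
      ((α2 * x2 + β2 * y2) * (α3 * x1 + β3 * y1) - (α2 * x1 + β2 * y1) * (α3 * x2 + β3 * y2)) * h13 +
      ((α1 * x1 + β1 * y1) * (α3 * x2 + β3 * y2)) * h23
  exact mul_ne_zero (mul_ne_zero h11 h22) h33 hprod

lemma e_inj {i j : ι} (h : (e i : ι → F) = e j ∨ (e i : ι → F) = - e j) : i = j := by
  by_contra hne
  rcases h with h | h
  · have := congrFun h i; rw [e_self, e_ne hne] at this; exact one_ne_zero this
  · have := congrFun h i; rw [e_self, Pi.neg_apply, e_ne hne, neg_zero] at this; exact one_ne_zero this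

lemma pm_inj {g : (ι → F) ≃ₗ[F] (ι → F)} {i j p : ι} (hi : g (e i) = e p ∨ g (e i) = - e p)
    (hj : g (e j) = e p ∨ g (e j) = - e p) : i = j := by
  apply e_inj (F := F)
  rcases hi with hi | hi <;> rcases hj with hj | hj
  · left; exact g.injective (hi.trans hj.symm)
  · right; apply g.injective; rw [map_neg, hi, hj, neg_neg]
  · right; apply g.injective; rw [map_neg, hi, hj]
  · left; exact g.injective (hi.trans hj.symm)

lemma inv_mon {g : (ι → F) ≃ₗ[F] (ι → F)} (hg : Mon g) : Mon g⁻¹ := by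
  choose f hf using hg
  have hinj : Function.Injective f := fun i j hij => pm_inj (hf i) (by rw [hij]; exact hf j)
  have hsurj : Function.Surjective f := Finite.surjective_of_injective hinj
  intro j
  obtain ⟨i, rfl⟩ := hsurj j
  refine ⟨i, ?_⟩
  rcases hf i with h | h
  · left; rw [← h, app_inv]
  · right; rw [← neg_neg (e (f i)), ← h, map_neg, app_inv]

lemma mono_img {g : (ι → F) ≃ₗ[F] (ι → F)} (hg : Mon g) {v : ι → F} (hv : ∃ p, v = e p ∨ v = - e p) :
    ∃ q, g v = e q ∨ g v = - e q := by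
  obtain ⟨p, hp⟩ := hv
  obtain ⟨q, hq⟩ := hg p
  refine ⟨q, ?_⟩
  rcases hp with rfl | rfl
  · exact hq
  · rw [map_neg]
    rcases hq with h | h
    · right; rw [h]
    · left; rw [h, neg_neg]

/-- if two of the images are coordinate vectors, we are done -/
lemma done1 (D : Dat K) (hc : C2 K) (hN : 4 ≤ Fintype.card ι) {g : (ι → F) ≃ₗ[F] (ι → F)} (hg : g ∈ K)
    {a b : ι} (hab : a ≠ b) (ha : ∃ p, g (e a) = e p ∨ g (e a) = - e p)
    (hb : ∃ p, g (e b) = e p ∨ g (e b) = - e p) : Mon g := by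
  obtain ⟨p, hp⟩ := ha
  obtain ⟨q, hq⟩ := hb
  have hpq : p ≠ q := by
    rintro rfl
    exact hab (pm_inj hp hq)
  apply done D hc hN hg hab hpq
  · intro r h1 h3
    rcases hp with h | h <;> rw [h]
    · exact e_ne h1
    · rw [Pi.neg_apply, e_ne h1, neg_zero]
  · intro r h1 h3
    rcases hq with h | h <;> rw [h]
    · exact e_ne h3
    · rw [Pi.neg_apply, e_ne h3, neg_zero]

/-- conjugates of elements of the centraliser of `t` are monomial -/
lemma conj_mon (hc : C2 K) {k t : (ι → F) ≃ₗ[F] (ι → F)} (hk : k ∈ K) {i j : ι} (hij : i ≠ j)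
    (ht : t = k * sg i j * k⁻¹) {x : (ι → F) ≃ₗ[F] (ι → F)} (hx : x ∈ K) (hxt : x * t = t * x) :
    Mon (k⁻¹ * x * k) := by
  apply hc _ (K.mul_mem (K.mul_mem (K.inv_mem hk) hx) hk) i j hij
  have h1 : sg i j = k⁻¹ * t * k := by rw [ht]; group
  rw [h1]
  calc k⁻¹ * x * k * (k⁻¹ * t * k) = k⁻¹ * (x * t) * k := by group
    _ = k⁻¹ * (t * x) * k := by rw [hxt]
    _ = k⁻¹ * t * k * (k⁻¹ * x * k) := by group

/-- two-coordinate vectors -/
def Two (v : ι → F) (p q : ι) : Prop :=
  p ≠ q ∧ v p ≠ 0 ∧ (v q = v p ∨ v q = - v p) ∧ ∀ r, r ≠ p → r ≠ q → v r = 0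

lemma Two.symm {v : ι → F} {p q : ι} (h : Two v p q) : Two v q p := by
  obtain ⟨h1, h2, h3, h4⟩ := h
  refine ⟨h1.symm, ?_, ?_, fun r hr hr' => h4 r hr' hr⟩
  · rcases h3 with h3 | h3 <;> rw [h3]
    · exact h2
    · exact neg_ne_zero.mpr h2
  · rcases h3 with h3 | h3
    · left; exact h3.symm
    · right; rw [h3, neg_neg]

lemma Two.ne {v : ι → F} {p q : ι} (h : Two v p q) : v q ≠ 0 := h.symm.2.1

/-- disjointness of the supports -/
lemma disj (D : Dat K) (hc : C2 K) (hN : 4 ≤ Fintype.card ι) {g : (ι → F) ≃ₗ[F] (ι → F)} (hg : g ∈ K)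
    {a b : ι} (hab : a ≠ b) {p q r s : ι} (ha : Two (g (e a)) p q) (hb : Two (g (e b)) r s) :
    Mon g ∨ (g (e b) p = 0 ∧ g (e b) q = 0) := by
  classical
  have hdot : g (e a) p * g (e b) p + g (e a) q * g (e b) q = 0 := by
    have h := D.iso g hg (e a) (e b)
    rw [dotProduct, ← Finset.sum_subset (Finset.subset_univ ({p, q} : Finset ι)), Finset.sum_pair ha.1] at h
    · rw [h, e_dot, e_ne hab]
    · intro r _ hr
      simp only [Finset.mem_insert, Finset.mem_singleton, not_or] at hr
      rw [ha.2.2.2 r hr.1 hr.2, zero_mul]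
  by_cases hp : g (e b) p = 0
  · right
    refine ⟨hp, ?_⟩
    rw [hp, mul_zero, zero_add] at hdot
    exact (mul_eq_zero.mp hdot).resolve_left ha.ne
  · have hq : g (e b) q ≠ 0 := by
      intro hq
      rw [hq, mul_zero, add_zero] at hdot
      rcases mul_eq_zero.mp hdot with h | h
      · exact ha.2.1 h
      · exact hp h
    left
    have h1 : p = r ∨ p = s := by
      by_contra hcon; push Not at hcon; exact hp (hb.2.2.2 p hcon.1 hcon.2)
    have h3 : q = r ∨ q = s := by
      by_contra hcon; push Not at hcon; exact hq (hb.2.2.2 q hcon.1 hcon.2)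
    apply done D hc hN hg hab ha.1 ha.2.2.2
    intro x hx hx'
    apply hb.2.2.2
    · rintro rfl
      rcases h1 with h1 | h1
      · exact hx h1.symm
      · rcases h3 with h3 | h3
        · exact hx' h3.symm
        · exact ha.1 (h1.trans h3.symm)
    · rintro rfl
      rcases h1 with h1 | h1
      · rcases h3 with h3 | h3
        · exact ha.1 (h1.trans h3.symm)
        · exact hx' h3.symm
      · exact hx h1.symm

/-- the shape of the image of a fixed vector -/
lemma img_shape (D : Dat K) (h2 : (2:F) ≠ 0) (hc : C2 K) (hodd : Odd (Fintype.card ι))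
    {k t : (ι → F) ≃ₗ[F] (ι → F)} (hk : k ∈ K) {i j : ι} (hij : i ≠ j)
    (ht : t = k * sg i j * k⁻¹) (hmt : Mon t) {a : ι} (ha : t (e a) = e a) :
    (∃ p, k⁻¹ (e a) = e p ∨ k⁻¹ (e a) = - e p) ∨ ∃ p q, Two (k⁻¹ (e a)) p q := by
  classical
  have hk' := K.inv_mem hk
  have hcard : Even (Finset.univ.erase a : Finset ι).card := by
    rw [Finset.card_erase_of_mem (Finset.mem_univ a), Finset.card_univ]
    obtain ⟨m, hm⟩ := hodd
    exact ⟨m, by omega⟩
  obtain ⟨z, hz, hz'⟩ := exists_sign D _ hcard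
  have hzx : ∀ x : ι → F, z x = - x + (2 * x a) • (e a : ι → F) := by
    intro x
    funext l
    rw [hz', Pi.add_apply, Pi.neg_apply, Pi.smul_apply, smul_eq_mul, e_apply]
    by_cases hl : l = a
    · subst hl; simp; ring
    · simp [hl]
  have hcomm : z * t = t * z := by
    apply ext_e
    intro b
    rw [mul_app, mul_app]
    by_cases hb : b = a
    · subst hb
      rw [ha, hzx, e_self, map_add, map_neg, map_smul, ha]
    · obtain ⟨c, hcc⟩ := hmt b
      have hca : a ≠ c := by
        rintro rfl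
        exact hb (pm_inj hcc (Or.inl ha))
      have e1 : z (e b) = - (e b : ι → F) := by rw [hzx, e_ne (Ne.symm hb)]; simp
      have e2 : z (e c) = - (e c : ι → F) := by rw [hzx, e_ne hca]; simp
      rw [e1, map_neg]
      rcases hcc with hcc | hcc <;> rw [hcc]
      · rw [e2]
      · rw [map_neg, e2]
  have hM := conj_mon hc hk hij ht hz hcomm
  apply shape h2
  · rw [D.iso _ hk', e_dot, e_self]
  · intro p
    obtain ⟨q, hq⟩ := hM p
    refine ⟨q, ?_⟩
    have h1 : (k⁻¹ * z * k) (e p) = - e p + (2 * (k⁻¹ (e a)) p) • k⁻¹ (e a) := by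
      rw [mul_app, mul_app, hzx, map_add, map_neg, map_smul, app_inv]
      have h3 := inv_coord D hk' (e p) a
      rw [inv_inv, e_dot] at h3
      rw [h3]
    rw [h1] at hq
    exact hq

/-- (2) in odd dimension at least 7 -/
theorem t2_odd (D : Dat K) (h2 : (2:F) ≠ 0) (hc : C2 K) (hodd : Odd (Fintype.card ι))
    (hN : 7 ≤ Fintype.card ι) : T2 K := by
  classical
  intro k hk i j hij hmt
  obtain ⟨t, ht⟩ : ∃ t, t = k * sg i j * k⁻¹ := ⟨_, rfl⟩
  rw [← ht] at hmt
  obtain ⟨a, b, c, hab, hac, hbc, ha, hb, hcc⟩ := fixed h2 hN ht hmt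
  have hk' := K.inv_mem hk
  have hN4 : 4 ≤ Fintype.card ι := by omega
  suffices hkm : Mon k⁻¹ by
    have := inv_mon hkm
    rwa [inv_inv] at this
  -- the 3-cycle
  obtain ⟨σ, hσ⟩ : ∃ σ : Equiv.Perm ι, σ = Equiv.swap a b * Equiv.swap b c := ⟨_, rfl⟩
  have hsign : Equiv.Perm.sign σ = 1 := by
    rw [hσ, map_mul, Equiv.Perm.sign_swap hab, Equiv.Perm.sign_swap hbc]; rfl
  have hσa : σ a = b := by
    rw [hσ, Equiv.Perm.mul_apply, Equiv.swap_apply_of_ne_of_ne hab hac, Equiv.swap_apply_left]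
  have hσb : σ b = c := by
    rw [hσ, Equiv.Perm.mul_apply, Equiv.swap_apply_left, Equiv.swap_apply_of_ne_of_ne hac.symm hbc.symm]
  have hσc : σ c = a := by
    rw [hσ, Equiv.Perm.mul_apply, Equiv.swap_apply_right, Equiv.swap_apply_right]
  have hσr : ∀ r, r ≠ a → r ≠ b → r ≠ c → σ r = r := by
    intro r h1 h3 h4
    rw [hσ, Equiv.Perm.mul_apply, Equiv.swap_apply_of_ne_of_ne h3 h4, Equiv.swap_apply_of_ne_of_ne h1 h3]
  have hcomm : pm σ * t = t * pm σ := by
    apply ext_e
    intro r
    rw [mul_app, mul_app, pm_e]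
    by_cases h1 : r = a
    · subst h1; rw [ha, hσa, pm_e, hσa, hb]
    · by_cases h3 : r = b
      · subst h3; rw [hb, hσb, pm_e, hσb, hcc]
      · by_cases h4 : r = c
        · subst h4; rw [hcc, hσc, pm_e, hσc, ha]
        · rw [hσr r h1 h3 h4]
          obtain ⟨s, hs⟩ := hmt r
          have hsa : s ≠ a := by rintro rfl; exact h1 (pm_inj hs (Or.inl ha))
          have hsb : s ≠ b := by rintro rfl; exact h3 (pm_inj hs (Or.inl hb))
          have hsc : s ≠ c := by rintro rfl; exact h4 (pm_inj hs (Or.inl hcc))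
          rcases hs with hs | hs <;> rw [hs]
          · rw [pm_e, hσr s hsa hsb hsc]
          · rw [map_neg, pm_e, hσr s hsa hsb hsc]
  have hY := conj_mon hc hk hij ht (D.pm σ hsign) hcomm
  obtain ⟨Y, hYdef⟩ : ∃ Y, Y = k⁻¹ * pm σ * k := ⟨_, rfl⟩
  rw [← hYdef] at hY
  have hYa : Y (k⁻¹ (e a)) = k⁻¹ (e b) := by
    rw [hYdef, mul_app, mul_app, inv_app, pm_e, hσa]
  have hYb : Y (k⁻¹ (e b)) = k⁻¹ (e c) := by
    rw [hYdef, mul_app, mul_app, inv_app, pm_e, hσb]
  have hYc : Y (k⁻¹ (e c)) = k⁻¹ (e a) := by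
    rw [hYdef, mul_app, mul_app, inv_app, pm_e, hσc]
  rcases img_shape D h2 hc hodd hk hij ht hmt ha with hsa | ⟨p, q, hsa⟩
  · apply done1 D hc hN4 hk' hab hsa
    rw [← hYa]; exact mono_img hY hsa
  rcases img_shape D h2 hc hodd hk hij ht hmt hb with hsb | ⟨p', q', hsb⟩
  · apply done1 D hc hN4 hk' hbc hsb
    rw [← hYb]; exact mono_img hY hsb
  rcases img_shape D h2 hc hodd hk hij ht hmt hcc with hsc | ⟨p'', q'', hsc⟩
  · apply done1 D hc hN4 hk' hac.symm hsc
    rw [← hYc]; exact mono_img hY hsc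
  rcases disj D hc hN4 hk' hab hsa hsb with h | ⟨hbp, hbq⟩
  · exact h
  rcases disj D hc hN4 hk' hac hsa hsc with h | ⟨hcp, hcq⟩
  · exact h
  exfalso
  -- the vector `w`
  obtain ⟨hpq, hap, haq, har⟩ := hsa
  obtain ⟨ε, hε, hε'⟩ : ∃ ε : F, k⁻¹ (e a) q = ε * k⁻¹ (e a) p ∧ ε * ε = 1 := by
    rcases haq with h | h
    · exact ⟨1, by rw [h, one_mul], one_mul 1⟩
    · exact ⟨-1, by rw [h, neg_one_mul], by ring⟩
  have hε0 : ε ≠ 0 := by rintro rfl; simp at hε'
  obtain ⟨w, hw⟩ : ∃ w : ι → F, w = e p - ε • e q := ⟨_, rfl⟩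
  have hka : k⁻¹ (e a) = k⁻¹ (e a) p • (e p + ε • e q : ι → F) := by
    funext r
    rw [Pi.smul_apply, Pi.add_apply, Pi.smul_apply, smul_eq_mul, smul_eq_mul, e_apply, e_apply]
    by_cases h1 : r = p
    · subst h1; simp [hpq]
    · by_cases h3 : r = q
      · subst h3; simp [h1, hε]; ring
      · simp [h1, h3, har r h1 h3]
  have hwdot : ∀ x : ι, w ⬝ᵥ k⁻¹ (e x) = k⁻¹ (e x) p - ε * k⁻¹ (e x) q := by
    intro x
    rw [hw, sub_dotProduct, smul_dotProduct, e_dot, e_dot, smul_eq_mul]
  have hkw : ∀ x : ι, (k w) x = k⁻¹ (e x) p - ε * k⁻¹ (e x) q := by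
    intro x
    have h3 := inv_coord D hk' w x
    rw [inv_inv] at h3
    rw [h3, hwdot]
  have hYw : Y w = w := by
    have h1 : pm σ (k w) = k w := by
      have ha0 : (k w) a = 0 := by
        rw [hkw, hε]
        linear_combination (-(k⁻¹ (e a) p)) * hε'
      have hb0 : (k w) b = 0 := by rw [hkw, hbp, hbq]; ring
      have hc0 : (k w) c = 0 := by rw [hkw, hcp, hcq]; ring
      funext r
      rw [pm_apply]
      by_cases h1 : r = a
      · subst h1
        have : σ.symm r = c := by rw [← hσc, Equiv.symm_apply_apply]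
        rw [this, hc0, ha0]
      · by_cases h3 : r = b
        · subst h3
          have : σ.symm r = a := by rw [← hσa, Equiv.symm_apply_apply]
          rw [this, hb0, ha0]
        · by_cases h4 : r = c
          · subst h4
            have : σ.symm r = b := by rw [← hσb, Equiv.symm_apply_apply]
            rw [this, hb0, hc0]
          · have : σ.symm r = r := by
              rw [Equiv.symm_apply_eq]; exact (hσr r h1 h3 h4).symm
            rw [this]
    rw [hYdef, mul_app, mul_app, h1, app_inv]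
  have hfin : (2 * k⁻¹ (e a) p) • Y (e p) = k⁻¹ (e b) + k⁻¹ (e a) p • w := by
    rw [← hYa]
    conv_rhs => rw [← hYw]
    rw [← map_smul, ← map_smul, ← map_add]
    congr 1
    conv_rhs => rw [hka, hw]
    rw [Pi.smul_apply, Pi.add_apply, Pi.smul_apply, e_self, e_ne hpq]
    simp only [smul_zero, add_zero, smul_eq_mul, mul_one]
    module
  obtain ⟨s, hs⟩ := hY p
  have h2p : 2 * k⁻¹ (e a) p ≠ 0 := mul_ne_zero h2 hap
  have hwp : w p = 1 := by
    rw [hw, Pi.sub_apply, Pi.smul_apply, e_self, e_ne hpq, smul_zero, sub_zero]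
  have hwq : w q = - ε := by
    rw [hw, Pi.sub_apply, Pi.smul_apply, e_self, e_ne hpq.symm, smul_eq_mul, mul_one, zero_sub]
  have hsp : s = p := by
    by_contra hne
    have h1 := congrFun hfin p
    rw [Pi.smul_apply, Pi.add_apply, Pi.smul_apply, hbp, hwp] at h1
    apply hap
    rcases hs with hs | hs <;> rw [hs] at h1
    · rw [e_ne (Ne.symm hne), smul_zero, smul_eq_mul, mul_one, zero_add] at h1
      exact h1.symm
    · rw [Pi.neg_apply, e_ne (Ne.symm hne), neg_zero, smul_zero, smul_eq_mul, mul_one, zero_add] at h1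
      exact h1.symm
  have hsq : s = q := by
    by_contra hne
    have h1 := congrFun hfin q
    rw [Pi.smul_apply, Pi.add_apply, Pi.smul_apply, hbq, hwq] at h1
    rcases hs with hs | hs <;> rw [hs] at h1
    · rw [e_ne (Ne.symm hne)] at h1
      simp at h1; rcases h1 with h1 | h1
      · exact hap h1
      · exact hε0 h1
    · rw [Pi.neg_apply, e_ne (Ne.symm hne)] at h1
      simp at h1; rcases h1 with h1 | h1
      · exact hap h1
      · exact hε0 h1
  exact hpq (hsp.symm.trans hsq)

/-- P3 -/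
theorem t2_seven (D : Dat K) (h2 : (2:F) ≠ 0) (hr : MonLe K 5) (hc : C2 K)
    (hN : Fintype.card ι = 7) : T2' K := fun k hk i j hij hm _ =>
  t2_odd D h2 hc (by rw [hN]; decide) (by omega) k hk i j hij hm

end H26.FrP3
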