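import Mathlib

/-!
The normalizer condition for `p`-subgroups of a group.
-/

set_option autoImplicit false

open Subgroup

namespace H26.NormCond

variable {G : Type*} [Group G]

/-- `D < Q`, `Q` nilpotent: some element of `Q` outside `D` normalizes `D`. -/
theorem exists_mem_normalizer_of_isNilpotent {D Q : Subgroup G} (hQ : Group.IsNilpotent Q)
    (hDQ : D ≤ Q) (hne : D ≠ Q) : ∃ x ∈ Q, x ∈ Subgroup.normalizer (D : Set G) ∧ x ∉ D := by
  have h1 : D.subgroupOf Q < ⊤ := by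
    rw [lt_top_iff_ne_top, ne_eq, Subgroup.subgroupOf_eq_top]
    exact fun h => hne (le_antisymm hDQ h)
  have h2 := Group.normalizerCondition_of_isNilpotent (G := Q) _ h1
  obtain ⟨x, hx1, hx2⟩ := SetLike.exists_of_lt h2
  refine ⟨x, x.2, ?_, fun h => hx2 (Subgroup.mem_subgroupOf.mpr h)⟩
  rw [Subgroup.mem_normalizer_iff] at hx1 ⊢
  intro y
  constructor
  · intro hy
    exact (hx1 ⟨y, hDQ hy⟩).mp (Subgroup.mem_subgroupOf.mpr hy)
  · intro hy
    have h3 : y ∈ Q := by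
      have h4 := Q.mul_mem (Q.mul_mem (Q.inv_mem x.2) (hDQ hy)) x.2
      simpa [mul_assoc] using h4
    exact (hx1 ⟨y, h3⟩).mpr (Subgroup.mem_subgroupOf.mpr hy)

theorem exists_mem_normalizer {p : ℕ} [Fact p.Prime] {D Q : Subgroup G} [Finite Q] (hQ : IsPGroup p Q)
    (hDQ : D ≤ Q) (hne : D ≠ Q) : ∃ x ∈ Q, x ∈ Subgroup.normalizer (D : Set G) ∧ x ∉ D :=
  exists_mem_normalizer_of_isNilpotent hQ.isNilpotent hDQ hne

end H26.NormCond
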