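import Mathlib
import Cfsg.Agent.Lib.H3.PBasic

/-!
Basic counting lemmas for a group acting on a `2`-group with sections of rank at most `4`.
-/

set_option autoImplicit false
set_option linter.unusedSectionVars false
set_option linter.style.haveILetI false

open Subgroup

namespace H26.PcA

/-- A map of order dividing the prime `p`: the number of points is congruent to the number of fixed points. -/
theorem fix_mod {α : Type*} [Finite α] {p : ℕ} (hp : p.Prime) (f : α → α) (hf : ∀ x, f^[p] x = x) :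
    Nat.card α ≡ Nat.card {x // f x = x} [MOD p] := by
  classical
  haveI := Fintype.ofFinite α
  haveI : Fact p.Prime := ⟨hp⟩
  have key : ∀ F : Function.End α, (∀ x, F^[p] x = x) → F ^ p ^ 1 = 1 := by
    intro F hF
    rw [pow_one]
    have h1 : ∀ n : ℕ, ∀ x, (F ^ n) x = F^[n] x := by
      intro n
      induction n with
      | zero => intro x; rfl
      | succ n ih =>
        intro x
        rw [pow_succ]
        exact ih (F x)
    funext x
    rw [h1, hF]
    rfl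
  have h := Equiv.Perm.card_fixedPoints_modEq (α := α) (f := f) (p := p) (n := 1) (key f hf)
  rw [Nat.card_eq_fintype_card]
  refine h.trans ?_
  rw [← Nat.card_eq_fintype_card]
  rfl

variable {X : Type*} [Group X]

theorem fix_conj [Finite X] {p : ℕ} (hp : p.Prime) (y : X) (hy : y ^ p = 1) (S : Set X)
    (hS : ∀ s ∈ S, y * s * y⁻¹ ∈ S) :
    Nat.card S ≡ Nat.card {s : X // s ∈ S ∧ y * s * y⁻¹ = s} [MOD p] := by
  classical
  have hit : ∀ n : ℕ, ∀ x : S, (((fun s : S => (⟨y * s * y⁻¹, hS s s.2⟩ : S))^[n] x : S) : X) = y ^ n * x * (y ^ n)⁻¹ := by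
    intro n
    induction n with
    | zero => intro x; simp
    | succ n ih =>
      intro x
      rw [Function.iterate_succ_apply']
      show y * (((fun s : S => (⟨y * s * y⁻¹, hS s s.2⟩ : S))^[n] x : S) : X) * y⁻¹ = _
      rw [ih, pow_succ']
      group
  have h := fix_mod hp (fun s : S => (⟨y * s * y⁻¹, hS s s.2⟩ : S)) (by
    intro x
    apply Subtype.ext
    rw [hit, hy]
    simp)
  refine h.trans ?_
  have e : {x : S // (⟨y * x * y⁻¹, hS x x.2⟩ : S) = x} ≃ {s : X // s ∈ S ∧ y * s * y⁻¹ = s} :=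
    { toFun := fun x => ⟨x.1.1, x.1.2, congrArg Subtype.val x.2⟩
      invFun := fun x => ⟨⟨x.1, x.2.1⟩, Subtype.ext x.2.2⟩
      left_inv := fun x => rfl
      right_inv := fun x => rfl }
  rw [Nat.card_congr e]

/-- Subgroup version. -/
theorem fix_sub [Finite X] {p : ℕ} (hp : p.Prime) (y : X) (hy : y ^ p = 1) (A : Subgroup X)
    (hA : ∀ s ∈ A, y * s * y⁻¹ ∈ A) :
    Nat.card A ≡ Nat.card (A ⊓ centralizer {y} : Subgroup X) [MOD p] := by
  have h := fix_conj hp y hy (A : Set X) hA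
  refine h.trans ?_
  have e : {s : X // s ∈ (A : Set X) ∧ y * s * y⁻¹ = s} ≃ (A ⊓ centralizer {y} : Subgroup X) :=
    Equiv.subtypeEquivRight (by
      intro s
      rw [mem_inf, mem_centralizer_singleton_iff, mul_inv_eq_iff_eq_mul]
      exact and_congr_right fun _ => eq_comm)
  rw [Nat.card_congr e]

theorem num5 {a b : ℕ} (ha : a ≤ 4) (hb : b < a) (h : 2 ^ a ≡ 2 ^ b [MOD 5]) : a = 4 ∧ b = 0 := by
  have h1 : a = 0 ∨ a = 1 ∨ a = 2 ∨ a = 3 ∨ a = 4 := by omega
  have h2 : b = 0 ∨ b = 1 ∨ b = 2 ∨ b = 3 := by omega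
  unfold Nat.ModEq at h
  rcases h1 with rfl | rfl | rfl | rfl | rfl <;> rcases h2 with rfl | rfl | rfl | rfl <;>
    omega

/-- `y` of order `5` acts nontrivially on a `2`-subgroup of order at most `16`. -/
theorem sixteen [Finite X] (y : X) (hy : y ^ 5 = 1) (A : Subgroup X) (h2 : IsPGroup 2 A)
    (hA : ∀ s ∈ A, y * s * y⁻¹ ∈ A) (h16 : Nat.card A ≤ 16) (hnt : ∃ a ∈ A, y * a * y⁻¹ ≠ a) :
    Nat.card A = 16 ∧ ∀ a ∈ A, y * a * y⁻¹ = a → a = 1 := by
  have h := fix_sub (by norm_num : Nat.Prime 5) y hy A hA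
  obtain ⟨a, ha⟩ := IsPGroup.iff_card.1 h2
  have hC2 : IsPGroup 2 (A ⊓ centralizer {y} : Subgroup X) := h2.to_le inf_le_left
  obtain ⟨b, hb⟩ := IsPGroup.iff_card.1 hC2
  have ha4 : a ≤ 4 := by
    rw [ha] at h16
    by_contra hc
    have : 2 ^ 5 ≤ 2 ^ a := Nat.pow_le_pow_right (by norm_num) (by omega)
    omega
  have hba : b < a := by
    have hlt : Nat.card (A ⊓ centralizer {y} : Subgroup X) < Nat.card A := by
      apply lt_of_le_of_ne (Subgroup.card_le_of_le inf_le_left)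
      intro he
      have := Subgroup.eq_of_le_of_card_ge (inf_le_left : A ⊓ centralizer {y} ≤ A) he.ge
      obtain ⟨x, hx, hxy⟩ := hnt
      rw [← this] at hx
      apply hxy
      rw [mul_inv_eq_iff_eq_mul]
      exact (mem_centralizer_singleton_iff.1 hx.2).symm
    rw [ha, hb] at hlt
    exact (Nat.pow_lt_pow_iff_right (by norm_num)).1 hlt
  rw [ha, hb] at h
  obtain ⟨rfl, rfl⟩ := num5 ha4 hba h
  refine ⟨by rw [ha]; norm_num, fun x hx hxy => ?_⟩
  have hx' : x ∈ (A ⊓ centralizer {y} : Subgroup X) := by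
    refine ⟨hx, mem_centralizer_singleton_iff.2 ?_⟩
    rw [mul_inv_eq_iff_eq_mul] at hxy
    exact hxy.symm
  rw [Subgroup.card_eq_one.1 (by rw [hb]; norm_num : Nat.card (A ⊓ centralizer {y} : Subgroup X) = 1)] at hx'
  exact hx'

/-- The rank condition. -/
def RK (X : Type*) [Group X] : Prop :=
  ∀ N H : Subgroup X, N ≤ H → (∀ x ∈ H, ∀ y ∈ H, x * y * x⁻¹ * y⁻¹ ∈ N) → (∀ x ∈ H, x ^ 2 ∈ N) →
    N.relIndex H ≤ 16

theorem comm_of_sq {G : Type*} [Group G] {A : Subgroup G} (h : ∀ a ∈ A, a ^ 2 = 1) :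
    ∀ a ∈ A, ∀ b ∈ A, a * b * a⁻¹ * b⁻¹ = 1 := by
  intro a ha b hb
  have h1 : ∀ c ∈ A, c⁻¹ = c := by
    intro c hc
    have := h c hc
    rw [pow_two] at this
    exact (eq_inv_of_mul_eq_one_left this).symm
  have h2 := h _ (A.mul_mem ha hb)
  rw [h1 a ha, h1 b hb]
  rw [pow_two] at h2
  rw [← h2]
  group

theorem RK.card_le (hr : RK X) {A : Subgroup X} (h : ∀ a ∈ A, a ^ 2 = 1) : Nat.card A ≤ 16 := by
  have := hr ⊥ A bot_le (fun x hx y hy => by rw [comm_of_sq h x hx y hy]; exact one_mem _)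
    (fun x hx => by rw [h x hx]; exact one_mem _)
  rwa [relIndex_bot_left] at this

theorem isPGroup_of_sq {A : Subgroup X} (h : ∀ a ∈ A, a ^ 2 = 1) : IsPGroup 2 A := by
  intro a
  refine ⟨1, ?_⟩
  apply Subtype.ext
  simpa using h a a.2

/-- Elementary sections from generators. -/
theorem el_of_gen (S : Set X) (N : Subgroup X) (hc : ∀ s ∈ S, ∀ n ∈ N, s * n = n * s)
    (hcomm : ∀ s ∈ S, ∀ s' ∈ S, s * s' * s⁻¹ * s'⁻¹ ∈ N) (hsq : ∀ s ∈ S, s ^ 2 ∈ N) :
    (∀ x ∈ closure S, ∀ y ∈ closure S, x * y * x⁻¹ * y⁻¹ ∈ N) ∧ (∀ x ∈ closure S, x ^ 2 ∈ N) := by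
  have h0 : ∀ x ∈ closure S, ∀ n ∈ N, x * n = n * x := by
    intro x hx n hn
    have : closure S ≤ centralizer (N : Set X) := by
      rw [closure_le]
      intro s hs
      rw [SetLike.mem_coe, mem_centralizer_iff]
      intro n hn
      exact (hc s hs n hn).symm
    exact (mem_centralizer_iff.1 (this hx) n hn).symm
  have h1 : ∀ s ∈ S, ∀ x ∈ closure S, x * s * x⁻¹ * s⁻¹ ∈ N := by
    intro s hs x hx
    induction hx using closure_induction with
    | mem x hx => exact hcomm x hx s hs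
    | one => simp
    | mul x x' hx hx' ih ih' =>
      have h2 := h0 x hx _ ih'
      have h3 : x * x' * s * (x * x')⁻¹ * s⁻¹ = (x * (x' * s * x'⁻¹ * s⁻¹)) * x⁻¹ * (x * s * x⁻¹ * s⁻¹) := by group
      rw [h3, h2]
      have h4 : x' * s * x'⁻¹ * s⁻¹ * x * x⁻¹ * (x * s * x⁻¹ * s⁻¹) = (x' * s * x'⁻¹ * s⁻¹) * (x * s * x⁻¹ * s⁻¹) := by group
      rw [h4]
      exact N.mul_mem ih' ih
    | inv x hx ih =>
      have h2 := h0 x⁻¹ ((closure S).inv_mem hx) _ (N.inv_mem ih)
      have h3 : x⁻¹ * s * x⁻¹⁻¹ * s⁻¹ = (x⁻¹ * (x * s * x⁻¹ * s⁻¹)⁻¹) * x := by group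
      rw [h3, h2]
      simpa using N.inv_mem ih
  have h2 : ∀ x ∈ closure S, ∀ y ∈ closure S, x * y * x⁻¹ * y⁻¹ ∈ N := by
    intro x hx y hy
    induction hy using closure_induction with
    | mem y hy => exact h1 y hy x hx
    | one => simp
    | mul y y' hy hy' ih ih' =>
      have h3 : x * (y * y') * x⁻¹ * (y * y')⁻¹ = (x * y * x⁻¹ * y⁻¹) * ((y * (x * y' * x⁻¹ * y'⁻¹)) * y⁻¹) := by group
      rw [h3, h0 y hy _ ih', mul_inv_cancel_right]
      exact N.mul_mem ih ih'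
    | inv y hy ih =>
      have h3 : x * y⁻¹ * x⁻¹ * y⁻¹⁻¹ = (y⁻¹ * (x * y * x⁻¹ * y⁻¹)⁻¹) * y := by group
      rw [h3, h0 y⁻¹ ((closure S).inv_mem hy) _ (N.inv_mem ih)]
      simpa using N.inv_mem ih
  refine ⟨h2, ?_⟩
  intro x hx
  induction hx using closure_induction with
  | mem x hx => exact hsq x hx
  | one => simp
  | mul x y hx hy ih ih' =>
    have h3 : (x * y) ^ 2 = x ^ 2 * ((x⁻¹ * y * x⁻¹⁻¹ * y⁻¹) * y ^ 2) := by simp only [pow_two]; group
    rw [h3]
    exact N.mul_mem ih (N.mul_mem (h2 _ ((closure S).inv_mem hx) _ hy) ih')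
  | inv x hx ih =>
    rw [inv_pow]
    exact N.inv_mem ih

/-- An involutory automorphism of an elementary abelian group has many fixed points. -/
theorem inv_fix [Finite X] (A : Subgroup X) (h2 : ∀ a ∈ A, a ^ 2 = 1) (t : X)
    (ht : ∀ a ∈ A, t * a * t⁻¹ ∈ A) (htt : ∀ a ∈ A, t * (t * a * t⁻¹) * t⁻¹ = a) :
    Nat.card A ≤ Nat.card (A ⊓ centralizer {t} : Subgroup X) * Nat.card (A ⊓ centralizer {t} : Subgroup X) := by
  have hc : ∀ a ∈ A, ∀ b ∈ A, a * b = b * a := by
    intro a ha b hb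
    have := comm_of_sq h2 a ha b hb
    rw [mul_inv_eq_one, mul_inv_eq_iff_eq_mul] at this
    exact this
  let θ : ↥A →* X :=
    { toFun := fun a => t * a * t⁻¹ * (a : X)⁻¹
      map_one' := by simp
      map_mul' := by
        intro a b
        have h1 := hc _ (A.mul_mem (ht b b.2) (A.inv_mem b.2)) _ (A.inv_mem a.2)
        have h3 : t * ((a * b : ↥A) : X) * t⁻¹ * ((a * b : ↥A) : X)⁻¹ = t * a * t⁻¹ * (t * b * t⁻¹ * (b : X)⁻¹ * (a : X)⁻¹) := by
          simp only [Subgroup.coe_mul]; group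
        rw [h3, h1]
        group }
  have hker : θ.ker.map A.subtype ≤ A ⊓ centralizer {t} := by
    rintro _ ⟨a, ha, rfl⟩
    refine ⟨a.2, mem_centralizer_singleton_iff.2 ?_⟩
    have h1 : t * a * t⁻¹ * (a : X)⁻¹ = 1 := ha
    rw [mul_inv_eq_one, mul_inv_eq_iff_eq_mul] at h1
    exact h1.symm
  have hran : θ.range ≤ A ⊓ centralizer {t} := by
    rintro _ ⟨a, rfl⟩
    refine ⟨A.mul_mem (ht a a.2) (A.inv_mem a.2), mem_centralizer_singleton_iff.2 ?_⟩
    show t * a * t⁻¹ * (a : X)⁻¹ * t = t * (t * a * t⁻¹ * (a : X)⁻¹)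
    have h1 := htt a a.2
    have h3 : t * (t * a * t⁻¹ * (a : X)⁻¹) = (t * (t * a * t⁻¹) * t⁻¹) * (t * a * t⁻¹)⁻¹ * t := by group
    rw [h3, h1]
    have h4 : (t * a * t⁻¹ * (a : X)⁻¹)⁻¹ = t * a * t⁻¹ * (a : X)⁻¹ := by
      have := h2 _ (A.mul_mem (ht a a.2) (A.inv_mem a.2))
      rw [pow_two] at this
      exact (eq_inv_of_mul_eq_one_left this).symm
    rw [← h4]
    group
  have h1 : Nat.card A = Nat.card θ.ker * Nat.card θ.range := by
    rw [← Subgroup.index_ker θ, Subgroup.card_mul_index]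
  rw [h1]
  apply Nat.mul_le_mul
  · have := Subgroup.card_le_of_le hker
    rwa [Subgroup.card_map_of_injective (Subgroup.subtype_injective A)] at this
  · exact Subgroup.card_le_of_le hran

/-- A minimal normal subgroup inside a normal `2`-subgroup is central in it and of exponent two. -/
theorem min_central [Finite X] {Q N : Subgroup X} (hQ : Q.Normal) (h2 : IsPGroup 2 Q) (hN : N.Normal)
    (hNQ : N ≤ Q) (hne : N ≠ ⊥) (hmin : ∀ M : Subgroup X, M.Normal → M ≤ N → M = ⊥ ∨ M = N) :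
    (∀ n ∈ N, ∀ q ∈ Q, n * q = q * n) ∧ (∀ n ∈ N, n ^ 2 = 1) := by
  haveI : Fact (Nat.Prime 2) := ⟨Nat.prime_two⟩
  have hcn : (centralizer (Q : Set X)).Normal := by
    constructor
    intro c hc g
    rw [mem_centralizer_iff] at hc ⊢
    intro q hq
    have h1 := hc (g⁻¹ * q * g) (by simpa using hQ.conj_mem q hq g⁻¹)
    calc q * (g * c * g⁻¹) = g * ((g⁻¹ * q * g) * c) * g⁻¹ := by group
      _ = g * (c * (g⁻¹ * q * g)) * g⁻¹ := by rw [h1]
      _ = _ := by group
  have hM : (N ⊓ centralizer (Q : Set X)) ≠ ⊥ := by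
    haveI : (N.subgroupOf Q).Normal := by
      haveI := hN; infer_instance
    haveI : Group.IsNilpotent ↥Q := h2.isNilpotent
    have h3 : N.subgroupOf Q ≠ ⊥ := by
      intro h
      apply hne
      rw [Subgroup.subgroupOf_eq_bot, disjoint_iff, inf_of_le_left hNQ] at h
      exact h
    have h4 := H3.PBasic.normal_inf_center_ne_bot (N.subgroupOf Q) h3
    intro h5
    apply h4
    rw [eq_bot_iff]
    intro x hx
    have h6 : (x : X) ∈ N ⊓ centralizer (Q : Set X) := by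
      refine ⟨hx.1, mem_centralizer_iff.2 ?_⟩
      intro q hq
      have := Subgroup.mem_center_iff.1 hx.2 ⟨q, hq⟩
      exact congrArg Subtype.val this
    rw [h5] at h6
    exact Subtype.ext h6
  have h7 : N ⊓ centralizer (Q : Set X) = N :=
    (hmin _ (by haveI := hN; haveI := hcn; infer_instance) inf_le_left).resolve_left hM
  have h8 : ∀ n ∈ N, ∀ q ∈ Q, n * q = q * n := by
    intro n hn q hq
    rw [← h7] at hn
    exact (mem_centralizer_iff.1 hn.2 q hq).symm
  refine ⟨h8, ?_⟩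
  let E : Subgroup X :=
    { carrier := {n | n ∈ N ∧ n ^ 2 = 1}
      one_mem' := ⟨N.one_mem, one_pow _⟩
      mul_mem' := by
        rintro a b ⟨ha, ha2⟩ ⟨hb, hb2⟩
        refine ⟨N.mul_mem ha hb, ?_⟩
        rw [(show Commute a b from h8 a ha b (hNQ hb)).mul_pow, ha2, hb2, one_mul]
      inv_mem' := by
        rintro a ⟨ha, ha2⟩
        exact ⟨N.inv_mem ha, by rw [inv_pow, ha2, inv_one]⟩ }
  have hE : E.Normal := by
    constructor
    rintro a ⟨ha, ha2⟩ g
    exact ⟨hN.conj_mem a ha g, by rw [conj_pow, ha2]; group⟩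
  have hE1 : E ≠ ⊥ := by
    have hNp : IsPGroup 2 N := h2.to_le hNQ
    haveI : Nontrivial N := by rwa [Subgroup.nontrivial_iff_ne_bot]
    have hdvd : 2 ∣ Nat.card N := by
      obtain ⟨k, hk, hk'⟩ := hNp.nontrivial_iff_card.1 inferInstance
      rw [hk']
      exact dvd_pow_self 2 hk.ne'
    obtain ⟨x, hx⟩ := exists_prime_orderOf_dvd_card' 2 hdvd
    intro h
    have hx1 : (x : X) ∈ E := ⟨x.2, by
      have := pow_orderOf_eq_one x
      rw [hx] at this
      simpa using congrArg Subtype.val this⟩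
    rw [h, mem_bot] at hx1
    have : x = 1 := Subtype.ext hx1
    rw [this, orderOf_one] at hx
    norm_num at hx
  have h9 : E = N := (hmin E hE (fun x hx => hx.1)).resolve_left hE1
  intro n hn
  rw [← h9] at hn
  exact hn.2

end H26.PcA
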