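import Mathlib
import Cfsg.Agent.Lib.H26.PcA1
import Cfsg.Agent.Lib.H76.MaxClass

/-!
Extraspecial groups of order `32` with an automorphism of order `5`: they are the central product
of a quaternion and a dihedral group of order `8`, and have `12` elements with square `1`.
-/

set_option autoImplicit false
set_option linter.unusedSectionVars false
set_option linter.style.haveILetI false
set_option linter.unusedSimpArgs false

open Subgroup

namespace H26.PcA

variable {G : Type*} [Group G]

/-- `g ^ i` for a boolean `i`. -/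
def pw (g : G) (i : Bool) : G := bif i then g else 1

@[simp] theorem pw_true (g : G) : pw g true = g := rfl
@[simp] theorem pw_false (g : G) : pw g false = 1 := rfl

/-- Four generators of an extraspecial group of order `32`. -/
structure Four (z a b c d : G) (β δ : Bool) : Prop where
  z1 : z ≠ 1
  zz : z * z = 1
  za : z * a = a * z
  zb : z * b = b * z
  zc : z * c = c * z
  zd : z * d = d * z
  ba : b * a = a * (b * z)
  dc : d * c = c * (d * z)
  ca : c * a = a * c
  cb : c * b = b * c
  da : d * a = a * d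
  db : d * b = b * d
  aa : a * a = z
  cc : c * c = z
  bb : b * b = pw z β
  dd : d * d = pw z δ

namespace Four

variable {z a b c d : G} {β δ : Bool}

/-- The normal form. -/
def F (z a b c d : G) (v : Bool × Bool × Bool × Bool × Bool) : G :=
  pw a v.1 * (pw b v.2.1 * (pw c v.2.2.1 * (pw d v.2.2.2.1 * pw z v.2.2.2.2)))

theorem xt {x y w : G} (h : x * y = w) (g : G) : x * (y * g) = w * g := by rw [← mul_assoc, h]

/-- The value of the square. -/
def ev (i j β : Bool) : Bool := xor (xor i (j && β)) (i && j)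

theorem sqF (h : Four z a b c d β δ) (v : Bool × Bool × Bool × Bool × Bool) :
    F z a b c d v * F z a b c d v = pw z (xor (ev v.1 v.2.1 β) (ev v.2.2.1 v.2.2.2.1 δ)) := by
  obtain ⟨z1, zz, za, zb, zc, zd, ba, dc, ca, cb, da, db, aa, cc, bb, dd⟩ := h
  obtain ⟨i, j, k, l, m⟩ := v
  cases β <;> cases δ <;> simp only [pw_true, pw_false] at bb dd <;>
  cases i <;> cases j <;> cases k <;> cases l <;> cases m <;>
  simp [F, ev, mul_assoc, zz, za, zb, zc, zd, ba, dc, ca, cb, da, db, aa, cc, bb, dd, xt zz, xt za, xt zb, xt zc,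
    xt zd, xt ba, xt dc, xt ca, xt cb, xt da, xt db, xt aa, xt cc, xt bb, xt dd]

theorem Fb (h : Four z a b c d β δ) (v : Bool × Bool × Bool × Bool × Bool) :
    F z a b c d v * b = b * F z a b c d v * pw z v.1 := by
  obtain ⟨z1, zz, za, zb, zc, zd, ba, dc, ca, cb, da, db, aa, cc, bb, dd⟩ := h
  obtain ⟨i, j, k, l, m⟩ := v
  cases β <;> cases δ <;> simp only [pw_true, pw_false] at bb dd <;>
  cases i <;> cases j <;> cases k <;> cases l <;> cases m <;>
  simp [F, mul_assoc, zz, za, zb, zc, zd, ba, dc, ca, cb, da, db, aa, cc, bb, dd, xt zz, xt za, xt zb, xt zc,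
    xt zd, xt ba, xt dc, xt ca, xt cb, xt da, xt db, xt aa, xt cc, xt bb, xt dd]

theorem Fa (h : Four z a b c d β δ) (v : Bool × Bool × Bool × Bool × Bool) :
    F z a b c d v * a = a * F z a b c d v * pw z v.2.1 := by
  obtain ⟨z1, zz, za, zb, zc, zd, ba, dc, ca, cb, da, db, aa, cc, bb, dd⟩ := h
  obtain ⟨i, j, k, l, m⟩ := v
  cases β <;> cases δ <;> simp only [pw_true, pw_false] at bb dd <;>
  cases i <;> cases j <;> cases k <;> cases l <;> cases m <;>
  simp [F, mul_assoc, zz, za, zb, zc, zd, ba, dc, ca, cb, da, db, aa, cc, bb, dd, xt zz, xt za, xt zb, xt zc,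
    xt zd, xt ba, xt dc, xt ca, xt cb, xt da, xt db, xt aa, xt cc, xt bb, xt dd]

theorem Fd (h : Four z a b c d β δ) (v : Bool × Bool × Bool × Bool × Bool) :
    F z a b c d v * d = d * F z a b c d v * pw z v.2.2.1 := by
  obtain ⟨z1, zz, za, zb, zc, zd, ba, dc, ca, cb, da, db, aa, cc, bb, dd⟩ := h
  obtain ⟨i, j, k, l, m⟩ := v
  cases β <;> cases δ <;> simp only [pw_true, pw_false] at bb dd <;>
  cases i <;> cases j <;> cases k <;> cases l <;> cases m <;>
  simp [F, mul_assoc, zz, za, zb, zc, zd, ba, dc, ca, cb, da, db, aa, cc, bb, dd, xt zz, xt za, xt zb, xt zc,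
    xt zd, xt ba, xt dc, xt ca, xt cb, xt da, xt db, xt aa, xt cc, xt bb, xt dd]

theorem Fc (h : Four z a b c d β δ) (v : Bool × Bool × Bool × Bool × Bool) :
    F z a b c d v * c = c * F z a b c d v * pw z v.2.2.2.1 := by
  obtain ⟨z1, zz, za, zb, zc, zd, ba, dc, ca, cb, da, db, aa, cc, bb, dd⟩ := h
  obtain ⟨i, j, k, l, m⟩ := v
  cases β <;> cases δ <;> simp only [pw_true, pw_false] at bb dd <;>
  cases i <;> cases j <;> cases k <;> cases l <;> cases m <;>
  simp [F, mul_assoc, zz, za, zb, zc, zd, ba, dc, ca, cb, da, db, aa, cc, bb, dd, xt zz, xt za, xt zb, xt zc,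
    xt zd, xt ba, xt dc, xt ca, xt cb, xt da, xt db, xt aa, xt cc, xt bb, xt dd]

theorem pw_inj (hz : z ≠ 1) {i j : Bool} (h : pw z i = pw z j) : i = j := by
  cases i <;> cases j <;> simp at h ⊢
  · exact hz h.symm
  · exact hz h

theorem F_inj (h : Four z a b c d β δ) : Function.Injective (F z a b c d) := by
  intro v w hvw
  have e1 : v.1 = w.1 := by
    apply pw_inj h.z1
    have h1 := h.Fb v
    rw [hvw, h.Fb w] at h1
    exact (mul_left_cancel h1).symm
  have e2 : v.2.1 = w.2.1 := by
    apply pw_inj h.z1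
    have h1 := h.Fa v
    rw [hvw, h.Fa w] at h1
    exact (mul_left_cancel h1).symm
  have e3 : v.2.2.1 = w.2.2.1 := by
    apply pw_inj h.z1
    have h1 := h.Fd v
    rw [hvw, h.Fd w] at h1
    exact (mul_left_cancel h1).symm
  have e4 : v.2.2.2.1 = w.2.2.2.1 := by
    apply pw_inj h.z1
    have h1 := h.Fc v
    rw [hvw, h.Fc w] at h1
    exact (mul_left_cancel h1).symm
  have e5 : v.2.2.2.2 = w.2.2.2.2 := by
    apply pw_inj h.z1
    unfold F at hvw
    rw [e1, e2, e3, e4] at hvw
    exact mul_left_cancel (mul_left_cancel (mul_left_cancel (mul_left_cancel hvw)))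
  obtain ⟨i, j, k, l, m⟩ := v
  obtain ⟨i', j', k', l', m'⟩ := w
  simp only at e1 e2 e3 e4 e5
  rw [e1, e2, e3, e4, e5]

theorem F_bij [Finite G] (h : Four z a b c d β δ) (h32 : Nat.card G = 32) : Function.Bijective (F z a b c d) := by
  haveI := Fintype.ofFinite G
  rw [Fintype.bijective_iff_injective_and_card]
  refine ⟨h.F_inj, ?_⟩
  rw [← Nat.card_eq_fintype_card (α := G), h32]
  rfl

theorem count [Finite G] (h : Four z a b c d β δ) (h32 : Nat.card G = 32) :
    Nat.card {x : G // x * x = 1} = if β = δ then 20 else 12 := by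
  have e : {v : Bool × Bool × Bool × Bool × Bool // xor (ev v.1 v.2.1 β) (ev v.2.2.1 v.2.2.2.1 δ) = false} ≃
      {x : G // x * x = 1} :=
    (Equiv.ofBijective _ (h.F_bij h32)).subtypeEquiv (by
      intro v
      rw [Equiv.ofBijective_apply, h.sqF v]
      constructor
      · intro h1
        rw [h1, pw_false]
      · intro h1
        by_contra h2
        rw [Bool.not_eq_false] at h2
        rw [h2, pw_true] at h1
        exact h.z1 h1)
  rw [← Nat.card_congr e, Nat.card_eq_fintype_card]
  cases β <;> cases δ <;> decide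

theorem mem_A [Finite G] (h : Four z a b c d β δ) (h32 : Nat.card G = 32) {x : G} (hx : x ∈ centralizer {c, d}) :
    ∃ i j m : Bool, x = pw a i * (pw b j * pw z m) := by
  obtain ⟨v, rfl⟩ := (h.F_bij h32).2 x
  rw [mem_centralizer_iff] at hx
  have e3 : v.2.2.1 = false := by
    apply pw_inj h.z1
    have h1 := h.Fd v
    rw [← hx d (by simp)] at h1
    have := mul_left_cancel (h1.symm.trans (mul_one _).symm)
    simpa using this
  have e4 : v.2.2.2.1 = false := by
    apply pw_inj h.z1
    have h1 := h.Fc v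
    rw [← hx c (by simp)] at h1
    have := mul_left_cancel (h1.symm.trans (mul_one _).symm)
    simpa using this
  refine ⟨v.1, v.2.1, v.2.2.2.2, ?_⟩
  unfold F
  rw [e3, e4]
  simp

theorem mem_B [Finite G] (h : Four z a b c d β δ) (h32 : Nat.card G = 32) {x : G} (hx : x ∈ centralizer {a, b}) :
    ∃ i j m : Bool, x = pw c i * (pw d j * pw z m) := by
  obtain ⟨v, rfl⟩ := (h.F_bij h32).2 x
  rw [mem_centralizer_iff] at hx
  have e3 : v.1 = false := by
    apply pw_inj h.z1
    have h1 := h.Fb v
    rw [← hx b (by simp)] at h1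
    have := mul_left_cancel (h1.symm.trans (mul_one _).symm)
    simpa using this
  have e4 : v.2.1 = false := by
    apply pw_inj h.z1
    have h1 := h.Fa v
    rw [← hx a (by simp)] at h1
    have := mul_left_cancel (h1.symm.trans (mul_one _).symm)
    simpa using this
  refine ⟨v.2.2.1, v.2.2.2.1, v.2.2.2.2, ?_⟩
  unfold F
  rw [e3, e4]
  simp

theorem swap (h : Four z a b c d β δ) : Four z c d a b δ β := by
  obtain ⟨z1, zz, za, zb, zc, zd, ba, dc, ca, cb, da, db, aa, cc, bb, dd⟩ := h
  exact ⟨z1, zz, zc, zd, za, zb, dc, ba, ca.symm, da.symm, cb.symm, db.symm, cc, aa, dd, bb⟩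

/-- The index of `⟨a⟩` in the centralizer of `c, d`. -/
theorem idx [Finite G] (h : Four z a b c d β δ) (h32 : Nat.card G = 32) (ha : a ∈ centralizer {c, d})
    (hb : b ∈ centralizer {c, d}) :
    (⟨b, hb⟩ : centralizer ({c, d} : Set G)) ∉ zpowers (⟨a, ha⟩ : centralizer ({c, d} : Set G)) ∧
    (zpowers (⟨a, ha⟩ : centralizer ({c, d} : Set G))).index = 2 := by
  have hchar : ∀ x : centralizer ({c, d} : Set G), x ∈ zpowers (⟨a, ha⟩ : centralizer ({c, d} : Set G)) ↔ (x : G) * a = a * x := by
    intro x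
    constructor
    · rintro ⟨k, rfl⟩
      simp only [Subgroup.coe_zpow]
      exact ((Commute.refl a).zpow_left k).eq
    · intro hx
      obtain ⟨i, j, m, hxe⟩ := h.mem_A h32 x.2
      have h1 := h.Fa (i, j, false, false, m)
      have h2 : F z a b c d (i, j, false, false, m) = x := by rw [hxe]; simp [F]
      rw [h2, hx] at h1
      have hj : j = false := by
        apply pw_inj h.z1
        have := mul_left_cancel (h1.symm.trans (mul_one _).symm)
        simpa using this
      rw [hj] at hxe
      have h3 : x = (⟨a, ha⟩ : centralizer ({c, d} : Set G)) ^ ((if i then 1 else 0) + (if m then 2 else 0) : ℕ) := by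
        apply Subtype.ext
        rw [hxe, Subgroup.coe_pow, pow_add]
        cases i <;> cases m <;> simp [pow_two, h.aa]
      rw [h3]
      exact npow_mem_zpowers _ _
  refine ⟨?_, ?_⟩
  · rw [hchar]
    show ¬ (b * a = a * b)
    rw [h.ba]
    intro h1
    apply h.z1
    have := mul_left_cancel (mul_left_cancel h1 |>.trans (mul_one _).symm)
    exact this
  · rw [Subgroup.index_eq_two_iff]
    refine ⟨⟨b, hb⟩, fun x => ?_⟩
    rw [hchar, hchar]
    obtain ⟨i, j, m, hxe⟩ := h.mem_A h32 x.2
    have h1 := h.Fa (i, j, false, false, m)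
    have h2 : F z a b c d (i, j, false, false, m) = x := by rw [hxe]; simp [F]
    rw [h2] at h1
    show Xor ((x : G) * b * a = a * (x * b)) ((x : G) * a = a * x)
    have h3 : (x : G) * b * a = a * (x * b) * (pw z j * z) := by
      rw [mul_assoc, h.ba, ← mul_assoc, h1]
      cases j
      · simp [mul_assoc]
      · simp [mul_assoc, h.zz, h.zb, xt h.zz, xt h.zb]
    rw [h1, h3]
    simp only [mul_eq_left]
    cases j
    · right
      refine ⟨rfl, ?_⟩
      simpa using h.z1
    · left
      refine ⟨?_, ?_⟩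
      · simpa using h.zz
      · simpa using h.z1

theorem orderOf_four (h : Four z a b c d β δ) : orderOf a = 4 := by
  have h2 : a ^ 2 = z := by rw [pow_two, h.aa]
  have : orderOf a = 2 ^ (1 + 1) := by
    apply orderOf_eq_prime_pow
    · rw [pow_one, h2]; exact h.z1
    · rw [show 2 ^ (1 + 1) = 2 * 2 by norm_num, pow_mul, h2, pow_two, h.zz]
  simpa using this

/-- The structure. -/
theorem struct [Finite G] (h : Four z a b c d true false) (h32 : Nat.card G = 32) :
    ∃ A B : Subgroup G, Nonempty (↥A ≃* QuaternionGroup 2) ∧ Nonempty (↥B ≃* DihedralGroup 4) ∧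
      (∀ a ∈ A, ∀ b ∈ B, a * b = b * a) ∧ A ⊔ B = ⊤ ∧ A ⊓ B = Subgroup.center G := by
  have ha : a ∈ centralizer ({c, d} : Set G) := by
    rw [mem_centralizer_iff]
    rintro x (rfl | rfl)
    · exact h.ca
    · exact h.da
  have hb : b ∈ centralizer ({c, d} : Set G) := by
    rw [mem_centralizer_iff]
    rintro x (rfl | rfl)
    · exact h.cb
    · exact h.db
  have hc : c ∈ centralizer ({a, b} : Set G) := by
    rw [mem_centralizer_iff]
    rintro x (rfl | rfl)
    · exact h.ca.symm
    · exact h.cb.symm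
  have hd : d ∈ centralizer ({a, b} : Set G) := by
    rw [mem_centralizer_iff]
    rintro x (rfl | rfl)
    · exact h.da.symm
    · exact h.db.symm
  have hzc : z ∈ Subgroup.center G := by
    rw [Subgroup.mem_center_iff]
    intro g
    obtain ⟨v, rfl⟩ := (h.F_bij h32).2 g
    obtain ⟨z1, zz, za, zb, zc, zd, ba, dc, ca, cb, da, db, aa, cc, bb, dd⟩ := h
    obtain ⟨i, j, k, l, m⟩ := v
    simp only [pw_true, pw_false] at bb dd
    cases i <;> cases j <;> cases k <;> cases l <;> cases m <;>
    simp [F, mul_assoc, zz, za, zb, zc, zd, xt zz, xt za, xt zb, xt zc, xt zd]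
  have hinv : ∀ {u v : G}, v * u = u * (v * z) → u * u = z → v * u * v⁻¹ = u⁻¹ := by
    intro u v h1 h2
    rw [h1, ← mul_assoc, mul_assoc, ← (Subgroup.mem_center_iff.1 hzc v⁻¹), ← mul_assoc, mul_assoc u v, mul_inv_cancel,
      mul_one, eq_inv_iff_mul_eq_one, mul_assoc, ← (Subgroup.mem_center_iff.1 hzc u), ← mul_assoc, h2, h.zz]
  refine ⟨centralizer {c, d}, centralizer {a, b}, ?_, ?_, ?_, ?_, ?_⟩
  · obtain ⟨h1, h2⟩ := h.idx h32 ha hb
    refine H76.MaxClass.quaternion_of (n := 2) ⟨a, ha⟩ ⟨b, hb⟩ ?_ ?_ ?_ h1 h2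
    · rw [Subgroup.orderOf_mk, h.orderOf_four]
    · apply Subtype.ext
      exact hinv h.ba h.aa
    · apply Subtype.ext
      show b ^ 2 = a ^ 2
      rw [pow_two, pow_two, h.aa, h.bb, pw_true]
  · obtain ⟨h1, h2⟩ := h.swap.idx h32 hc hd
    refine H76.MaxClass.dihedral_of (n := 4) ⟨c, hc⟩ ⟨d, hd⟩ ?_ ?_ ?_ h1 h2
    · rw [Subgroup.orderOf_mk, h.swap.orderOf_four]
    · apply Subtype.ext
      exact hinv h.dc h.cc
    · apply Subtype.ext
      show d ^ 2 = 1
      rw [pow_two, h.dd, pw_false]
  · intro x hx y hy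
    obtain ⟨i, j, m, rfl⟩ := h.mem_A h32 hx
    obtain ⟨k, l, n, rfl⟩ := h.mem_B h32 hy
    obtain ⟨z1, zz, za, zb, zc, zd, ba, dc, ca, cb, da, db, aa, cc, bb, dd⟩ := h
    cases i <;> cases j <;> cases k <;> cases l <;> cases m <;> cases n <;>
    simp [mul_assoc, zz, za, zb, zc, zd, ca, cb, da, db, xt zz, xt za, xt zb, xt zc,
    xt zd, xt ca, xt cb, xt da, xt db]
  · rw [eq_top_iff]
    intro g _
    obtain ⟨v, rfl⟩ := (h.F_bij h32).2 g
    have hpa : ∀ {K : Subgroup G} {g : G} (i : Bool), g ∈ K → pw g i ∈ K := by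
      intro K g i hg
      cases i
      · exact K.one_mem
      · exact hg
    unfold F
    refine mul_mem (hpa _ (mem_sup_left ha)) (mul_mem (hpa _ (mem_sup_left hb)) (mul_mem (hpa _ (mem_sup_right hc))
      (mul_mem (hpa _ (mem_sup_right hd)) (hpa _ (mem_sup_left ?_)))))
    rw [← h.aa]
    exact mul_mem ha ha
  · apply le_antisymm
    · rintro x ⟨hx1, hx2⟩
      obtain ⟨i, j, m, hxe⟩ := h.mem_A h32 hx1
      have h1 := h.Fa (i, j, false, false, m)
      have h1' := h.Fb (i, j, false, false, m)
      have h2 : F z a b c d (i, j, false, false, m) = x := by rw [hxe]; simp [F]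
      have hx2' := mem_centralizer_iff.1 (show x ∈ centralizer ({a, b} : Set G) from hx2)
      rw [h2, ← hx2' a (by simp)] at h1
      rw [h2, ← hx2' b (by simp)] at h1'
      have hj : j = false := by
        apply pw_inj h.z1
        have := mul_left_cancel (h1.symm.trans (mul_one _).symm)
        simpa using this
      have hi : i = false := by
        apply pw_inj h.z1
        have := mul_left_cancel (h1'.symm.trans (mul_one _).symm)
        simpa using this
      rw [hxe, hi, hj]
      cases m
      · simpa using one_mem _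
      · simpa using hzc
    · intro x hx
      rw [Subgroup.mem_center_iff] at hx
      exact ⟨mem_centralizer_iff.2 fun y _ => hx y, mem_centralizer_iff.2 fun y _ => hx y⟩

end Four

end H26.PcA
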