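import Mathlib
import Cfsg.Agent.Lib.H26.PcA2

/-!
Groups of order `32` with an automorphism of order `5` fixing exactly `{1, z}`.
-/

set_option autoImplicit false
set_option linter.unusedSectionVars false
set_option linter.style.haveILetI false
set_option linter.unusedSimpArgs false

open Subgroup

namespace H26.PcA

variable {G : Type*} [Group G]

structure Ex (z : G) (φ : G →* G) : Prop where
  card : Nat.card G = 32
  z1 : z ≠ 1
  zz : z * z = 1
  zc : ∀ x, z * x = x * z
  sq : ∀ x : G, x * x = 1 ∨ x * x = z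
  sqz : ∃ x : G, x * x = z
  φ5 : ∀ x, φ^[5] x = x
  φz : φ z = z
  φfix : ∀ x, φ x = x → x = 1 ∨ x = z

namespace Ex

variable {z : G} {φ : G →* G}

theorem fin (h : Ex z φ) : Finite G := by
  apply Nat.finite_of_card_ne_zero
  rw [h.card]; norm_num

theorem comm (h : Ex z φ) (x y : G) : x * y = y * x ∨ x * y = y * x * z := by
  have h1 : x * y * x⁻¹ * y⁻¹ = (x * x) * ((x⁻¹ * y) * (x⁻¹ * y)) * (y * y)⁻¹ := by group
  have hzi : z⁻¹ = z := (eq_inv_of_mul_eq_one_left h.zz).symm
  have h2 : x * y * x⁻¹ * y⁻¹ = 1 ∨ x * y * x⁻¹ * y⁻¹ = z := by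
    rw [h1]
    rcases h.sq x with e1 | e1 <;> rcases h.sq (x⁻¹ * y) with e2 | e2 <;> rcases h.sq y with e3 | e3 <;>
    rw [e1, e2, e3] <;> simp [hzi, h.zz]
  rcases h2 with h3 | h3
  · left
    rw [mul_inv_eq_one, mul_inv_eq_iff_eq_mul] at h3
    exact h3
  · right
    rw [mul_inv_eq_iff_eq_mul, mul_inv_eq_iff_eq_mul] at h3
    rw [h3, mul_assoc, h.zc]

theorem P (h : Ex z φ) (S : Set G) (hS : ∀ s ∈ S, φ s ∈ S) (h1 : (1 : G) ∈ S) (hz : z ∈ S) :
    Nat.card S % 5 = 2 := by
  haveI := h.fin
  have hit : ∀ n : ℕ, ∀ x : S, (((fun s : S => (⟨φ s, hS s s.2⟩ : S))^[n] x : S) : G) = φ^[n] x := by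
    intro n
    induction n with
    | zero => intro x; simp
    | succ n ih =>
      intro x
      rw [Function.iterate_succ_apply', Function.iterate_succ_apply', ← ih]
  have h2 := fix_mod (by norm_num : Nat.Prime 5) (fun s : S => (⟨φ s, hS s s.2⟩ : S)) (by
    intro x
    apply Subtype.ext
    rw [hit, h.φ5])
  have e : {x : S // (⟨φ x, hS x x.2⟩ : S) = x} ≃ ({1, z} : Set G) :=
    { toFun := fun x => ⟨x.1.1, by
        have := h.φfix x.1.1 (congrArg Subtype.val x.2)
        simpa using this⟩
      invFun := fun x => ⟨⟨x.1, by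
        rcases x.2 with h | h
        · rw [h]; exact h1
        · rw [h]; exact hz⟩, Subtype.ext (by
        show φ x.1 = x.1
        rcases x.2 with h' | h'
        · rw [h', map_one]
        · rw [h']; exact h.φz)⟩
      left_inv := fun x => rfl
      right_inv := fun x => rfl }
  rw [Nat.card_congr e] at h2
  have h3 : Nat.card ({1, z} : Set G) = 2 := by
    rw [Nat.card_coe_set_eq, Set.ncard_pair h.z1.symm]
  rw [h3] at h2
  exact h2

theorem nonab (h : Ex z φ) : ∃ x y : G, x * y ≠ y * x := by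
  by_contra hcon
  push Not at hcon
  haveI := h.fin
  have h1 := h.P {x | x * x = 1} (by
    intro s hs
    show φ s * φ s = 1
    rw [← map_mul, (show s * s = 1 from hs), map_one]) (by simp) h.zz
  obtain ⟨g, hg⟩ := h.sqz
  have e : {x : G | x * x = 1} ≃ ({x : G | x * x = 1}ᶜ : Set G) :=
    { toFun := fun x => ⟨g * x, by
        have hx : (x : G) * x = 1 := x.2
        show ¬ ((g * x) * (g * x) = 1)
        rw [mul_assoc, ← mul_assoc (x : G), hcon x g, mul_assoc g, hx, mul_one, hg]
        exact h.z1⟩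
      invFun := fun x => ⟨g⁻¹ * x, by
        have hx : ¬ ((x : G) * x = 1) := x.2
        have hx' := (h.sq x).resolve_left hx
        show (g⁻¹ * x) * (g⁻¹ * x) = 1
        rw [mul_assoc, ← mul_assoc (x : G), hcon x g⁻¹, mul_assoc g⁻¹, hx', ← hg]
        group⟩
      left_inv := fun x => by simp
      right_inv := fun x => by simp }
  have h2 := Set.ncard_add_ncard_compl {x : G | x * x = 1}
  rw [h.card, ← Nat.card_coe_set_eq, ← Nat.card_coe_set_eq, ← Nat.card_congr e] at h2
  omega

theorem cen (h : Ex z φ) (x : G) (hx : ∀ y, x * y = y * x) : x = 1 ∨ x = z := by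
  haveI := h.fin
  have hinv : ∀ s ∈ (Subgroup.center G : Set G), φ s ∈ (Subgroup.center G : Set G) := by
    intro s hs
    rw [SetLike.mem_coe, Subgroup.mem_center_iff] at hs ⊢
    intro g
    have h5 := h.φ5 g
    rw [Function.iterate_succ_apply'] at h5
    rw [← h5, ← map_mul, hs, map_mul]
  have hzc : z ∈ Subgroup.center G := by
    rw [Subgroup.mem_center_iff]
    exact fun g => (h.zc g).symm
  have h1 := h.P (Subgroup.center G : Set G) hinv (one_mem _) hzc
  have h2 : Nat.card (Subgroup.center G) ∣ 32 := by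
    rw [← h.card]
    exact Subgroup.card_subgroup_dvd_card _
  have h3 : Nat.card (Subgroup.center G) ≠ 32 := by
    intro h3
    obtain ⟨x, y, hxy⟩ := h.nonab
    have h4 : Subgroup.center G = ⊤ := by
      apply Subgroup.eq_top_of_card_eq
      rw [h3, h.card]
    have h5 : x ∈ Subgroup.center G := by rw [h4]; trivial
    rw [Subgroup.mem_center_iff] at h5
    exact hxy (h5 y).symm
  have h4 : Nat.card (Subgroup.center G) = 2 := by
    have h5 : Nat.card (Subgroup.center G) ≤ 32 := Nat.le_of_dvd (by norm_num) h2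
    have h1' : Nat.card (Subgroup.center G) % 5 = 2 := h1
    interval_cases hn : Nat.card (Subgroup.center G) <;> omega
  have h5 : ({1, z} : Set G) = (Subgroup.center G : Set G) := by
    apply Set.eq_of_subset_of_ncard_le
    · rintro y (rfl | rfl)
      · exact one_mem _
      · exact hzc
    · rw [Set.ncard_pair h.z1.symm, ← Nat.card_coe_set_eq]
      exact h4.le
    · exact Set.toFinite _
  have h6 : x ∈ (Subgroup.center G : Set G) := by
    rw [SetLike.mem_coe, Subgroup.mem_center_iff]
    exact fun g => (hx g).symm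
  rw [← h5] at h6
  exact h6

theorem pick (h : Ex z φ) (K : Subgroup G) {x y : G} (hx : x ∈ K) (hy : y ∈ K) (hxy : x * y ≠ y * x) :
    ∃ a ∈ K, ∃ b ∈ K, a * a = z ∧ b * a = a * (b * z) := by
  have key : ∀ a b : G, a * b ≠ b * a → b * a = a * (b * z) := by
    intro a b hab
    rw [← mul_assoc]
    exact (h.comm b a).resolve_left (fun h => hab h.symm)
  rcases h.sq x with e1 | e1
  · rcases h.sq y with e2 | e2
    · refine ⟨x * y, K.mul_mem hx hy, y, hy, ?_, ?_⟩
      · rcases h.sq (x * y) with e3 | e3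
        · exfalso
          apply hxy
          rw [← eq_inv_iff_mul_eq_one, mul_inv_rev] at e3
          rw [e3, ← eq_inv_iff_mul_eq_one.2 e1, ← eq_inv_iff_mul_eq_one.2 e2]
        · exact e3
      · apply key
        intro h3
        apply hxy
        rw [← mul_assoc] at h3
        exact mul_right_cancel h3
    · exact ⟨y, hy, x, hx, e2, key _ _ (Ne.symm hxy)⟩
  · exact ⟨x, hx, y, hy, e1, key _ _ hxy⟩

theorem adjust (h : Ex z φ) {a b : G} (hba : b * a = a * (b * z)) (g : G) :
    ∃ i j : Bool, (g * pw b i * pw a j) * a = a * (g * pw b i * pw a j) ∧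
      (g * pw b i * pw a j) * b = b * (g * pw b i * pw a j) := by
  have hz := h.zc
  have hab : a * b = b * (a * z) := by
    have : a * (b * z) * z = b * a * z := by rw [hba]
    rw [mul_assoc, mul_assoc, h.zz, mul_one] at this
    rw [this, mul_assoc]
  obtain ⟨i, hi⟩ : ∃ i : Bool, (g * pw b i) * a = a * (g * pw b i) := by
    rcases h.comm g a with h1 | h1
    · exact ⟨false, by simpa using h1⟩
    · refine ⟨true, ?_⟩
      rw [pw_true, mul_assoc, hba, ← mul_assoc, h1]
      simp only [mul_assoc]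
      rw [← mul_assoc z b z, hz b, mul_assoc b, h.zz, mul_one]
  refine ⟨i, ?_⟩
  rcases h.comm (g * pw b i) b with h1 | h1
  · exact ⟨false, by simpa using hi, by simpa using h1⟩
  · refine ⟨true, ?_, ?_⟩
    · rw [pw_true, hi, mul_assoc a]
      rw [hi]
    · rw [pw_true, mul_assoc _ a b, hab, ← mul_assoc, h1]
      simp only [mul_assoc]
      rw [← mul_assoc z a z, hz a, mul_assoc a, h.zz, mul_one]

theorem four (h : Ex z φ) : ∃ (a b c d : G) (β δ : Bool), Four z a b c d β δ := by
  haveI := h.fin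
  obtain ⟨x, y, hxy⟩ := h.nonab
  obtain ⟨a, -, b, -, haa, hba⟩ := h.pick ⊤ (mem_top x) (mem_top y) hxy
  have hmemC : ∀ g : G, g * a = a * g → g * b = b * g → g ∈ centralizer ({a, b} : Set G) := by
    intro g h1 h2
    rw [mem_centralizer_iff]
    rintro x (rfl | rfl)
    · exact h1.symm
    · exact h2.symm
  -- an element of the centralizer outside of the center
  have hc : ∃ c ∈ centralizer ({a, b} : Set G), ¬ (c = 1 ∨ c = z) := by
    by_contra hcon
    push Not at hcon
    have hsurj : Function.Surjective (fun v : Bool × Bool × Bool => pw z v.1 * (pw a v.2.1)⁻¹ * (pw b v.2.2)⁻¹) := by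
      intro g
      obtain ⟨i, j, h1, h2⟩ := h.adjust hba g
      rcases hcon _ (hmemC _ h1 h2) with h3 | h3
      · refine ⟨(false, j, i), ?_⟩
        simp only [pw_false]
        rw [← h3]; group
      · refine ⟨(true, j, i), ?_⟩
        simp only [pw_true]
        rw [← h3]; group
    have := Nat.card_le_card_of_surjective _ hsurj
    rw [h.card] at this
    simp [Nat.card_eq_fintype_card] at this
  obtain ⟨c, hcC, hcz⟩ := hc
  have : ∃ g, c * g ≠ g * c := by
    by_contra hcon
    push Not at hcon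
    exact hcz (h.cen c hcon)
  obtain ⟨g, hg⟩ := this
  obtain ⟨i, j, h1, h2⟩ := h.adjust hba g
  have hca : c * a = a * c := (mem_centralizer_iff.1 hcC a (by simp)).symm
  have hcb : c * b = b * c := (mem_centralizer_iff.1 hcC b (by simp)).symm
  have hpc : ∀ (u : G) (i : Bool), c * u = u * c → c * pw u i = pw u i * c := by
    intro u i hu
    cases i
    · simp
    · simpa using hu
  have hcd : c * (g * pw b i * pw a j) ≠ (g * pw b i * pw a j) * c := by
    intro h3
    apply hg
    have hu : c * (pw b i * pw a j) = (pw b i * pw a j) * c := by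
      rw [← mul_assoc, hpc b i hcb, mul_assoc, hpc a j hca, mul_assoc]
    rw [mul_assoc g, mul_assoc g, ← hu, ← mul_assoc, ← mul_assoc g c] at h3
    exact mul_right_cancel h3
  obtain ⟨c', hc', d', hd', hcc, hdc⟩ := h.pick (centralizer ({a, b} : Set G)) hcC (hmemC _ h1 h2) hcd
  have hβ : ∀ u : G, ∃ β : Bool, u * u = pw z β := by
    intro u
    rcases h.sq u with h3 | h3
    · exact ⟨false, h3⟩
    · exact ⟨true, h3⟩
  obtain ⟨β, hβ'⟩ := hβ b
  obtain ⟨δ, hδ'⟩ := hβ d'
  refine ⟨a, b, c', d', β, δ, ⟨h.z1, h.zz, h.zc _, h.zc _, h.zc _, h.zc _, hba, hdc, ?_, ?_, ?_, ?_, haa, hcc, hβ', hδ'⟩⟩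
  · exact (mem_centralizer_iff.1 hc' a (by simp)).symm
  · exact (mem_centralizer_iff.1 hc' b (by simp)).symm
  · exact (mem_centralizer_iff.1 hd' a (by simp)).symm
  · exact (mem_centralizer_iff.1 hd' b (by simp)).symm

theorem main (h : Ex z φ) : Nat.card {x : G // x * x = 1} = 12 ∧
    ∃ A B : Subgroup G, Nonempty (↥A ≃* QuaternionGroup 2) ∧ Nonempty (↥B ≃* DihedralGroup 4) ∧
      (∀ a ∈ A, ∀ b ∈ B, a * b = b * a) ∧ A ⊔ B = ⊤ ∧ A ⊓ B = Subgroup.center G := by
  haveI := h.fin
  obtain ⟨a, b, c, d, β, δ, hF⟩ := h.four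
  have h1 := h.P {x | x * x = 1} (by
    intro s hs
    show φ s * φ s = 1
    rw [← map_mul, (show s * s = 1 from hs), map_one]) (by simp) h.zz
  have h2 := hF.count h.card
  have h1' : Nat.card {x : G // x * x = 1} % 5 = 2 := h1
  cases β <;> cases δ
  · rw [if_pos rfl] at h2; omega
  · rw [if_neg (by decide)] at h2
    exact ⟨h2, hF.swap.struct h.card⟩
  · rw [if_neg (by decide)] at h2
    exact ⟨h2, hF.struct h.card⟩
  · rw [if_pos rfl] at h2; omega

end Ex

end H26.PcA
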