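import Mathlib
import Cfsg.Agent.Lib.H26.PcA3

/-!
`2`-groups of sectional rank at most `4` acted on by `A₅`: the configuration and the case
of a minimal normal subgroup generated by squares.
-/

set_option autoImplicit false
set_option linter.unusedSectionVars false
set_option linter.style.haveILetI false
set_option linter.unusedSimpArgs false

open Subgroup

namespace H26.PcA

variable {X : Type*} [Group X]

/-- The subgroup generated by the squares. -/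
def sqs (Q : Subgroup X) : Subgroup X := closure {x | ∃ q ∈ Q, q ^ 2 = x}

variable {Q : Subgroup X}

theorem sqs_le : sqs Q ≤ Q := by
  unfold sqs
  rw [closure_le]
  rintro _ ⟨q, hq, rfl⟩
  exact Q.pow_mem hq 2

theorem sq_mem {q : X} (hq : q ∈ Q) : q ^ 2 ∈ sqs Q := subset_closure ⟨q, hq, rfl⟩

theorem comm_mem {x y : X} (hx : x ∈ Q) (hy : y ∈ Q) : x * y * x⁻¹ * y⁻¹ ∈ sqs Q := by
  have h1 : x * y * x⁻¹ * y⁻¹ = x ^ 2 * (x⁻¹ * y) ^ 2 * (y ^ 2)⁻¹ := by simp only [pow_two]; group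
  rw [h1]
  exact mul_mem (mul_mem (sq_mem hx) (sq_mem (mul_mem (inv_mem hx) hy))) (inv_mem (sq_mem hy))

theorem sqs_map {Y : Type*} [Group Y] (f : X →* Y) : sqs (Q.map f) = (sqs Q).map f := by
  unfold sqs
  rw [MonoidHom.map_closure]
  congr 1
  ext x
  constructor
  · rintro ⟨_, ⟨q, hq, rfl⟩, rfl⟩
    exact ⟨q ^ 2, ⟨q, hq, rfl⟩, map_pow f q 2⟩
  · rintro ⟨_, ⟨q, hq, rfl⟩, rfl⟩
    exact ⟨f q, ⟨q, hq, rfl⟩, (map_pow f q 2).symm⟩

theorem sqs_normal (hQ : Q.Normal) : (sqs Q).Normal := by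
  constructor
  intro n hn g
  have h1 : (sqs Q).map (MulAut.conj g).toMonoidHom = sqs Q := by
    rw [← sqs_map]
    haveI := hQ
    congr 1
    exact Subgroup.Normal.map_conj_eq Q g
  rw [← h1]
  exact ⟨n, hn, rfl⟩

theorem sqs_bot (h : sqs Q = ⊥) : ∀ q ∈ Q, q ^ 2 = 1 := by
  intro q hq
  have := sq_mem hq
  rw [h] at this
  exact this

/-- The configuration. -/
structure Hyp (Q : Subgroup X) (y t w : X) : Prop where
  nQ : Q.Normal
  pQ : IsPGroup 2 Q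
  rk : RK X
  simp : ∀ M : Subgroup X, M.Normal → M ≤ Q ∨ M ⊔ Q = ⊤
  y5 : y ^ 5 = 1
  ynt : ∃ q ∈ Q, y * q * y⁻¹ * q⁻¹ ∉ sqs Q
  t2 : t ^ 2 ∈ Q
  ty : t * y * t⁻¹ * y ∈ Q
  w3 : w ^ 3 = 1
  wnt : ∃ q ∈ Q, w * q * w⁻¹ * q⁻¹ ∉ sqs Q

theorem RK.of_surjective {Y : Type*} [Group Y] (h : RK X) (f : X →* Y) (hf : Function.Surjective f) : RK Y := by
  intro N H hNH hcomm hsq
  have h1 := h (N.comap f) (H.comap f) (comap_mono hNH) (by
    intro x hx y hy
    rw [mem_comap] at hx hy ⊢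
    simpa using hcomm _ hx _ hy) (by
    intro x hx
    rw [mem_comap] at hx ⊢
    simpa using hsq _ hx)
  rwa [relIndex_comap, map_comap_eq_self_of_surjective hf] at h1

theorem Hyp.map {Y : Type*} [Group Y] {y t w : X} (h : Hyp Q y t w) (f : X →* Y) (hf : Function.Surjective f)
    (hk : f.ker ≤ sqs Q) : Hyp (Q.map f) (f y) (f t) (f w) := by
  have hnt : ∀ u : X, u ∉ sqs Q → f u ∉ sqs (Q.map f) := by
    intro u hu h1
    rw [sqs_map] at h1
    obtain ⟨s, hs, hsu⟩ := h1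
    apply hu
    have h2 : s⁻¹ * u ∈ f.ker := by
      rw [MonoidHom.mem_ker, map_mul, map_inv, hsu]; group
    have := mul_mem hs (hk h2)
    simpa using this
  constructor
  · exact h.nQ.map f hf
  · exact h.pQ.map f
  · exact h.rk.of_surjective f hf
  · intro M hM
    have hM' : (M.comap f).Normal := hM.comap f
    rcases h.simp _ hM' with h1 | h1
    · left
      rw [← map_comap_eq_self_of_surjective hf M]
      exact map_mono h1
    · right
      rw [← map_comap_eq_self_of_surjective hf M, ← Subgroup.map_sup, h1, ← MonoidHom.range_eq_map,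
        MonoidHom.range_eq_top.2 hf]
  · rw [← map_pow, h.y5, map_one]
  · obtain ⟨q, hq, hq'⟩ := h.ynt
    exact ⟨f q, ⟨q, hq, rfl⟩, by simpa using hnt _ hq'⟩
  · exact ⟨t ^ 2, h.t2, map_pow f t 2⟩
  · exact ⟨_, h.ty, by simp⟩
  · rw [← map_pow, h.w3, map_one]
  · obtain ⟨q, hq, hq'⟩ := h.wnt
    exact ⟨f q, ⟨q, hq, rfl⟩, by simpa using hnt _ hq'⟩

variable {y t w : X}

theorem Hyp.quot (h : Hyp Q y t w) (N : Subgroup X) [N.Normal] (hN : N ≤ sqs Q) :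
    Hyp (Q.map (QuotientGroup.mk' N)) (QuotientGroup.mk' N y) (QuotientGroup.mk' N t) (QuotientGroup.mk' N w) :=
  h.map _ (QuotientGroup.mk'_surjective N) (by rwa [QuotientGroup.ker_mk'])

theorem Hyp.y_notin (h : Hyp Q y t w) : y ∉ Q := by
  intro hy
  obtain ⟨k, hk⟩ := h.pQ ⟨y, hy⟩
  have h1 : y ^ 2 ^ k = 1 := congrArg Subtype.val hk
  have h2 : orderOf y ∣ 2 ^ k := orderOf_dvd_of_pow_eq_one h1
  have h3 : orderOf y ∣ 5 := orderOf_dvd_of_pow_eq_one h.y5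
  have h4 : orderOf y ∣ 1 := by
    have : Nat.gcd (2 ^ k) 5 = 1 := Nat.Coprime.pow_left k (by norm_num)
    rw [← this]
    exact Nat.dvd_gcd h2 h3
  have h5 : y = 1 := by
    rw [← orderOf_eq_one_iff]
    exact Nat.dvd_one.1 h4
  obtain ⟨q, hq, hq'⟩ := h.ynt
  apply hq'
  rw [h5]
  simp

/-- Elements of `Q` fixed by `y` modulo squares are products of squares. -/
theorem Hyp.V [Finite X] (h : Hyp Q y t w) : Nat.card Q = Nat.card (sqs Q) * 16 ∧
    ∀ q ∈ Q, y * q * y⁻¹ * q⁻¹ ∈ sqs Q → q ∈ sqs Q := by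
  haveI := sqs_normal h.nQ
  have hq := h.quot (sqs Q) le_rfl
  set π := QuotientGroup.mk' (sqs Q) with hπ
  have h1 : sqs (Q.map π) = ⊥ := by
    rw [sqs_map, hπ, QuotientGroup.map_mk'_self]
  have h2 := sqs_bot h1
  have h16 := hq.rk.card_le h2
  obtain ⟨h3, h4⟩ := sixteen (π y) hq.y5 (Q.map π) (isPGroup_of_sq h2) (fun s hs => hq.nQ.conj_mem s hs _) h16 (by
    obtain ⟨q, hq1, hq2⟩ := hq.ynt
    refine ⟨q, hq1, fun h5 => hq2 ?_⟩
    rw [h5]
    simp)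
  constructor
  · have h5 := H3.PBasic.card_comap_mk' (sqs Q) (Q.map π)
    rw [← hπ, comap_map_eq, hπ, QuotientGroup.ker_mk', ← hπ, h3, sup_eq_left.2 sqs_le] at h5
    exact h5
  · intro q hq hq'
    have h5 := h4 (π q) ⟨q, hq, rfl⟩ (by
      rw [← mul_inv_eq_one, ← map_inv, ← map_inv, ← map_mul, ← map_mul, ← map_mul]
      exact (QuotientGroup.eq_one_iff _).2 hq')
    exact (QuotientGroup.eq_one_iff _).1 h5

theorem Hyp.central [Finite X] (h : Hyp Q y t w) (N : Subgroup X) (hN : N.Normal)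
    (hNQ : ∀ n ∈ N, ∀ q ∈ Q, n * q = q * n) (hNy : ∀ n ∈ N, y * n * y⁻¹ = n) : ∀ n ∈ N, ∀ x, n * x = x * n := by
  have hM : (centralizer (N : Set X)).Normal := by
    haveI := hN
    infer_instance
  have hQM : Q ≤ centralizer (N : Set X) := by
    intro q hq
    rw [mem_centralizer_iff]
    exact fun n hn => hNQ n hn q hq
  have hyM : y ∈ centralizer (N : Set X) := by
    rw [mem_centralizer_iff]
    intro n hn
    have := hNy n hn
    rw [mul_inv_eq_iff_eq_mul] at this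
    exact this.symm
  have htop : centralizer (N : Set X) = ⊤ := by
    rcases h.simp _ hM with h1 | h1
    · exact absurd (h1 hyM) h.y_notin
    · rwa [sup_eq_left.2 hQM] at h1
  intro n hn x
  have hx : x ∈ centralizer (N : Set X) := by rw [htop]; trivial
  exact mem_centralizer_iff.1 hx n hn

theorem Hyp.exact_t [Finite X] (h : Hyp Q y t w) (hC : ∀ q ∈ Q, y * q * y⁻¹ = q → q = 1) :
    ∃ t : X, t * y * t⁻¹ = y⁻¹ ∧ t * t = 1 := by
  haveI := h.nQ
  have hconj : ∀ q ∈ Q, y⁻¹ * q * y ∈ Q := by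
    intro q hq
    simpa using h.nQ.conj_mem q hq y⁻¹
  let f : ↥Q → ↥Q := fun u => ⟨(u : X)⁻¹ * (y⁻¹ * u * y), mul_mem (inv_mem u.2) (hconj u u.2)⟩
  have hf : Function.Injective f := by
    intro u v huv
    have h1 : (u : X)⁻¹ * (y⁻¹ * u * y) = (v : X)⁻¹ * (y⁻¹ * v * y) := congrArg Subtype.val huv
    have h2 : y * ((u : X) * (v : X)⁻¹) * y⁻¹ = u * (v : X)⁻¹ := by
      have h3 : y⁻¹ * (u * (v : X)⁻¹) * y = u * (v : X)⁻¹ := by
        calc y⁻¹ * (u * (v : X)⁻¹) * y = u * ((u : X)⁻¹ * (y⁻¹ * u * y)) * (y⁻¹ * (v : X)⁻¹ * y) := by group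
          _ = u * ((v : X)⁻¹ * (y⁻¹ * v * y)) * (y⁻¹ * (v : X)⁻¹ * y) := by rw [h1]
          _ = _ := by group
      calc y * ((u : X) * (v : X)⁻¹) * y⁻¹ = y * (y⁻¹ * (u * (v : X)⁻¹) * y) * y⁻¹ := by rw [h3]
        _ = _ := by group
    have h3 := hC _ (mul_mem u.2 (inv_mem v.2)) h2
    rw [mul_inv_eq_one] at h3
    exact Subtype.ext h3
  obtain ⟨u, hu⟩ := (Finite.injective_iff_surjective.1 hf) ⟨_, h.ty⟩
  have hu' : (u : X)⁻¹ * (y⁻¹ * u * y) = t * y * t⁻¹ * y := congrArg Subtype.val hu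
  have h1 : ((u : X) * t) * y * ((u : X) * t)⁻¹ = y⁻¹ := by
    calc ((u : X) * t) * y * ((u : X) * t)⁻¹ = u * (t * y * t⁻¹ * y) * y⁻¹ * (u : X)⁻¹ := by group
      _ = u * ((u : X)⁻¹ * (y⁻¹ * u * y)) * y⁻¹ * (u : X)⁻¹ := by rw [hu']
      _ = _ := by group
  refine ⟨u * t, h1, ?_⟩
  have h2 : ((u : X) * t) * (u * t) ∈ Q := by
    have h3 : ((u : X) * t) * (u * t) = u * (t * u * t⁻¹) * t ^ 2 := by rw [pow_two]; group
    rw [h3]
    exact mul_mem (mul_mem u.2 (h.nQ.conj_mem _ u.2 t)) h.t2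
  apply hC _ h2
  set s := (u : X) * t with hs
  have h3 : (s * s) * y * (s * s)⁻¹ = y := by
    calc (s * s) * y * (s * s)⁻¹ = s * (s * y * s⁻¹) * s⁻¹ := by group
      _ = s * y⁻¹ * s⁻¹ := by rw [h1]
      _ = (s * y * s⁻¹)⁻¹ := by group
      _ = y := by rw [h1, inv_inv]
  rw [mul_inv_eq_iff_eq_mul] at h3 ⊢
  exact h3.symm

theorem Hyp.caseB [Finite X] (h : Hyp Q y t w) (hc : ∀ n ∈ sqs Q, ∀ q ∈ Q, n * q = q * n)
    (he : ∀ n ∈ sqs Q, n ^ 2 = 1) (h16 : Nat.card (sqs Q) = 16)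
    (hC : ∀ n ∈ sqs Q, y * n * y⁻¹ = n → n = 1) : False := by
  have hCQ : ∀ q ∈ Q, y * q * y⁻¹ = q → q = 1 := by
    intro q hq hqy
    apply hC q _ hqy
    apply h.V.2 q hq
    rw [hqy, mul_inv_cancel]
    exact one_mem _
  obtain ⟨s, hsy, hss⟩ := h.exact_t hCQ
  have hsi : s⁻¹ = s := (eq_inv_of_mul_eq_one_left hss).symm
  haveI hZn := sqs_normal h.nQ
  set Z := sqs Q with hZ
  set C := Z ⊓ centralizer {s} with hCdef
  have hCmem : ∀ c, c ∈ C ↔ c ∈ Z ∧ s * c * s⁻¹ = c := by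
    intro c
    rw [hCdef, mem_inf, mem_centralizer_singleton_iff, mul_inv_eq_iff_eq_mul]
    exact and_congr_right fun _ => eq_comm
  have hy5 := h.y5
  have hsy3 : s * y ^ 3 * s⁻¹ = (y ^ 3)⁻¹ := by rw [← conj_pow, hsy, inv_pow]
  have hC4 : Nat.card C ≤ 4 := by
    have hinj : Function.Injective (fun v : C × C => (⟨(v.1 : X) * (y ^ 3 * v.2 * (y ^ 3)⁻¹),
        mul_mem ((hCmem _).1 v.1.2).1 (hZn.conj_mem _ ((hCmem _).1 v.2.2).1 _)⟩ : Z)) := by
      rintro ⟨a, b⟩ ⟨a', b'⟩ hab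
      have h1 : (a : X) * (y ^ 3 * b * (y ^ 3)⁻¹) = (a' : X) * (y ^ 3 * b' * (y ^ 3)⁻¹) := congrArg Subtype.val hab
      have h2 : (a' : X)⁻¹ * a = y ^ 3 * (b' * (b : X)⁻¹) * (y ^ 3)⁻¹ := by
        calc (a' : X)⁻¹ * a = (a' : X)⁻¹ * (a * (y ^ 3 * b * (y ^ 3)⁻¹)) * (y ^ 3 * b * (y ^ 3)⁻¹)⁻¹ := by group
          _ = (a' : X)⁻¹ * (a' * (y ^ 3 * b' * (y ^ 3)⁻¹)) * (y ^ 3 * b * (y ^ 3)⁻¹)⁻¹ := by rw [h1]
          _ = _ := by group
      have he1 : (a' : X)⁻¹ * a ∈ C := mul_mem (inv_mem a'.2) a.2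
      have he2 : (b' : X) * (b : X)⁻¹ ∈ C := mul_mem b'.2 (inv_mem b.2)
      set e := (a' : X)⁻¹ * a with hedef
      set f := (b' : X) * (b : X)⁻¹ with hfdef
      have h3 : y * e * y⁻¹ = e := by
        have h4 := ((hCmem _).1 he1).2
        have h5 := ((hCmem _).1 he2).2
        have h6 : s * e * s⁻¹ = (y ^ 3)⁻¹ * f * y ^ 3 := by
          rw [h2]
          calc s * (y ^ 3 * f * (y ^ 3)⁻¹) * s⁻¹ = (s * y ^ 3 * s⁻¹) * (s * f * s⁻¹) * (s * y ^ 3 * s⁻¹)⁻¹ := by group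
            _ = _ := by rw [hsy3, h5, inv_inv]
        rw [h4] at h6
        have h7 : y * e * y⁻¹ = y * ((y ^ 3)⁻¹ * f * y ^ 3) * y⁻¹ := by rw [← h6]
        rw [h7, h2]
        have h8 : y * (y ^ 3)⁻¹ = y ^ 3 := by
          rw [mul_inv_eq_iff_eq_mul]
          calc y = y ^ 5 * y := by rw [hy5, one_mul]
            _ = y ^ 3 * y ^ 3 := by group
        calc y * ((y ^ 3)⁻¹ * f * y ^ 3) * y⁻¹ = (y * (y ^ 3)⁻¹) * f * (y * (y ^ 3)⁻¹)⁻¹ := by group
          _ = _ := by rw [h8]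
      have h4 := hC e ((hCmem _).1 he1).1 h3
      have h5 : a = a' := by
        rw [hedef, inv_mul_eq_one] at h4
        exact Subtype.ext h4.symm
      rw [h4] at h2
      have h6 : f = 1 := by
        have : f = (y ^ 3)⁻¹ * (y ^ 3 * f * (y ^ 3)⁻¹) * y ^ 3 := by group
        rw [this, ← h2]; group
      rw [hfdef, mul_inv_eq_one] at h6
      rw [h5, Subtype.ext h6.symm]
    have h1 := Nat.card_le_card_of_injective _ hinj
    rw [Nat.card_prod, h16] at h1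
    by_contra hcon
    push Not at hcon
    nlinarith
  -- the quotient
  have hq := h.quot Z le_rfl
  set π := QuotientGroup.mk' Z with hπ
  have hQ16 : Nat.card (Q.map π) = 16 := by
    have h5 := H3.PBasic.card_comap_mk' Z (Q.map π)
    rw [← hπ, comap_map_eq, hπ, QuotientGroup.ker_mk', ← hπ, sup_eq_left.2 sqs_le, h.V.1] at h5
    rw [← hZ, h16] at h5
    omega
  have h2 : ∀ q ∈ Q.map π, q ^ 2 = 1 := by
    apply sqs_bot
    rw [sqs_map, hπ, QuotientGroup.map_mk'_self]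
  have h3 := inv_fix (Q.map π) h2 (π s) (fun a ha => hq.nQ.conj_mem a ha _) (by
    intro a _
    have h4 : π s * π s = 1 := by rw [← map_mul, hss, map_one]
    have h5 : (π s)⁻¹ = π s := (eq_inv_of_mul_eq_one_left h4).symm
    calc π s * (π s * a * (π s)⁻¹) * (π s)⁻¹ = (π s * π s) * a * (π s * π s)⁻¹ := by group
      _ = a := by rw [h4]; group)
  rw [hQ16] at h3
  set D := Q.map π ⊓ centralizer {π s} with hD
  have hD4 : 4 ≤ Nat.card D := by
    by_contra hcon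
    push Not at hcon
    nlinarith
  set K := D.comap π with hK
  have hK64 : 64 ≤ Nat.card K := by
    rw [hK, hπ, H3.PBasic.card_comap_mk', h16]
    omega
  have hKQ : K ≤ Q := by
    have h5 : K ≤ (Q.map π).comap π := comap_mono inf_le_left
    rwa [comap_map_eq, hπ, QuotientGroup.ker_mk', sup_eq_left.2 sqs_le] at h5
  have hKs : ∀ k ∈ K, ∃ z ∈ Z, s * k * s⁻¹ = z * k := by
    intro k hk
    refine ⟨s * k * s⁻¹ * k⁻¹, ?_, by group⟩
    have h5 := mem_centralizer_singleton_iff.1 (show π k ∈ centralizer {π s} from hk.2)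
    rw [← QuotientGroup.eq_one_iff]
    show π (s * k * s⁻¹ * k⁻¹) = 1
    rw [map_mul, map_mul, map_mul, map_inv, map_inv, ← h5]
    group
  have hZK : Z ≤ K := by
    intro z hz
    show π z ∈ D
    rw [show π z = 1 from (QuotientGroup.eq_one_iff _).2 hz]
    exact one_mem _
  have hsQ : s ∉ Q := by
    intro hsQ
    apply h.y_notin
    have h5 : y ^ 2 ∈ Q := by
      have h6 : y ^ 2 = (s * (y * s⁻¹ * y⁻¹))⁻¹ * 1 := by
        have : s * (y * s⁻¹ * y⁻¹) = (s * y * s⁻¹) * y⁻¹ := by group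
        rw [this, hsy, pow_two, mul_one, mul_inv_rev, inv_inv]
      rw [h6, mul_one]
      exact inv_mem (mul_mem hsQ (h.nQ.conj_mem _ (inv_mem hsQ) _))
    have h6 : y = (y ^ 2) ^ 3 := by
      rw [← pow_mul]
      calc y = y ^ 5 * y := by rw [hy5, one_mul]
        _ = y ^ (2 * 3) := by group
    rw [h6]
    exact pow_mem h5 3
  have hzi : ∀ z ∈ Z, z⁻¹ = z := by
    intro z hz
    have := he z hz
    rw [pow_two] at this
    exact (eq_inv_of_mul_eq_one_left this).symm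
  have hkk : ∀ k ∈ K, k ^ 2 ∈ C := by
    intro k hk
    obtain ⟨z, hz, hkz⟩ := hKs k hk
    rw [hCmem]
    refine ⟨sq_mem (hKQ hk), ?_⟩
    rw [← conj_pow, hkz, (show Commute z k from hc z hz k (hKQ hk)).mul_pow, he z hz, one_mul]
  have hsk : ∀ k ∈ K, s * k * s⁻¹ * k⁻¹ ∈ C := by
    intro k hk
    obtain ⟨z, hz, hkz⟩ := hKs k hk
    rw [hkz, mul_inv_cancel_right, hCmem]
    refine ⟨hz, ?_⟩
    have h5 : z = s * k * s⁻¹ * k⁻¹ := by rw [hkz]; group
    calc s * z * s⁻¹ = s * (s * k * s⁻¹ * k⁻¹) * s⁻¹ := by rw [← h5]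
      _ = (s * s) * k * (s * s)⁻¹ * (s * k * s⁻¹)⁻¹ := by group
      _ = z := by rw [hss, hkz, mul_inv_rev, hzi z hz]; group
  have hkc : ∀ k ∈ K, ∀ l ∈ K, k * l * k⁻¹ * l⁻¹ ∈ C := by
    intro k hk l hl
    obtain ⟨z, hz, hkz⟩ := hKs k hk
    obtain ⟨z', hz', hlz⟩ := hKs l hl
    rw [hCmem]
    refine ⟨comm_mem (hKQ hk) (hKQ hl), ?_⟩
    have h5 : s * (k * l * k⁻¹ * l⁻¹) * s⁻¹ = (s * k * s⁻¹) * (s * l * s⁻¹) * (s * k * s⁻¹)⁻¹ * (s * l * s⁻¹)⁻¹ := by group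
    rw [h5, hkz, hlz]
    have h6 := hc z hz (k * (z' * l) * k⁻¹) (mul_mem (mul_mem (hKQ hk) (mul_mem (sqs_le hz') (hKQ hl))) (inv_mem (hKQ hk)))
    have h7 := hc z' hz' k (hKQ hk)
    calc z * k * (z' * l) * (z * k)⁻¹ * (z' * l)⁻¹ = (z * (k * (z' * l) * k⁻¹)) * z⁻¹ * (z' * l)⁻¹ := by group
      _ = (k * z') * l * k⁻¹ * l⁻¹ * z'⁻¹ := by rw [h6]; group
      _ = z' * (k * l * k⁻¹ * l⁻¹) * z'⁻¹ := by rw [← h7]; group
      _ = k * l * k⁻¹ * l⁻¹ := by
        rw [hc z' hz' (k * l * k⁻¹ * l⁻¹) (mul_mem (mul_mem (mul_mem (hKQ hk) (hKQ hl)) (inv_mem (hKQ hk))) (inv_mem (hKQ hl)))]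
        group
  obtain ⟨e1, e2⟩ := el_of_gen ((K : Set X) ∪ {s}) C (by
    rintro x (hx | rfl) n hn
    · exact (hc n ((hCmem n).1 hn).1 x (hKQ hx)).symm
    · have := ((hCmem n).1 hn).2
      rwa [mul_inv_eq_iff_eq_mul] at this) (by
    rintro x (hx | rfl) x' (hx' | rfl)
    · exact hkc x hx x' hx'
    · have := inv_mem (hsk x hx)
      convert this using 1
      group
    · exact hsk x' hx'
    · simp) (by
    rintro x (hx | rfl)
    · exact hkk x hx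
    · rw [pow_two, hss]; exact one_mem _)
  set H := closure ((K : Set X) ∪ {s}) with hH
  have hKH : K ≤ H := fun x hx => subset_closure (Or.inl hx)
  have hsH : s ∈ H := subset_closure (Or.inr rfl)
  have hCK : C ≤ K := le_trans (fun c hc => ((hCmem c).1 hc).1) hZK
  have h5 := h.rk C H (hCK.trans hKH) e1 e2
  have h6 := H3.PBasic.card_mul_relIndex (hCK.trans hKH)
  have h7 : 2 * Nat.card K ≤ Nat.card H := by
    have h8 := H3.PBasic.card_mul_relIndex hKH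
    have h9 : K.relIndex H ≠ 1 := by
      rw [Ne, relIndex_eq_one]
      exact fun h10 => hsQ (hKQ (h10 hsH))
    have h10 : K.relIndex H ≠ 0 := by
      intro h11
      rw [h11, mul_zero] at h8
      exact (Nat.card_pos (α := H)).ne' h8.symm
    have h11 : 2 ≤ K.relIndex H := by omega
    nlinarith
  nlinarith

end H26.PcA
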