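import Mathlib
import Cfsg.Agent.Lib.H26.PcA4

/-!
`2`-groups of sectional rank at most `4` acted on by `A₅`: the structure theorem.
-/

set_option autoImplicit false
set_option linter.unusedSectionVars false
set_option linter.style.haveILetI false
set_option linter.unusedSimpArgs false

open Subgroup

namespace H26.PcA

variable {X : Type*} [Group X] {Q : Subgroup X} {y t w : X}

/-- The conclusion about the group `Q`. -/
def Concl (G : Type*) [Group G] : Prop :=
  ∃ A B : Subgroup G, Nonempty (↥A ≃* QuaternionGroup 2) ∧ Nonempty (↥B ≃* DihedralGroup 4) ∧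
      (∀ a ∈ A, ∀ b ∈ B, a * b = b * a) ∧ A ⊔ B = ⊤ ∧ A ⊓ B = Subgroup.center G

theorem two_of_min [Finite X] {N : Subgroup X} (hne : N ≠ ⊥) (hcen : ∀ n ∈ N, ∀ x, n * x = x * n)
    (he : ∀ n ∈ N, n ^ 2 = 1) (hmin : ∀ M : Subgroup X, M.Normal → M ≤ N → M = ⊥ ∨ M = N) :
    Nat.card N = 2 ∧ ∃ z ∈ N, z ≠ 1 ∧ ∀ n ∈ N, n = 1 ∨ n = z := by
  obtain ⟨z, hz, hz1⟩ := N.bot_or_exists_ne_one.resolve_left hne
  have hn : (zpowers z).Normal := by
    constructor
    rintro n ⟨k, rfl⟩ g
    have h1 := hcen _ (N.zpow_mem hz k) g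
    show g * z ^ k * g⁻¹ ∈ zpowers z
    rw [← h1, mul_inv_cancel_right]
    exact zpow_mem (mem_zpowers z) k
  have hzp : zpowers z = N := (hmin _ hn (by rwa [zpowers_le])).resolve_left (by
    rwa [zpowers_eq_bot])
  have ho : orderOf z = 2 := orderOf_eq_prime (he z hz) hz1
  refine ⟨by rw [← hzp, Nat.card_zpowers, ho], z, hz, hz1, ?_⟩
  intro n hn
  rw [← hzp] at hn
  obtain ⟨k, rfl⟩ := hn
  show z ^ k = 1 ∨ z ^ k = z
  have h2 : z ^ (2 : ℤ) = 1 := by
    have := he z hz
    exact_mod_cast this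
  rcases Int.even_or_odd' k with ⟨m, rfl | rfl⟩
  · left; rw [zpow_mul, h2, one_zpow]
  · right; rw [zpow_add, zpow_mul, h2, one_zpow, one_mul, zpow_one]

theorem Hyp.L1 [Finite X] (h : Hyp Q y t w) (hne : sqs Q ≠ ⊥)
    (hmin : ∀ M : Subgroup X, M.Normal → M ≤ sqs Q → M = ⊥ ∨ M = sqs Q) :
    Nat.card (sqs Q) = 2 ∧ Nat.card Q = 32 ∧ Nat.card {x : ↥Q // x * x = 1} = 12 ∧
      (∃ x ∈ Q, ∃ y ∈ Q, x * y ≠ y * x) ∧ Concl ↥Q := by
  haveI hnQ := h.nQ
  haveI hZn := sqs_normal h.nQ
  obtain ⟨hc, he⟩ := min_central h.nQ h.pQ hZn sqs_le hne hmin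
  have hyC : ∀ n ∈ sqs Q, y * n * y⁻¹ = n := by
    by_contra hcon
    push Not at hcon
    obtain ⟨h16, hC⟩ := sixteen y h.y5 (sqs Q) (h.pQ.to_le sqs_le) (fun s hs => hZn.conj_mem s hs y)
      (h.rk.card_le he) hcon
    exact h.caseB hc he h16 hC
  have hcen := h.central (sqs Q) hZn hc hyC
  obtain ⟨h2, z, hz, hz1, hzz⟩ := two_of_min hne hcen he hmin
  have h32 : Nat.card Q = 32 := by rw [h.V.1, h2]
  let φ : ↥Q →* ↥Q := (MulAut.conjNormal y : MulAut ↥Q).toMonoidHom
  have hφ : ∀ x : ↥Q, ((φ x : ↥Q) : X) = y * x * y⁻¹ := fun x => MulAut.conjNormal_apply y x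
  have hφn : ∀ n : ℕ, ∀ x : ↥Q, ((φ^[n] x : ↥Q) : X) = y ^ n * x * (y ^ n)⁻¹ := by
    intro n
    induction n with
    | zero => intro x; simp
    | succ n ih =>
      intro x
      rw [Function.iterate_succ_apply', hφ, ih, pow_succ']
      group
  have hEx : Ex (⟨z, sqs_le hz⟩ : ↥Q) φ := by
    constructor
    · exact h32
    · exact fun h1 => hz1 (congrArg Subtype.val h1)
    · apply Subtype.ext
      have := he z hz
      rw [pow_two] at this
      exact this
    · intro x
      exact Subtype.ext (hcen z hz x)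
    · intro x
      rcases hzz _ (sq_mem x.2) with h1 | h1
      · left
        apply Subtype.ext
        rw [pow_two] at h1
        exact h1
      · right
        apply Subtype.ext
        rw [pow_two] at h1
        exact h1
    · by_contra hcon
      push Not at hcon
      apply hne
      rw [eq_bot_iff]
      unfold sqs
      rw [closure_le]
      rintro _ ⟨q, hq, rfl⟩
      rcases hzz _ (sq_mem hq) with h1 | h1
      · exact h1
      · exfalso
        apply hcon ⟨q, hq⟩
        apply Subtype.ext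
        rw [pow_two] at h1
        exact h1
    · intro x
      apply Subtype.ext
      rw [hφn, h.y5]
      simp
    · apply Subtype.ext
      rw [hφ]
      exact hyC z hz
    · intro x hx
      have h1 : y * x * y⁻¹ = x := by rw [← hφ, hx]
      have h3 := h.V.2 x x.2 (by rw [h1, mul_inv_cancel]; exact one_mem _)
      rcases hzz _ h3 with h4 | h4
      · left; exact Subtype.ext h4
      · right; exact Subtype.ext h4
  obtain ⟨h12, hC⟩ := hEx.main
  obtain ⟨x, x', hx⟩ := hEx.nonab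
  exact ⟨h2, h32, h12, ⟨x, x.2, x', x'.2, fun h1 => hx (Subtype.ext h1)⟩, hC⟩

theorem eq_of_card_two [Finite X] {A : Subgroup X} (h2 : Nat.card A = 2) {a b : X} (ha : a ∈ A) (hb : b ∈ A)
    (ha1 : a ≠ 1) (hb1 : b ≠ 1) : a = b := by
  by_contra hab
  have h1 : ({1, a, b} : Set X) ⊆ A := by
    rintro x (rfl | rfl | rfl)
    · exact one_mem _
    · exact ha
    · exact hb
  have h3 := Set.ncard_le_ncard h1 (Set.toFinite _)
  rw [← Nat.card_coe_set_eq (A : Set X)] at h3
  have h4 : ({1, a, b} : Set X).ncard = 3 := by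
    rw [Set.ncard_insert_of_notMem, Set.ncard_pair hab]
    simp only [Set.mem_insert_iff, Set.mem_singleton_iff, not_or]
    exact ⟨ha1.symm, hb1.symm⟩
  have h5 : Nat.card (A : Set X) = 2 := h2
  omega

theorem bot_or_of_card_two [Finite X] {A : Subgroup X} (h2 : Nat.card A = 2) (M : Subgroup X) (hM : M ≤ A) :
    M = ⊥ ∨ M = A := by
  rcases M.bot_or_exists_ne_one with h | ⟨x, hx, hx1⟩
  · exact Or.inl h
  · right
    apply le_antisymm hM
    intro a ha
    by_cases ha1 : a = 1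
    · rw [ha1]; exact one_mem _
    · rw [eq_of_card_two h2 ha (hM hx) ha1 hx1]; exact hx

/-- The count in a quotient by a subgroup of order two. -/
theorem Hyp.cnt [Finite X] (h : Hyp Q y t w) (h4 : Nat.card (sqs Q) = 4) (hcen : ∀ n ∈ sqs Q, ∀ x, n * x = x * n)
    {u : X} (hu : u ∈ sqs Q) (hu1 : u ≠ 1) (hu2 : u * u = 1) :
    Nat.card {x : X // x ∈ Q ∧ (x * x = 1 ∨ x * x = u)} = 24 := by
  have hn : (zpowers u).Normal := by
    constructor
    rintro n ⟨k, rfl⟩ g
    have h1 := hcen _ (zpow_mem hu k) g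
    show g * u ^ k * g⁻¹ ∈ zpowers u
    rw [← h1, mul_inv_cancel_right]
    exact zpow_mem (mem_zpowers u) k
  have ho : orderOf u = 2 := orderOf_eq_prime (by rw [pow_two, hu2]) hu1
  have hN2 : Nat.card (zpowers u) = 2 := by rw [Nat.card_zpowers, ho]
  have hNs : zpowers u ≤ sqs Q := by rwa [zpowers_le]
  have hNmem : ∀ x : X, x ∈ zpowers u ↔ x = 1 ∨ x = u := by
    intro x
    constructor
    · intro hx
      by_cases hx1 : x = 1
      · exact Or.inl hx1
      · exact Or.inr (eq_of_card_two hN2 hx (mem_zpowers u) hx1 hu1)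
    · rintro (rfl | rfl)
      · exact one_mem _
      · exact mem_zpowers _
  have hq := h.quot (zpowers u) hNs
  set π := QuotientGroup.mk' (zpowers u) with hπ
  have hs2 : Nat.card (sqs (Q.map π)) = 2 := by
    rw [sqs_map]
    have h5 := H3.PBasic.card_comap_mk' (zpowers u) ((sqs Q).map π)
    rw [← hπ, comap_map_eq, hπ, QuotientGroup.ker_mk', ← hπ, sup_eq_left.2 hNs, h4, hN2] at h5
    omega
  have hL1 := hq.L1 (by
    intro h1
    rw [h1, Subgroup.card_bot] at hs2
    omega) (fun M _ hM => bot_or_of_card_two hs2 M hM)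
  obtain ⟨-, -, h12, -, -⟩ := hL1
  have e1 : {x : ↥(Q.map π) // x * x = 1} ≃ ({x | x ∈ Q.map π ∧ x * x = 1} : Set (X ⧸ zpowers u)) :=
    { toFun := fun x => ⟨x.1.1, x.1.2, congrArg Subtype.val x.2⟩
      invFun := fun x => ⟨⟨x.1, x.2.1⟩, Subtype.ext x.2.2⟩
      left_inv := fun x => rfl
      right_inv := fun x => rfl }
  rw [Nat.card_congr e1] at h12
  have e2 := QuotientGroup.preimageMkEquivSubgroupProdSet (zpowers u) {x | x ∈ Q.map π ∧ x * x = 1}
  have h6 := Nat.card_congr e2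
  rw [Nat.card_prod, h12] at h6
  have h7 : Nat.card (↥(zpowers u)) = 2 := hN2
  rw [h7] at h6
  have e3 : {x : X // x ∈ Q ∧ (x * x = 1 ∨ x * x = u)} ≃
      ((QuotientGroup.mk : X → X ⧸ zpowers u) ⁻¹' {x | x ∈ Q.map π ∧ x * x = 1}) :=
    Equiv.subtypeEquivRight (by
      intro x
      have h8 : (π x ∈ Q.map π ↔ x ∈ Q) := by
        rw [← mem_comap, comap_map_eq, hπ, QuotientGroup.ker_mk', sup_eq_left.2 (hNs.trans sqs_le)]
      have h9 : (π x * π x = 1 ↔ (x * x = 1 ∨ x * x = u)) := by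
        rw [← map_mul, ← hNmem]
        exact QuotientGroup.eq_one_iff _
      show _ ↔ (π x ∈ Q.map π ∧ π x * π x = 1)
      rw [h8, h9])
  rw [Nat.card_congr e3, h6]

end H26.PcA
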