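import Mathlib
import Cfsg.Agent.Lib.H26.PcA5

/-!
`2`-groups of sectional rank at most `4` acted on by `A₅`: end of the structure theorem.
-/

set_option autoImplicit false
set_option linter.unusedSectionVars false
set_option linter.style.haveILetI false
set_option linter.unusedSimpArgs false

open Subgroup

namespace H26.PcA

variable {X : Type*} [Group X] {Q : Subgroup X} {y t w : X}

/-- Number of elements of a subgroup with a given square. -/
noncomputable def nsq (D : Subgroup X) (v : X) : ℕ := Nat.card {x : X // x ∈ D ∧ x * x = v}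

theorem part [Finite X] (D : Subgroup X) {z f : X} (h : ∀ x ∈ D, x * x = 1 ∨ x * x = z ∨ x * x = f ∨ x * x = z * f)
    (hz : z ≠ 1) (hf : f ≠ 1) (hzf : z ≠ f) (hzf1 : z * f ≠ 1) :
    Nat.card D = nsq D 1 + nsq D z + nsq D f + nsq D (z * f) := by
  classical
  haveI := Fintype.ofFinite X
  have h1 : ∀ v, nsq D v = ((Finset.univ.filter (fun x : X => x ∈ D)).filter (fun x => x * x = v)).card := by
    intro v
    unfold nsq
    rw [Nat.card_eq_fintype_card, Fintype.card_subtype, Finset.filter_filter]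
  have h2 : Nat.card D = (Finset.univ.filter (fun x : X => x ∈ D)).card := by
    rw [← Fintype.card_subtype, ← Nat.card_eq_fintype_card]
  have h3 := Finset.card_eq_sum_card_fiberwise (s := Finset.univ.filter (fun x : X => x ∈ D))
    (t := ({1, z, f, z * f} : Finset X)) (f := fun x => x * x) (by
      intro x hx
      have hx' : x ∈ D := by simpa using hx
      rcases h x hx' with h4 | h4 | h4 | h4 <;> simp [h4])
  have hzf2 : z * f ≠ z := by simpa using hf
  have hzf3 : z * f ≠ f := by simpa using hz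
  rw [Finset.sum_insert (by simp [hz.symm, hf.symm, hzf1.symm]), Finset.sum_insert (by simp [hzf, hzf2.symm]),
    Finset.sum_insert (by simp [hzf3.symm]), Finset.sum_singleton] at h3
  rw [h2, h3, h1, h1, h1, h1]
  ring

theorem nsq_add [Finite X] (D : Subgroup X) {u : X} (hu : u ≠ 1) :
    Nat.card {x : X // x ∈ D ∧ (x * x = 1 ∨ x * x = u)} = nsq D 1 + nsq D u := by
  classical
  haveI := Fintype.ofFinite X
  unfold nsq
  rw [Nat.card_eq_fintype_card, Nat.card_eq_fintype_card, Nat.card_eq_fintype_card, Fintype.card_subtype,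
    Fintype.card_subtype, Fintype.card_subtype, ← Finset.card_union_of_disjoint]
  · congr 1
    ext x
    simp only [Finset.mem_filter, Finset.mem_univ, true_and, Finset.mem_union]
    tauto
  · rw [Finset.disjoint_left]
    intro x hx hx'
    simp only [Finset.mem_filter, Finset.mem_univ, true_and] at hx hx'
    exact hu (hx'.2.symm.trans hx.2)

/-- Elements of a subgroup `S` relative to a subgroup `N` of index two. -/
theorem L2a [Finite X] (h : Hyp Q y t w) (N : Subgroup X) (hN : N.Normal) (hNs : N ≤ sqs Q)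
    (hcN : ∀ n ∈ N, ∀ q ∈ Q, n * q = q * n) (heN : ∀ n ∈ N, n ^ 2 = 1)
    (hN16 : Nat.card N = 16) (hCN : ∀ n ∈ N, y * n * y⁻¹ = n → n = 1) (hs : Nat.card (sqs Q) = 32) : False := by
  have hZn := sqs_normal h.nQ
  have h1 := fix_sub (by norm_num : Nat.Prime 5) y h.y5 (sqs Q) (fun s hs => hZn.conj_mem s hs y)
  rw [hs] at h1
  set D := sqs Q ⊓ centralizer {y} with hD
  have hDp : IsPGroup 2 D := (h.pQ.to_le sqs_le).to_le inf_le_left
  have hD1 : D ≠ ⊥ := by
    intro h2
    rw [h2, Subgroup.card_bot] at h1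
    unfold Nat.ModEq at h1
    omega
  haveI : Nontrivial D := by rwa [Subgroup.nontrivial_iff_ne_bot]
  haveI : Fact (Nat.Prime 2) := ⟨Nat.prime_two⟩
  have hdvd : 2 ∣ Nat.card D := by
    obtain ⟨k, hk, hk'⟩ := hDp.nontrivial_iff_card.1 inferInstance
    rw [hk']
    exact dvd_pow_self 2 hk.ne'
  obtain ⟨c, hc⟩ := exists_prime_orderOf_dvd_card' 2 hdvd
  have hc1 : (c : X) ≠ 1 := by
    intro h2
    have : c = 1 := Subtype.ext h2
    rw [this, orderOf_one] at hc
    norm_num at hc
  have hc2 : (c : X) ^ 2 = 1 := by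
    have := pow_orderOf_eq_one c
    rw [hc] at this
    simpa using congrArg Subtype.val this
  have hcy : y * c * y⁻¹ = c := by
    have := mem_centralizer_singleton_iff.1 (show (c : X) ∈ centralizer {y} from c.2.2)
    rw [mul_inv_eq_iff_eq_mul]
    exact this.symm
  have hcN' : (c : X) ∉ N := fun h2 => hc1 (hCN c h2 hcy)
  have hcs : (c : X) ∈ sqs Q := c.2.1
  have hNc : ∀ n ∈ N, n * (c : X) = c * n := fun n hn => hcN n hn c (sqs_le hcs)
  obtain ⟨e1, e2⟩ := el_of_gen ((N : Set X) ∪ {(c : X)}) ⊥ (by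
    intro x _ n hn
    rw [mem_bot] at hn
    rw [hn, mul_one, one_mul]) (by
    have key : ∀ {a b : X}, a * b = b * a → a * b * a⁻¹ * b⁻¹ ∈ (⊥ : Subgroup X) := by
      intro a b hab
      rw [hab, mem_bot]; group
    rintro x (hx | rfl) x' (hx' | rfl)
    · exact key (hcN x hx x' (sqs_le (hNs hx')))
    · exact key (hNc x hx)
    · exact key (hNc x' hx').symm
    · exact key rfl) (by
    rintro x (hx | rfl)
    · rw [mem_bot]; exact heN x hx
    · rw [mem_bot]; exact hc2)
  have hrk := h.rk ⊥ _ bot_le e1 e2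
  rw [relIndex_bot_left] at hrk
  have hNH : N ≤ closure ((N : Set X) ∪ {(c : X)}) := fun x hx => subset_closure (Or.inl hx)
  have h2 : N = closure ((N : Set X) ∪ {(c : X)}) := by
    apply Subgroup.eq_of_le_of_card_ge hNH
    rw [hN16]
    exact hrk
  apply hcN'
  rw [h2]
  exact subset_closure (Or.inr rfl)

theorem Hyp.L2 [Finite X] (h : Hyp Q y t w) (N : Subgroup X) (hN : N.Normal) (hNs : N ≤ sqs Q) (hne : N ≠ ⊥)
    (hNne : N ≠ sqs Q) (hmin : ∀ M : Subgroup X, M.Normal → M ≤ N → M = ⊥ ∨ M = N)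
    (hmax : ∀ M : Subgroup X, M.Normal → N ≤ M → M ≤ sqs Q → M = N ∨ M = sqs Q) : False := by
  haveI := hN
  have hZn := sqs_normal h.nQ
  have hq := h.quot N hNs
  set π := QuotientGroup.mk' N with hπ
  have hsq : sqs (Q.map π) = (sqs Q).map π := sqs_map π
  have hcomap : ((sqs Q).map π).comap π = sqs Q := by
    rw [comap_map_eq, hπ, QuotientGroup.ker_mk', sup_eq_left.2 hNs]
  have hπs := QuotientGroup.mk'_surjective N
  obtain ⟨hs2, -, -, hnab, -⟩ := hq.L1 (by
    intro h1
    rw [hsq] at h1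
    apply hNne
    rw [← hcomap, h1, MonoidHom.comap_bot, hπ, QuotientGroup.ker_mk']) (by
    intro M hM hMs
    rw [hsq] at hMs ⊢
    have h1 : M.comap π ≤ sqs Q := by
      rw [← hcomap]; exact comap_mono hMs
    have h2 : N ≤ M.comap π := by
      have := QuotientGroup.le_comap_mk' N M
      exact this
    rcases hmax _ (hM.comap π) h2 h1 with h3 | h3
    · left
      rw [← map_comap_eq_self_of_surjective hπs M, ← hπ, h3, hπ, QuotientGroup.map_mk'_self]
    · right
      rw [← map_comap_eq_self_of_surjective hπs M, ← hπ, h3])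
  have hscard : Nat.card (sqs Q) = Nat.card N * 2 := by
    have h5 := H3.PBasic.card_comap_mk' N ((sqs Q).map π)
    rw [← hπ, hcomap, ← hsq, hs2] at h5
    exact h5
  obtain ⟨hcN, heN⟩ := min_central h.nQ h.pQ hN (hNs.trans sqs_le) hne hmin
  have hyN : ∀ n ∈ N, y * n * y⁻¹ = n := by
    by_contra hcon
    push Not at hcon
    obtain ⟨h16, hC⟩ := sixteen y h.y5 N (h.pQ.to_le (hNs.trans sqs_le)) (fun s hs => hN.conj_mem s hs y)
      (h.rk.card_le heN) hcon
    exact L2a h N hN hNs hcN heN h16 hC (by rw [hscard, h16])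
  have hNcen := h.central N hN hcN hyN
  obtain ⟨hN2, z, hz, hz1, hNz⟩ := two_of_min hne hNcen heN hmin
  have hzz : z * z = 1 := by
    have := heN z hz
    rwa [pow_two] at this
  have h4 : Nat.card (sqs Q) = 4 := by rw [hscard, hN2]
  have h64 : Nat.card Q = 64 := by rw [h.V.1, h4]
  obtain ⟨f, hf, hfN⟩ : ∃ f ∈ sqs Q, f ∉ N := by
    by_contra hcon
    push Not at hcon
    exact hNne (le_antisymm hNs hcon)
  have hcos : ∀ g ∈ sqs Q, g ∈ N ∨ g * f⁻¹ ∈ N := by
    intro g hg
    by_cases hgN : g ∈ N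
    · exact Or.inl hgN
    · right
      have h1 : π g = π f := eq_of_card_two hs2 (by rw [hsq]; exact ⟨g, hg, rfl⟩) (by rw [hsq]; exact ⟨f, hf, rfl⟩)
        (fun h2 => hgN ((QuotientGroup.eq_one_iff _).1 h2)) (fun h2 => hfN ((QuotientGroup.eq_one_iff _).1 h2))
      rw [← QuotientGroup.eq_one_iff]
      show π (g * f⁻¹) = 1
      rw [map_mul, map_inv, h1, mul_inv_cancel]
  have hκN : ∀ x : X, x * f * x⁻¹ * f⁻¹ ∈ N := by
    intro x
    rcases hcos _ (hZn.conj_mem f hf x) with h1 | h1
    · exfalso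
      apply hfN
      have := hN.conj_mem _ h1 x⁻¹
      simpa [mul_assoc] using this
    · exact h1
  let κ : X →* X :=
    { toFun := fun x => x * f * x⁻¹ * f⁻¹
      map_one' := by simp
      map_mul' := by
        intro x x'
        have h1 := hNcen _ (hκN x') x
        have h2 : x * x' * f * (x * x')⁻¹ * f⁻¹ = (x * (x' * f * x'⁻¹ * f⁻¹)) * (f * x⁻¹ * f⁻¹) := by group
        rw [h2, ← h1]
        have h3 : x' * f * x'⁻¹ * f⁻¹ * x * (f * x⁻¹ * f⁻¹) = (x' * f * x'⁻¹ * f⁻¹) * (x * f * x⁻¹ * f⁻¹) := by group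
        rw [h3]
        exact hNcen _ (hκN x') _ }
  have hκ : ∀ x, κ x = x * f * x⁻¹ * f⁻¹ := fun _ => rfl
  have hκker : ∀ x, x ∈ κ.ker ↔ x * f = f * x := by
    intro x
    rw [MonoidHom.mem_ker, hκ, mul_inv_eq_one, mul_inv_eq_iff_eq_mul]
  have hyκ : y ∈ κ.ker := by
    rw [MonoidHom.mem_ker]
    have h1 : κ y ^ 5 = 1 := by rw [← map_pow, h.y5, map_one]
    have h2 : κ y ^ 2 = 1 := heN _ (hκN y)
    calc κ y = κ y ^ 5 * ((κ y ^ 2) ^ 2)⁻¹ := by group
      _ = 1 := by rw [h1, h2]; simp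
  have hyf : y * f * y⁻¹ = f := by
    rw [mul_inv_eq_iff_eq_mul]
    exact (hκker y).1 hyκ
  have hgen : ∀ g ∈ sqs Q, ∃ n ∈ N, g = n ∨ g = n * f := by
    intro g hg
    rcases hcos g hg with h1 | h1
    · exact ⟨g, h1, Or.inl rfl⟩
    · exact ⟨g * f⁻¹, h1, Or.inr (by group)⟩
  have hys : ∀ g ∈ sqs Q, y * g * y⁻¹ = g := by
    intro g hg
    obtain ⟨n, hn, rfl | rfl⟩ := hgen g hg
    · exact hyN _ hn
    · calc y * (n * f) * y⁻¹ = (y * n * y⁻¹) * (y * f * y⁻¹) := by group
        _ = n * f := by rw [hyN n hn, hyf]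
  have hQκ : Q ≤ κ.ker := by
    have h1 : κ.ker.relIndex Q ≤ 2 := by
      rw [relIndex_ker, ← hN2]
      apply Subgroup.card_le_of_le
      rintro _ ⟨q, _, rfl⟩
      exact hκN q
    have h2 := H3.PBasic.card_mul_relIndex (inf_le_left : Q ⊓ κ.ker ≤ Q)
    rw [inf_relIndex_left, h64] at h2
    have h3 : κ.ker.relIndex Q = 0 ∨ κ.ker.relIndex Q = 1 ∨ κ.ker.relIndex Q = 2 := by omega
    rcases h3 with h3 | h3 | h3
    · rw [h3] at h2; omega
    · rwa [relIndex_eq_one] at h3
    · exfalso
      rw [h3] at h2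
      have h5 := fix_sub (by norm_num : Nat.Prime 5) y h.y5 (Q ⊓ κ.ker) (by
        intro s hs
        exact ⟨h.nQ.conj_mem s hs.1 y, (inferInstance : κ.ker.Normal).conj_mem s hs.2 y⟩)
      have h6 : (Q ⊓ κ.ker) ⊓ centralizer {y} = sqs Q := by
        apply le_antisymm
        · rintro x ⟨⟨hx, -⟩, hxy⟩
          apply h.V.2 x hx
          have := mem_centralizer_singleton_iff.1 (show x ∈ centralizer {y} from hxy)
          rw [← this]
          simp
        · intro g hg
          refine ⟨⟨sqs_le hg, ?_⟩, ?_⟩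
          · show g ∈ κ.ker
            rw [hκker]
            obtain ⟨n, hn, rfl | rfl⟩ := hgen g hg
            · exact hNcen _ hn _
            · rw [mul_assoc, hNcen n hn, mul_assoc, ← hNcen n hn f]
          · show g ∈ centralizer {y}
            rw [mem_centralizer_singleton_iff]
            have := hys g hg
            rw [mul_inv_eq_iff_eq_mul] at this
            exact this.symm
      rw [h6, h4] at h5
      have h7 : Nat.card (Q ⊓ κ.ker : Subgroup X) = 32 := by omega
      rw [h7] at h5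
      unfold Nat.ModEq at h5
      omega
  have hsQ : ∀ g ∈ sqs Q, ∀ q ∈ Q, g * q = q * g := by
    intro g hg q hq
    have h1 := (hκker q).1 (hQκ hq)
    obtain ⟨n, hn, rfl | rfl⟩ := hgen g hg
    · exact hNcen _ hn _
    · rw [mul_assoc, ← h1, ← mul_assoc, hNcen n hn q, mul_assoc]
  have hcen := h.central (sqs Q) hZn hsQ hys
  by_cases hff : ∃ g ∈ sqs Q, g * g ≠ 1
  · obtain ⟨g, hg, hgg⟩ := hff
    have hgN : g ∉ N := fun h1 => hgg (by have := heN g h1; rwa [pow_two] at this)
    -- elements of `sqs Q` with trivial square are in `N`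
    have h1 : ∀ c ∈ sqs Q, c * c = 1 → c ∈ N := by
      intro c hc hcc
      by_contra hcN'
      have h2 : π c = π g := eq_of_card_two hs2 (by rw [hsq]; exact ⟨c, hc, rfl⟩) (by rw [hsq]; exact ⟨g, hg, rfl⟩)
        (fun h2 => hcN' ((QuotientGroup.eq_one_iff _).1 h2)) (fun h2 => hgN ((QuotientGroup.eq_one_iff _).1 h2))
      have h3 : g * c⁻¹ ∈ N := by
        rw [← QuotientGroup.eq_one_iff]
        show π (g * c⁻¹) = 1
        rw [map_mul, map_inv, h2, mul_inv_cancel]
      apply hgg
      have h5 : g = (g * c⁻¹) * c := by group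
      have h6 : g * c⁻¹ * (g * c⁻¹) = 1 := by
        have := heN _ h3
        rwa [pow_two] at this
      calc g * g = ((g * c⁻¹) * c) * ((g * c⁻¹) * c) := by rw [← h5]
        _ = (g * c⁻¹) * (c * (g * c⁻¹)) * c := by group
        _ = (g * c⁻¹) * ((g * c⁻¹) * c) * c := by rw [hcen c hc (g * c⁻¹)]
        _ = (g * c⁻¹ * (g * c⁻¹)) * (c * c) := by group
        _ = 1 := by rw [h6, hcc, one_mul]
    obtain ⟨_, ⟨a, ha, rfl⟩, _, ⟨b, hb, rfl⟩, hab⟩ := hnab
    apply hab
    have h2 : a * b * a⁻¹ * b⁻¹ ∈ N := by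
      apply h1 _ (comm_mem ha hb)
      have h3 := hcen _ (comm_mem ha hb) a
      have h5 := hcen _ (sq_mem ha) b
      have h6 : a * (a * b * a⁻¹ * b⁻¹) * (b * a⁻¹ * b⁻¹) = a ^ 2 * b * (a ^ 2)⁻¹ * b⁻¹ := by
        simp only [pow_two]; group
      have h7 : a ^ 2 * b * (a ^ 2)⁻¹ * b⁻¹ = 1 := by rw [h5]; group
      rw [← h3, h7] at h6
      calc (a * b * a⁻¹ * b⁻¹) * (a * b * a⁻¹ * b⁻¹) = (a * b * a⁻¹ * b⁻¹) * a * (b * a⁻¹ * b⁻¹) := by group
        _ = 1 := h6
    have h3 : π (a * b * a⁻¹ * b⁻¹) = 1 := (QuotientGroup.eq_one_iff _).2 h2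
    rw [map_mul, map_mul, map_mul, map_inv, map_inv, mul_inv_eq_one, mul_inv_eq_iff_eq_mul] at h3
    exact h3
  · push Not at hff
    have hf1 : f ≠ 1 := fun h1 => hfN (by rw [h1]; exact one_mem _)
    have hzf : z ≠ f := fun h1 => hfN (by rw [← h1]; exact hz)
    have hzf1 : z * f ≠ 1 := by
      intro h1
      apply hzf
      have h2 := hff f hf
      exact mul_right_cancel (h1.trans h2.symm)
    have hzfs : z * f ∈ sqs Q := mul_mem (hNs hz) hf
    have hall : ∀ x ∈ Q, x * x = 1 ∨ x * x = z ∨ x * x = f ∨ x * x = z * f := by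
      intro x hx
      have h1 := sq_mem hx
      rw [pow_two] at h1
      obtain ⟨n, hn, h2 | h2⟩ := hgen _ h1
      · rw [h2]
        rcases hNz n hn with h3 | h3
        · exact Or.inl h3
        · exact Or.inr (Or.inl h3)
      · rw [h2]
        rcases hNz n hn with h3 | h3
        · right; right; left; rw [h3, one_mul]
        · right; right; right; rw [h3]
    have c0 := part Q hall hz1 hf1 hzf hzf1
    have c1 := h.cnt h4 hcen (hNs hz) hz1 hzz
    have c2 := h.cnt h4 hcen hf hf1 (hff f hf)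
    have c3 := h.cnt h4 hcen hzfs hzf1 (hff _ hzfs)
    rw [nsq_add Q hz1] at c1
    rw [nsq_add Q hf1] at c2
    rw [nsq_add Q hzf1] at c3
    rw [h64] at c0
    -- the action of `w`
    set D := Q ⊓ centralizer {w} with hD
    have hDmem : ∀ x, x ∈ D ↔ x ∈ Q ∧ w * x * w⁻¹ = x := by
      intro x
      rw [hD, mem_inf, mem_centralizer_singleton_iff, mul_inv_eq_iff_eq_mul]
      exact and_congr_right fun _ => eq_comm
    have hsD : sqs Q ≤ D := by
      intro g hg
      rw [hDmem]
      refine ⟨sqs_le hg, ?_⟩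
      rw [← hcen g hg w, mul_inv_cancel_right]
    have hkey : ∀ u ∈ sqs Q, nsq Q u = 20 → 5 ≤ nsq D u := by
      intro u hu hu20
      have h1 := fix_conj (by norm_num : Nat.Prime 3) w h.w3 {x | x ∈ Q ∧ x * x = u} (by
        rintro s ⟨hs, hsu⟩
        refine ⟨h.nQ.conj_mem s hs w, ?_⟩
        have h2 : w * s * w⁻¹ * (w * s * w⁻¹) = w * (s * s) * w⁻¹ := by group
        rw [h2, hsu, ← hcen u hu w, mul_inv_cancel_right])
      have h2 : Nat.card ({x | x ∈ Q ∧ x * x = u} : Set X) = 20 := hu20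
      rw [h2] at h1
      have e : {s : X // s ∈ ({x | x ∈ Q ∧ x * x = u} : Set X) ∧ w * s * w⁻¹ = s} ≃ {x : X // x ∈ D ∧ x * x = u} :=
        Equiv.subtypeEquivRight (by
          intro s
          rw [hDmem]
          show ((s ∈ Q ∧ s * s = u) ∧ w * s * w⁻¹ = s) ↔ _
          tauto)
      rw [Nat.card_congr e] at h1
      have h3 : nsq D u % 3 = 2 := h1.symm
      have h5 : nsq D u ≠ 0 := by omega
      have h6 : Nonempty {x : X // x ∈ D ∧ x * x = u} := by
        by_contra hcon
        rw [not_nonempty_iff] at hcon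
        exact h5 Nat.card_of_isEmpty
      obtain ⟨x, hx, hxu⟩ := h6
      have h7 : 4 ≤ nsq D u := by
        rw [← h4]
        apply Nat.card_le_card_of_injective (fun g : sqs Q => (⟨x * g, mul_mem hx (hsD g.2), by
          have h8 := hcen g g.2 x
          have h9 := hff g g.2
          calc x * g * (x * g) = x * (g * x) * g := by group
            _ = x * (x * g) * g := by rw [h8]
            _ = (x * x) * (g * g) := by group
            _ = u := by rw [h9, hxu, mul_one]⟩ : {x : X // x ∈ D ∧ x * x = u}))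
        intro a b hab
        have := congrArg Subtype.val hab
        exact Subtype.ext (mul_left_cancel this)
      omega
    have hone : 4 ≤ nsq D 1 := by
      rw [← h4]
      apply Nat.card_le_card_of_injective (fun g : sqs Q => (⟨(g : X), hsD g.2, hff g g.2⟩ : {x : X // x ∈ D ∧ x * x = 1}))
      intro a b hab
      have h9 := congrArg Subtype.val hab
      exact Subtype.ext h9
    have d0 := part D (fun x hx => hall x ((hDmem x).1 hx).1) hz1 hf1 hzf hzf1
    have d1 := hkey z (hNs hz) (by omega)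
    have d2 := hkey f hf (by omega)
    have d3 := hkey _ hzfs (by omega)
    have h5 := fix_sub (by norm_num : Nat.Prime 3) w h.w3 Q (fun s hs => h.nQ.conj_mem s hs w)
    rw [h64, ← hD] at h5
    have h6 : Nat.card D ∣ 64 := by
      rw [← h64]
      exact Subgroup.card_dvd_of_le inf_le_left
    have h7 : Nat.card D = 64 := by
      have h8 : Nat.card D ≤ 64 := Nat.le_of_dvd (by norm_num) h6
      unfold Nat.ModEq at h5
      have h9 : 19 ≤ Nat.card D := by omega
      obtain ⟨k, hk⟩ := h6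
      have hk4 : k = 1 ∨ k = 2 ∨ k = 3 := by
        have : k ≤ 3 := by
          by_contra hcon
          push Not at hcon
          nlinarith
        have : k ≠ 0 := by
          rintro rfl
          omega
        omega
      rcases hk4 with rfl | rfl | rfl <;> omega
    have h8 : D = Q := Subgroup.eq_of_le_of_card_ge inf_le_left (by rw [h7, h64])
    obtain ⟨q, hq1, hq2⟩ := h.wnt
    apply hq2
    rw [← h8, hDmem] at hq1
    rw [hq1.2, mul_inv_cancel]
    exact one_mem _

/-- A maximal subgroup with a property. -/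
theorem exists_max [Finite X] (P : Subgroup X → Prop) (h : P ⊥) :
    ∃ M, P M ∧ ∀ M', P M' → M ≤ M' → M' = M := by
  obtain ⟨M, hM, hmax⟩ := Set.exists_max_image {M | P M} (fun M => Nat.card M) (Set.toFinite _) ⟨⊥, h⟩
  exact ⟨M, hM, fun M' hM' hle => (Subgroup.eq_of_le_of_card_ge hle (hmax M' hM')).symm⟩

theorem Hyp.main [Finite X] (h : Hyp Q y t w) :
    (Nat.card Q = 16 ∧ ∀ q ∈ Q, q ^ 2 = 1) ∨ (Nat.card Q = 32 ∧ Concl ↥Q) := by
  by_cases hs : sqs Q = ⊥
  · left
    refine ⟨?_, sqs_bot hs⟩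
    rw [h.V.1, hs, Subgroup.card_bot, one_mul]
  right
  obtain ⟨K, ⟨hKn, hKs, hKne⟩, hKmax⟩ := exists_max (fun M : Subgroup X => M.Normal ∧ M ≤ sqs Q ∧ M ≠ sqs Q)
    ⟨inferInstance, bot_le, Ne.symm hs⟩
  by_cases hK : K = ⊥
  · obtain ⟨-, h32, -, -, hC⟩ := h.L1 hs (by
      intro M hM hMs
      by_cases hM' : M = sqs Q
      · exact Or.inr hM'
      · left
        rw [← hK]
        exact hKmax M ⟨hM, hMs, hM'⟩ (by rw [hK]; exact bot_le))
    exact ⟨h32, hC⟩
  · exfalso
    obtain ⟨N, ⟨hNn, hNK, hNne⟩, hNmax⟩ := exists_max (fun M : Subgroup X => M.Normal ∧ M ≤ K ∧ M ≠ K)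
      ⟨inferInstance, bot_le, Ne.symm hK⟩
    haveI := hNn
    have hq := h.quot N (hNK.trans hKs)
    set π := QuotientGroup.mk' N with hπ
    have hπs : Function.Surjective π := QuotientGroup.mk'_surjective N
    have hcm : ∀ A : Subgroup X, N ≤ A → (A.map π).comap π = A := by
      intro A hA
      rw [comap_map_eq, hπ, QuotientGroup.ker_mk', sup_eq_left.2 hA]
    have hNle : ∀ M : Subgroup (X ⧸ N), N ≤ M.comap π := fun M => QuotientGroup.le_comap_mk' N M
    refine hq.L2 (K.map π) (hKn.map π hπs) ?_ ?_ ?_ ?_ ?_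
    · rw [sqs_map]; exact map_mono hKs
    · intro h1
      apply hNne
      rw [← hcm K hNK, h1, MonoidHom.comap_bot, hπ, QuotientGroup.ker_mk']
    · intro h1
      rw [sqs_map] at h1
      apply hKne
      rw [← hcm K hNK, h1, hcm _ (hNK.trans hKs)]
    · intro M hM hMK
      have h1 : M.comap π ≤ K := by rw [← hcm K hNK]; exact comap_mono hMK
      by_cases h2 : M.comap π = K
      · right
        rw [← h2, map_comap_eq_self_of_surjective hπs]
      · left
        have h3 := hNmax _ ⟨hM.comap π, h1, h2⟩ (hNle M)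
        rw [← map_comap_eq_self_of_surjective hπs M, h3, hπ, QuotientGroup.map_mk'_self]
    · intro M hM hKM hMs
      rw [sqs_map] at hMs ⊢
      have h1 : M.comap π ≤ sqs Q := by rw [← hcm (sqs Q) (hNK.trans hKs)]; exact comap_mono hMs
      have h0 : K ≤ M.comap π := by rw [← hcm K hNK]; exact comap_mono hKM
      by_cases h2 : M.comap π = sqs Q
      · right
        rw [← h2, map_comap_eq_self_of_surjective hπs]
      · left
        have h3 := hKmax _ ⟨hM.comap π, h1, h2⟩ h0
        rw [← map_comap_eq_self_of_surjective hπs M, h3]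

end H26.PcA
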