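import Mathlib
import Cfsg.Prelude
import Cfsg.Agent.Lib.H26.PcA6
import Cfsg.Agent.Lib.H1.Coprime2
import Cfsg.Agent.Lib.H59.PCons
import Cfsg.Agent.Lib.H76.SecRank

/-!
`2`-constrained groups of sectional rank at most `4` involving `A₅`.
-/

set_option autoImplicit false
set_option linter.unusedSectionVars false
set_option linter.style.haveILetI false
set_option linter.unusedSimpArgs false

open Subgroup Cfsg

namespace H26.PcA

section lift

variable {Y : Type*} [Group Y] {A : Type*} [Group A]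

theorem lift5 (ρ : Y →* A) (hρ : Function.Surjective ρ) (h2 : IsPGroup 2 ρ.ker) {a : A} (ha : a ^ 5 = 1) :
    ∃ g : Y, ρ g = a ∧ g ^ 5 = 1 := by
  obtain ⟨g, rfl⟩ := hρ a
  have h1 : g ^ 5 ∈ ρ.ker := by rw [MonoidHom.mem_ker, map_pow, ha]
  obtain ⟨k, hk⟩ := h2 ⟨g ^ 5, h1⟩
  have h3 : (g ^ 5) ^ 2 ^ k = 1 := congrArg Subtype.val hk
  refine ⟨g ^ 16 ^ k, ?_, ?_⟩
  · rw [map_pow, pow_eq_pow_mod (16 ^ k) ha, Nat.pow_mod]
    norm_num
  · rw [← pow_mul, mul_comm, show 16 ^ k = 2 ^ k * 8 ^ k by rw [← mul_pow]; norm_num, ← mul_assoc, pow_mul, pow_mul, h3, one_pow]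

theorem lift3 (ρ : Y →* A) (hρ : Function.Surjective ρ) (h2 : IsPGroup 2 ρ.ker) {a : A} (ha : a ^ 3 = 1) :
    ∃ g : Y, ρ g = a ∧ g ^ 3 = 1 := by
  obtain ⟨g, rfl⟩ := hρ a
  have h1 : g ^ 3 ∈ ρ.ker := by rw [MonoidHom.mem_ker, map_pow, ha]
  obtain ⟨k, hk⟩ := h2 ⟨g ^ 3, h1⟩
  have h3 : (g ^ 3) ^ 2 ^ k = 1 := congrArg Subtype.val hk
  refine ⟨g ^ 4 ^ k, ?_, ?_⟩
  · rw [map_pow, pow_eq_pow_mod (4 ^ k) ha, Nat.pow_mod]
    norm_num
  · rw [← pow_mul, mul_comm, show 4 ^ k = 2 ^ k * 2 ^ k by rw [← mul_pow]; norm_num, ← mul_assoc, pow_mul, pow_mul, h3, one_pow]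

theorem nontriv [Finite Y] {Q : Subgroup Y} (hQ : Q.Normal) (h2 : IsPGroup 2 Q) {y : Y} {p : ℕ} (hp : p.Coprime 2)
    (hy : y ^ p = 1) (hyQ : ∃ q ∈ Q, y * q ≠ q * y) : ∃ q ∈ Q, y * q * y⁻¹ * q⁻¹ ∉ sqs Q := by
  haveI : Fact (Nat.Prime 2) := ⟨Nat.prime_two⟩
  by_contra hcon
  push Not at hcon
  have hF : sqs Q ≤ (frattini ↥Q).map Q.subtype := by
    unfold sqs
    rw [closure_le]
    rintro _ ⟨q, hq, rfl⟩
    exact ⟨⟨q, hq⟩ ^ 2, H3.PBasic.pow_mem_frattini h2 _, rfl⟩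
  let E : Subgroup Y :=
    { carrier := {a | ∀ q ∈ Q, a * q * a⁻¹ * q⁻¹ ∈ sqs Q}
      one_mem' := by intro q _; simpa using one_mem _
      mul_mem' := by
        intro a b ha hb q hq
        have h1 := ha (b * q * b⁻¹) (hQ.conj_mem q hq b)
        have h3 := mul_mem h1 (hb q hq)
        convert h3 using 1
        group
      inv_mem' := by
        intro a ha q hq
        have h1 := inv_mem (ha (a⁻¹ * q * a⁻¹⁻¹) (hQ.conj_mem q hq a⁻¹))
        convert h1 using 1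
        group }
  have hyE : zpowers y ≤ E := by
    rw [zpowers_le]
    exact hcon
  have h3 := H1.Coprime2.le_centralizer_of_frattini (zpowers y) Q (by
    obtain ⟨k, hk⟩ := IsPGroup.iff_card.1 (h2.to_subgroup (frattini ↥Q))
    rw [hk, Nat.card_zpowers]
    apply Nat.Coprime.pow_right
    exact Nat.Coprime.coprime_dvd_left (orderOf_dvd_of_pow_eq_one hy) hp)
    (fun a ha k hk => hF (hyE ha k hk))
  obtain ⟨q, hq, hyq⟩ := hyQ
  exact hyq (mem_centralizer_iff.1 (h3 (mem_zpowers y)) q hq).symm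

end lift

theorem a5_elts : ∃ σ τ ω : ↥(alternatingGroup (Fin 5)), σ ^ 5 = 1 ∧ σ ≠ 1 ∧ τ ^ 2 = 1 ∧ τ * σ * τ⁻¹ * σ = 1 ∧
    ω ^ 3 = 1 ∧ ω ≠ 1 := by
  refine ⟨⟨Equiv.swap 0 1 * Equiv.swap 1 2 * Equiv.swap 2 3 * Equiv.swap 3 4, by
      rw [Equiv.Perm.mem_alternatingGroup]; decide⟩,
    ⟨Equiv.swap 1 4 * Equiv.swap 2 3, by rw [Equiv.Perm.mem_alternatingGroup]; decide⟩,
    ⟨Equiv.swap 0 1 * Equiv.swap 1 2, by rw [Equiv.Perm.mem_alternatingGroup]; decide⟩, ?_, ?_, ?_, ?_, ?_, ?_⟩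
  all_goals decide

theorem exists_hyp {Y : Type*} [Group Y] [Finite Y] (ρ : Y →* ↥(alternatingGroup (Fin 5)))
    (hρ : Function.Surjective ρ) (h2 : IsPGroup 2 ρ.ker) (hrk : RK Y)
    (hC : ∀ x : Y, (∀ q ∈ ρ.ker, x * q = q * x) → x ∈ ρ.ker) : ∃ y t w : Y, Hyp ρ.ker y t w := by
  obtain ⟨σ, τ, ω, h1, h3, h4, h5, h6, h7⟩ := a5_elts
  obtain ⟨y, hy, hy5⟩ := lift5 ρ hρ h2 h1
  obtain ⟨w, hw, hw3⟩ := lift3 ρ hρ h2 h6
  obtain ⟨t, ht⟩ := hρ τ
  have key : ∀ x : Y, ρ x ≠ 1 → ∃ q ∈ ρ.ker, x * q ≠ q * x := by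
    intro x hx
    by_contra hcon
    push Not at hcon
    exact hx (hC x hcon)
  refine ⟨y, t, w, inferInstance, h2, hrk, ?_, hy5, ?_, ?_, ?_, hw3, ?_⟩
  · intro M hM
    rcases (hM.map ρ hρ).eq_bot_or_eq_top with h8 | h8
    · left
      intro m hm
      have : ρ m ∈ M.map ρ := ⟨m, hm, rfl⟩
      rw [h8] at this
      exact this
    · right
      rw [← comap_map_eq, h8, comap_top]
  · exact nontriv inferInstance h2 (by norm_num) hy5 (key y (by rw [hy]; exact h3))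
  · rw [MonoidHom.mem_ker, map_pow, ht, h4]
  · rw [MonoidHom.mem_ker, map_mul, map_mul, map_mul, map_inv, ht, hy, h5]
  · exact nontriv inferInstance h2 (by norm_num) hw3 (key w (by rw [hw]; exact h7))

theorem Concl.of_equiv {G H : Type*} [Group G] [Group H] (e : G ≃* H) (h : Concl G) : Concl H := by
  obtain ⟨A, B, ⟨eA⟩, ⟨eB⟩, h1, h2, h3⟩ := h
  refine ⟨A.map e.toMonoidHom, B.map e.toMonoidHom, ⟨(e.subgroupMap A).symm.trans eA⟩,
    ⟨(e.subgroupMap B).symm.trans eB⟩, ?_, ?_, ?_⟩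
  · rintro _ ⟨a, ha, rfl⟩ _ ⟨b, hb, rfl⟩
    rw [← map_mul, ← map_mul, h1 a ha b hb]
  · rw [← Subgroup.map_sup, h2]
    exact Subgroup.map_top_of_surjective _ e.surjective
  · rw [← Subgroup.map_inf _ _ _ e.injective, h3]
    ext x
    rw [Subgroup.mem_center_iff]
    constructor
    · rintro ⟨c, hc, rfl⟩ g
      obtain ⟨g, rfl⟩ := e.surjective g
      have := Subgroup.mem_center_iff.1 hc g
      show e g * e c = e c * e g
      rw [← map_mul, this, map_mul]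
    · intro hx
      obtain ⟨c, rfl⟩ := e.surjective x
      refine ⟨c, Subgroup.mem_center_iff.2 fun g => ?_, rfl⟩
      apply e.injective
      rw [map_mul, map_mul]
      exact hx (e g)

theorem main {X : Type*} [Group X] [Finite X] (hc : Cfsg.IsPConstrained 2 X) (hO : Cfsg.oddCore X = ⊥)
    (h4 : Cfsg.SectionalPRankLE 2 4 X)
    (hQ : ∃ A : Subgroup (X ⧸ Cfsg.pCore 2 X), Nonempty (↥A ≃* ↥(alternatingGroup (Fin 5)))) :
    (Cfsg.IsElementaryAbelian 2 (Cfsg.pCore 2 X) ∧ Nat.card ↥(Cfsg.pCore 2 X) = 16) ∨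
      (Nat.card ↥(Cfsg.pCore 2 X) = 32 ∧ Concl ↥(Cfsg.pCore 2 X)) := by
  haveI : Fact (Nat.Prime 2) := ⟨Nat.prime_two⟩
  set P := Cfsg.pCore 2 X with hP
  obtain ⟨A, ⟨e⟩⟩ := hQ
  have hCT : H59.CharP.CT 2 X := H59.PCons.CT_of_isPConstrained hc hO
  have hcen := hCT.centralizer_pCore_le
  have hPp : IsPGroup 2 ↥P := H59.CharP.isPGroup_pCore X
  have hPA : P ≤ A.comap (QuotientGroup.mk' P) := QuotientGroup.le_comap_mk' P A
  let ρ : ↥(A.comap (QuotientGroup.mk' P)) →* ↥(alternatingGroup (Fin 5)) :=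
    e.toMonoidHom.comp ((QuotientGroup.mk' P).subgroupComap A)
  have hρ : Function.Surjective ρ :=
    e.surjective.comp (MonoidHom.subgroupComap_surjective_of_surjective _ _ (QuotientGroup.mk'_surjective P))
  have hker : ρ.ker = P.subgroupOf (A.comap (QuotientGroup.mk' P)) := by
    ext x
    rw [MonoidHom.mem_ker, mem_subgroupOf]
    show e _ = 1 ↔ _
    rw [map_eq_one_iff e e.injective]
    constructor
    · intro h
      exact (QuotientGroup.eq_one_iff _).1 (congrArg Subtype.val h)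
    · intro h
      exact Subtype.ext ((QuotientGroup.eq_one_iff _).2 h)
  have eqv : ↥ρ.ker ≃* ↥P := (MulEquiv.subgroupCongr hker).trans (Subgroup.subgroupOfEquivOfLe hPA)
  have h2 : IsPGroup 2 ρ.ker := hPp.of_equiv eqv.symm
  have hrk : RK ↥(A.comap (QuotientGroup.mk' P)) := by
    have := H76.SecRank.sectionalPRankLE_iff.1 (H76.SecRank.subgroup h4 (A.comap (QuotientGroup.mk' P)))
    intro N H h1 h2 h3
    have := this N H h1 h2 h3
    norm_num at this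
    exact this
  obtain ⟨y, t, w, h⟩ := exists_hyp ρ hρ h2 hrk (by
    intro x hx
    rw [hker, mem_subgroupOf]
    apply hcen
    rw [mem_centralizer_iff]
    intro q hq
    have := hx ⟨q, hPA hq⟩ (by rw [hker, mem_subgroupOf]; exact hq)
    exact (congrArg Subtype.val this).symm)
  rcases h.main with ⟨h16, hsq⟩ | ⟨h32, hC⟩
  · left
    have hsq' : ∀ a ∈ P, a ^ 2 = 1 := by
      intro a ha
      have := hsq ⟨a, hPA ha⟩ (by rw [hker, mem_subgroupOf]; exact ha)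
      exact congrArg Subtype.val this
    refine ⟨⟨⟨⟨fun a b => ?_⟩⟩, hsq'⟩, by rw [← Nat.card_congr eqv.toEquiv, h16]⟩
    apply Subtype.ext
    have := comm_of_sq hsq' a a.2 b b.2
    rw [mul_inv_eq_one, mul_inv_eq_iff_eq_mul] at this
    exact this
  · right
    exact ⟨by rw [← Nat.card_congr eqv.toEquiv, h32], hC.of_equiv eqv⟩

end H26.PcA
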