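import Mathlib
import Cfsg.Prelude
import Cfsg.Agent.Lib.H26.PcA1
import Cfsg.Agent.Lib.H61.A8Five

/-!
Nonsolvable subgroups of the alternating group of degree 8 without normal `2`-subgroups
but with a nontrivial solvable normal subgroup.
-/

set_option autoImplicit false
set_option linter.unusedSectionVars false
set_option linter.style.haveILetI false
set_option linter.unusedSimpArgs false

open Subgroup Cfsg H61.A8Sub

namespace H26.PcB

theorem exists_p {K : Type*} [Group K] [Finite K] (h2 : pCore 2 K = ⊥) (hn : ¬ RF K) :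
    ∃ p : ℕ, p.Prime ∧ p ≠ 2 ∧ pCore p K ≠ ⊥ := by
  unfold RF at hn
  push Not at hn
  obtain ⟨N, hN, hs, hne⟩ := hn
  haveI : Nontrivial N := (Subgroup.nontrivial_iff_ne_bot N).2 hne
  obtain ⟨p, hp, hpc⟩ := H1.Hall.exists_pCore_ne_bot hs
  haveI := Fact.mk hp
  haveI hchar : (pCore p N).Characteristic := H1.Cores.pCore_characteristic p
  have hnor : ((pCore p N).map N.subtype).Normal := inferInstance
  have hP : IsPGroup p ((pCore p N).map N.subtype) := (H1.Cores.isPGroup_pCore p).map _
  have hne2 : (pCore p N).map N.subtype ≠ ⊥ := by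
    intro h
    apply hpc
    rwa [Subgroup.map_eq_bot_iff_of_injective _ N.subtype_injective] at h
  have hle : (pCore p N).map N.subtype ≤ pCore p K := le_sSup ⟨hnor, hP⟩
  refine ⟨p, hp, ?_, fun h => hne2 (le_bot_iff.1 (h ▸ hle))⟩
  rintro rfl
  rw [h2] at hle
  exact hne2 (le_bot_iff.1 hle)

/-- The action on a normal subgroup of prime order. -/
theorem cen_of_prime {K : Type*} [Group K] [Finite K] (N : Subgroup K) [N.Normal] {r : ℕ} (hr : r.Prime)
    (hN : Nat.card N = r) :
    Nat.card K ≤ Nat.card (centralizer (N : Set K)) * (r - 1) ∧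
      (Group.IsSolvable (centralizer (N : Set K)) → Group.IsSolvable K) := by
  haveI := Fact.mk hr
  haveI hcyc : IsCyclic N := isCyclic_of_prime_card hN
  let f : K →* MulAut N := MulAut.conjNormal
  have hker : f.ker = centralizer (N : Set K) := by
    ext g
    rw [MonoidHom.mem_ker, mem_centralizer_iff]
    constructor
    · intro h n hn
      have h1 := DFunLike.congr_fun h (⟨n, hn⟩ : N)
      have h2 : g * n * g⁻¹ = n := by
        have := congrArg Subtype.val h1
        rwa [MulAut.conjNormal_apply] at this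
      exact (mul_inv_eq_iff_eq_mul.1 h2).symm
    · intro h
      ext n
      rw [MulAut.conjNormal_apply]
      show g * n * g⁻¹ = n
      rw [mul_inv_eq_iff_eq_mul]
      exact (h n n.2).symm
  have e := IsCyclic.mulAutMulEquiv N
  constructor
  · have h1 := Subgroup.card_mul_index f.ker
    rw [hker, ← hker, Subgroup.index_ker f] at h1
    rw [← h1, hker]
    apply Nat.mul_le_mul_left
    have h2 : Nat.card f.range ≤ Nat.card (MulAut N) := Subgroup.card_le_card_group _
    refine h2.trans ?_
    rw [Nat.card_congr e.toEquiv, hN, Nat.card_eq_fintype_card, ZMod.card_units_eq_totient, Nat.totient_prime hr]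
  · intro hs
    haveI : Group.IsSolvable f.ker := by rw [hker]; exact hs
    haveI : Group.IsSolvable (MulAut N) := by
      refine Group.isSolvable_of_comm (fun a b => ?_)
      apply e.injective
      rw [map_mul, map_mul, mul_comm]
    exact Group.isSolvable_of_ker_le_range f.ker.subtype f (by rw [Subgroup.range_subtype])

variable {K : Subgroup P8}

theorem pow_dvd {p : ℕ} (hp : p.Prime) {k n : ℕ} (h : p ^ k ∣ n) (m : ℕ) (hm : ¬ p ^ m ∣ n) : k < m := by
  by_contra hc
  push Not at hc
  exact hm ((pow_dvd_pow p hc).trans h)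

theorem five_dvd (hK : K ≤ alternatingGroup (Fin 8)) (hs : ¬ Group.IsSolvable K) {p : ℕ} (hp : p.Prime)
    (hp2 : p ≠ 2) (hN : pCore p K ≠ ⊥) : 5 ∣ Nat.card K := by
  by_contra h5
  haveI := Fact.mk hp
  have hc := card_of hK hs h5
  have hd : Nat.card K ∣ 1344 := by
    rcases hc with h | h <;> rw [h]; norm_num
  have h7 : 7 ∣ Nat.card K := by
    rcases hc with h | h <;> rw [h] <;> norm_num
  haveI : Fact (Nat.Prime 7) := ⟨by norm_num⟩
  obtain ⟨g, hg⟩ := exists_prime_orderOf_dvd_card' 7 h7
  have hg' : orderOf (g : P8) = 7 := by rw [Subgroup.orderOf_coe, hg]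
  have hCg : Nat.card (centralizer {g}) ∣ 7 := by
    rw [← card_cent7 hg']
    have : (centralizer {g} : Subgroup K).map K.subtype ≤ centralizer {(g : P8)} := by
      rintro _ ⟨x, hx, rfl⟩
      rw [mem_centralizer_singleton_iff]
      have := mem_centralizer_singleton_iff.1 hx
      exact congrArg Subtype.val this
    rw [← Subgroup.card_map_of_injective K.subtype_injective (K := (centralizer {g} : Subgroup K))]
    exact Subgroup.card_dvd_of_le this
  set N := pCore p K with hNdef
  have hNp : IsPGroup p N := H1.Cores.isPGroup_pCore p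
  obtain ⟨k, hk⟩ := IsPGroup.iff_card.1 hNp
  have hk0 : k ≠ 0 := by
    rintro rfl
    apply hN
    apply Subgroup.card_eq_one.1
    rw [hk, pow_zero]
  have hNd : Nat.card N ∣ 1344 := (Subgroup.card_subgroup_dvd_card N).trans hd
  have hpd : p ∣ 1344 := (dvd_pow_self p hk0).trans (by rw [← hk]; exact hNd)
  have hp' : p = 3 ∨ p = 7 := by
    have h1344 : (1344 : ℕ) = 2 ^ 6 * (3 * 7) := by norm_num
    rw [h1344] at hpd
    rcases (Nat.Prime.dvd_mul hp).1 hpd with h | h
    · exact absurd ((Nat.prime_dvd_prime_iff_eq hp Nat.prime_two).1 (hp.dvd_of_dvd_pow h)) hp2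
    · rcases (Nat.Prime.dvd_mul hp).1 h with h | h
      · exact Or.inl ((Nat.prime_dvd_prime_iff_eq hp Nat.prime_three).1 h)
      · exact Or.inr ((Nat.prime_dvd_prime_iff_eq hp (by norm_num)).1 h)
  have hNn : N.Normal := inferInstance
  rw [hk] at hNd
  rcases hp' with rfl | rfl
  · have hk1 : k = 1 := by
      have := pow_dvd hp hNd 2 (by norm_num)
      omega
    have h1 := H26.PcA.fix_sub (by norm_num : Nat.Prime 7) g (by rw [← hg]; exact pow_orderOf_eq_one g) N
      (fun s hs => hNn.conj_mem s hs g)
    have h2 : Nat.card (N ⊓ centralizer {g} : Subgroup K) = 1 := by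
      have ha : Nat.card (N ⊓ centralizer {g} : Subgroup K) ∣ 7 :=
        (Subgroup.card_dvd_of_le inf_le_right).trans hCg
      have hb : Nat.card (N ⊓ centralizer {g} : Subgroup K) ∣ 3 := by
        have := Subgroup.card_dvd_of_le (inf_le_left : N ⊓ centralizer {g} ≤ N)
        rwa [hk, hk1, pow_one] at this
      have := Nat.dvd_gcd ha hb
      simpa using this
    rw [h2, hk, hk1] at h1
    unfold Nat.ModEq at h1
    omega
  · have hk1 : k = 1 := by
      have := pow_dvd hp hNd 2 (by norm_num)
      omega
    have hN7 : Nat.card N = 7 := by rw [hk, hk1, pow_one]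
    have h1 := (cen_of_prime N hp hN7).1
    obtain ⟨n, hn⟩ := exists_prime_orderOf_dvd_card' (G := N) 7 (by rw [hN7])
    have hn' : orderOf ((n : K) : P8) = 7 := by rw [Subgroup.orderOf_coe, Subgroup.orderOf_coe, hn]
    have h2 : Nat.card (centralizer (N : Set K)) ≤ 7 := by
      rw [← card_cent7 hn']
      rw [← Subgroup.card_map_of_injective K.subtype_injective (K := (centralizer (N : Set K)))]
      apply Subgroup.card_le_of_le
      rintro _ ⟨x, hx, rfl⟩
      rw [mem_centralizer_singleton_iff]
      have := mem_centralizer_iff.1 hx n n.2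
      exact (congrArg Subtype.val this).symm
    rcases hc with h | h <;> rw [h] at h1 <;> omega

theorem cycleType_five {g : P8} (hg : orderOf g = 5) : g.cycleType = {5} := by
  have hc : g.IsCycle := Equiv.Perm.isCycle_of_prime_order' (by rw [hg]; norm_num) (by rw [hg]; simp)
  rw [hc.cycleType, ← hc.orderOf, hg]

theorem card_cent5 {g : P8} (hg : orderOf g = 5) : Nat.card (Subgroup.centralizer {g}) = 30 := by
  rw [Equiv.Perm.nat_card_centralizer, cycleType_five hg]
  decide

/-- The normal odd subgroup has order three and commutes with a five-cycle. -/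
theorem three (hK : K ≤ alternatingGroup (Fin 8)) (hs : ¬ Group.IsSolvable K) {p : ℕ} (hp : p.Prime)
    (hp2 : p ≠ 2) (hN : pCore p K ≠ ⊥) {x : K} (hx : orderOf x = 5) :
    p = 3 ∧ Nat.card (pCore p K) = 3 ∧ ∀ n ∈ pCore p K, x * n * x⁻¹ = n := by
  haveI := Fact.mk hp
  haveI : Fact (Nat.Prime 5) := ⟨by norm_num⟩
  have hcen : ∀ g : K, orderOf g = 5 → Nat.card (centralizer {g}) ∣ 30 := by
    intro g hg
    have hg' : orderOf (g : P8) = 5 := by rw [Subgroup.orderOf_coe, hg]
    rw [← card_cent5 hg']
    have : (centralizer {g} : Subgroup K).map K.subtype ≤ centralizer {(g : P8)} := by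
      rintro _ ⟨x, hx, rfl⟩
      rw [mem_centralizer_singleton_iff]
      have := mem_centralizer_singleton_iff.1 hx
      exact congrArg Subtype.val this
    rw [← Subgroup.card_map_of_injective K.subtype_injective (K := (centralizer {g} : Subgroup K))]
    exact Subgroup.card_dvd_of_le this
  set N := pCore p K with hNdef
  have hNn : N.Normal := inferInstance
  have hNp : IsPGroup p N := H1.Cores.isPGroup_pCore p
  obtain ⟨k, hk⟩ := IsPGroup.iff_card.1 hNp
  have hk0 : k ≠ 0 := by
    rintro rfl
    apply hN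
    apply Subgroup.card_eq_one.1
    rw [hk, pow_zero]
  have hNd : Nat.card N ∣ 20160 := (Subgroup.card_subgroup_dvd_card N).trans (card_dvd hK)
  have hpd : p ∣ 20160 := (dvd_pow_self p hk0).trans (by rw [← hk]; exact hNd)
  have hp' : p = 3 ∨ p = 5 ∨ p = 7 := by
    have h1 : (20160 : ℕ) = 2 ^ 6 * (3 ^ 2 * (5 * 7)) := by norm_num
    rw [h1] at hpd
    rcases (Nat.Prime.dvd_mul hp).1 hpd with h | h
    · exact absurd ((Nat.prime_dvd_prime_iff_eq hp Nat.prime_two).1 (hp.dvd_of_dvd_pow h)) hp2
    · rcases (Nat.Prime.dvd_mul hp).1 h with h | h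
      · exact Or.inl ((Nat.prime_dvd_prime_iff_eq hp Nat.prime_three).1 (hp.dvd_of_dvd_pow h))
      · rcases (Nat.Prime.dvd_mul hp).1 h with h | h
        · exact Or.inr (Or.inl ((Nat.prime_dvd_prime_iff_eq hp (by norm_num)).1 h))
        · exact Or.inr (Or.inr ((Nat.prime_dvd_prime_iff_eq hp (by norm_num)).1 h))
  rw [hk] at hNd
  have hfix := H26.PcA.fix_sub (by norm_num : Nat.Prime 5) x (by rw [← hx]; exact pow_orderOf_eq_one x) N
      (fun s hs => hNn.conj_mem s hs x)
  have ha : Nat.card (N ⊓ centralizer {x} : Subgroup K) ∣ 30 :=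
    (Subgroup.card_dvd_of_le inf_le_right).trans (hcen x hx)
  have hb : Nat.card (N ⊓ centralizer {x} : Subgroup K) ∣ Nat.card N :=
    Subgroup.card_dvd_of_le (inf_le_left : N ⊓ centralizer {x} ≤ N)
  unfold Nat.ModEq at hfix
  rcases hp' with rfl | rfl | rfl
  · have hk2 : k = 1 ∨ k = 2 := by
      have := pow_dvd hp hNd 3 (by norm_num)
      omega
    rcases hk2 with rfl | rfl
    · rw [pow_one] at hk
      refine ⟨rfl, hk, ?_⟩
      rw [hk] at hb hfix
      have hcase : Nat.card (N ⊓ centralizer {x} : Subgroup K) = 3 := by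
        rcases (Nat.dvd_prime Nat.prime_three).1 hb with h | h
        · rw [h] at hfix; omega
        · exact h
      have heq : N ⊓ centralizer {x} = N := Subgroup.eq_of_le_of_card_ge inf_le_left (by rw [hcase, hk])
      intro n hn
      rw [← heq] at hn
      have := mem_centralizer_singleton_iff.1 (show n ∈ centralizer {x} from hn.2)
      rw [mul_inv_eq_iff_eq_mul]
      exact this.symm
    · exfalso
      have hk9 : Nat.card N = 9 := by rw [hk]; norm_num
      rw [hk9] at hb hfix
      have hle := Nat.le_of_dvd (by norm_num) hb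
      interval_cases h : Nat.card (N ⊓ centralizer {x} : Subgroup K) <;> omega
  · exfalso
    have hk1 : k = 1 := by
      have := pow_dvd hp hNd 2 (by norm_num)
      omega
    have hN5 : Nat.card N = 5 := by rw [hk, hk1, pow_one]
    obtain ⟨n, hn⟩ := exists_prime_orderOf_dvd_card' (G := N) 5 (by rw [hN5])
    have hn' : orderOf (n : K) = 5 := by rw [Subgroup.orderOf_coe, hn]
    have h2 : Nat.card (centralizer (N : Set K)) ∣ 30 := by
      refine (Subgroup.card_dvd_of_le ?_).trans (hcen _ hn')
      intro x hx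
      rw [mem_centralizer_singleton_iff]
      exact (mem_centralizer_iff.1 hx n n.2).symm
    apply hs
    apply (cen_of_prime N hp hN5).2
    have h3 := Nat.le_of_dvd (by norm_num) h2
    exact H60.Ord60.solvable_of_dvd (h2.trans (by norm_num)) (by omega)
  · exfalso
    have hk1 : k = 1 := by
      have := pow_dvd hp hNd 2 (by norm_num)
      omega
    have hN7 : Nat.card N = 7 := by rw [hk, hk1, pow_one]
    rw [hN7] at hb hfix
    rcases (Nat.dvd_prime (by norm_num)).1 hb with h | h
    · rw [h] at hfix; omega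
    · rw [h] at ha; omega

end H26.PcB
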