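import Mathlib
import Cfsg.Prelude
import Cfsg.Agent.Lib.H26.PcB1

/-!
Nonsolvable subgroups of the alternating group of degree 8 with a normal subgroup of order three.
-/

set_option autoImplicit false
set_option linter.unusedSectionVars false
set_option linter.style.haveILetI false
set_option linter.unusedSimpArgs false

open Subgroup Cfsg H61.A8Sub

namespace H26.PcB

/-- Nonsolvable subgroups of `S₅`. -/
theorem alt_le {α : Type*} [Fintype α] [DecidableEq α] (hα : Fintype.card α = 5) {R : Subgroup (Equiv.Perm α)}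
    (hR : ¬ Group.IsSolvable R) : alternatingGroup α ≤ R := by
  have hA : Nat.card (alternatingGroup α) = 60 := by
    haveI : Nontrivial α := by
      rw [← Fintype.one_lt_card_iff_nontrivial, hα]; norm_num
    rw [nat_card_alternatingGroup, Nat.card_eq_fintype_card, hα]; rfl
  set T := R ⊓ alternatingGroup α with hT
  have hTs : ¬ Group.IsSolvable T := by
    intro h
    apply hR
    let s : R →* ℤˣ := Equiv.Perm.sign.comp R.subtype
    have : s.ker ≤ (Subgroup.inclusion (inf_le_left : T ≤ R)).range := by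
      intro r hr
      refine ⟨⟨r, r.2, ?_⟩, rfl⟩
      exact Equiv.Perm.mem_alternatingGroup.2 hr
    exact Group.isSolvable_of_ker_le_range _ s this
  have hd : Nat.card T ∣ 60 := by
    rw [← hA]
    exact Subgroup.card_dvd_of_le inf_le_right
  have h60 : Nat.card T = 60 := by
    by_contra hne
    exact hTs (H60.Ord60.solvable_of_dvd hd hne)
  have : T = alternatingGroup α := Subgroup.eq_of_le_of_card_ge inf_le_right (by rw [h60, hA])
  rw [← this]
  exact inf_le_left

variable {K : Subgroup P8}

theorem quot_three (hK : K ≤ alternatingGroup (Fin 8)) (hs : ¬ Group.IsSolvable K)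
    (h3 : Nat.card (pCore 3 K) = 3) {x : K} (hx : orderOf x = 5) (hcomm : ∀ n ∈ pCore 3 K, x * n * x⁻¹ = n) :
    Nonempty (K ⧸ pCore 3 K ≃* alternatingGroup (Fin 5)) ∨ Nonempty (K ⧸ pCore 3 K ≃* Equiv.Perm (Fin 5)) := by
  classical
  have hx5 : orderOf (x : P8) = 5 := by rw [Subgroup.orderOf_coe, hx]
  haveI : Fact (Nat.Prime 5) := ⟨by norm_num⟩
  haveI : Fact (Nat.Prime 3) := ⟨by norm_num⟩
  have hxc : (x : P8).IsCycle := Equiv.Perm.isCycle_of_prime_order' (by rw [hx5]; norm_num) (by rw [hx5]; simp)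
  have hxs : (x : P8).support.card = 5 := by rw [← hxc.orderOf, hx5]
  set N := pCore 3 K with hNdef
  have hNn : N.Normal := inferInstance
  have hcube : ∀ n ∈ N, n ^ 3 = 1 := by
    intro n hn
    have h1 : (⟨n, hn⟩ : N) ^ Nat.card N = 1 := pow_card_eq_one'
    rw [h3] at h1
    exact congrArg Subtype.val h1
  -- (A)
  have hA : ∀ n ∈ N, ∀ a ∈ (x : P8).support, (n : P8) a = a := by
    intro n hn a ha
    have hcm : (x : P8) * n = n * x := by
      have h1 := hcomm n hn
      rw [mul_inv_eq_iff_eq_mul] at h1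
      exact congrArg Subtype.val h1
    have hb : (n : P8) a ∈ (x : P8).support := by
      rw [Equiv.Perm.mem_support] at ha ⊢
      intro h
      apply ha
      have h1 : (x : P8) ((n : P8) a) = (n : P8) ((x : P8) a) := by
        have := DFunLike.congr_fun hcm a
        simpa using this
      rw [h1] at h
      exact (n : P8).injective h
    obtain ⟨k, hk⟩ := hxc.exists_zpow_eq (Equiv.Perm.mem_support.1 ha) (Equiv.Perm.mem_support.1 hb)
    set y := (x : P8) ^ k with hy
    have hyn : y * n = n * y := ((show Commute (x : P8) n from hcm).zpow_left k).eq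
    have hyn' : ∀ c, y ((n : P8) c) = (n : P8) (y c) := fun c => by
      have := DFunLike.congr_fun hyn c
      simpa using this
    have h1 : (n : P8) ((n : P8) ((n : P8) a)) = a := by
      have := congrArg (fun g : K => (g : P8) a) (hcube n hn)
      simpa [pow_succ] using this
    rw [← hk, ← hyn', ← hk, ← hyn', ← hyn', ← hk] at h1
    have hy5 : y ^ 5 = 1 := by
      rw [hy, ← zpow_natCast, ← zpow_mul, mul_comm, zpow_mul, zpow_natCast, ← hx5, pow_orderOf_eq_one, one_zpow]
    have h2 : (y ^ 3) a = a := by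
      simpa [pow_succ] using h1
    have h3' : y = y ^ 3 * y ^ 3 * (y ^ 5)⁻¹ := by group
    rw [← hk, h3', hy5, inv_one, mul_one, Equiv.Perm.mul_apply, h2, h2]
  -- (B)
  have hNne : N ≠ ⊥ := by
    intro h
    rw [h, Subgroup.card_bot] at h3
    omega
  obtain ⟨z, hz, hz1⟩ := N.bot_or_exists_ne_one.resolve_left hNne
  obtain ⟨a, ha⟩ : ∃ a, (z : P8) a ≠ a := by
    by_contra hcon
    push Not at hcon
    apply hz1
    apply Subtype.ext
    exact Equiv.Perm.ext hcon
  have hza3 : (z : P8) ((z : P8) ((z : P8) a)) = a := by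
    have := congrArg (fun g : K => (g : P8) a) (hcube z hz)
    simpa [pow_succ] using this
  have hzinj := (z : P8).injective
  have hmov : ∀ b, (z : P8) b ≠ b → b ∉ (x : P8).support := fun b hb hbs => hb (hA z hz b hbs)
  have ha2 : (z : P8) ((z : P8) a) ≠ (z : P8) a := fun h => ha (hzinj h)
  have ha3 : (z : P8) ((z : P8) a) ≠ a := by
    intro h
    rw [h] at hza3
    exact ha hza3
  have hcompl : ({a, (z : P8) a, (z : P8) ((z : P8) a)} : Finset (Fin 8)) = (x : P8).supportᶜ := by
    apply Finset.eq_of_subset_of_card_le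
    · intro b hb
      rw [Finset.mem_compl]
      apply hmov
      simp only [Finset.mem_insert, Finset.mem_singleton] at hb
      rcases hb with rfl | rfl | rfl
      · exact ha
      · exact ha2
      · rw [hza3]; exact ha3.symm
    · rw [Finset.card_compl, hxs, Fintype.card_fin, Finset.card_insert_of_notMem, Finset.card_pair ha2.symm]
      simp only [Finset.mem_insert, Finset.mem_singleton, not_or]
      exact ⟨ha.symm, ha3.symm⟩
  have hB : ∀ b, b ∉ (x : P8).support → (z : P8) b ≠ b := by
    intro b hb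
    rw [← Finset.mem_compl, ← hcompl] at hb
    simp only [Finset.mem_insert, Finset.mem_singleton] at hb
    rcases hb with rfl | rfl | rfl
    · exact ha
    · exact ha2
    · rw [hza3]; exact ha3.symm
  obtain ⟨p, hp⟩ : (x : P8).support.Nonempty := by rw [← Finset.card_pos, hxs]; norm_num
  set O : Set (Fin 8) := MulAction.orbit K p with hO
  have hOs : ∀ y ∈ O, y ∈ (x : P8).support := by
    rintro _ ⟨g, rfl⟩
    by_contra hcon
    have h1 := hB _ hcon
    apply h1
    have h2 := hA _ (hNn.conj_mem z hz g⁻¹) p hp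
    have h4 : (((g⁻¹ * z * g⁻¹⁻¹ : K)) : P8) p = (g : P8)⁻¹ ((z : P8) ((g : P8) p)) := by
      simp [Equiv.Perm.mul_apply]
    rw [h4, Equiv.Perm.inv_eq_iff_eq] at h2
    exact h2
  have hsO : ∀ y ∈ (x : P8).support, y ∈ O := by
    intro y hy
    obtain ⟨k, hk⟩ := hxc.exists_zpow_eq (Equiv.Perm.mem_support.1 hp) (Equiv.Perm.mem_support.1 hy)
    exact ⟨x ^ k, hk⟩
  have hOeq : O = ((x : P8).support : Set (Fin 8)) := Set.ext fun y => ⟨hOs y, hsO y⟩
  have hOc : O.ncard = 5 := by rw [hOeq, Set.ncard_coe_finset, hxs]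
  let ρ : K →* Equiv.Perm O := MulAction.toPermHom K O
  have hρa : ∀ (k : K) (y : O), ((ρ k y : O) : Fin 8) = (k : P8) y := fun k y => rfl
  have hker : ρ.ker = N := by
    apply le_antisymm
    · apply H1.Cores.le_pCore inferInstance
      intro g
      refine ⟨1, ?_⟩
      obtain ⟨g, hg⟩ := g
      have hsg : Equiv.Perm.sign (g : P8) = 1 := Equiv.Perm.mem_alternatingGroup.1 (hK g.2)
      have hsup : (g : P8).support.card ≤ 3 := by
        have h1 : ((g : P8).support : Set (Fin 8)) ⊆ Oᶜ := by
          intro y hy hyO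
          apply Equiv.Perm.mem_support.1 (Finset.mem_coe.1 hy)
          have h2 := hρa g ⟨y, hyO⟩
          rw [(MonoidHom.mem_ker).1 hg] at h2
          exact h2.symm
        have h2 := Set.ncard_le_ncard h1 (Set.toFinite _)
        rw [Set.ncard_coe_finset] at h2
        have h3 := Set.ncard_add_ncard_compl O
        rw [Nat.card_fin] at h3
        omega
      have h4 := H61.A8Five.cube_one hsg hsup
      apply Subtype.ext
      apply Subtype.ext
      rw [pow_one]
      exact h4
    · intro n hn
      rw [MonoidHom.mem_ker]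
      apply Equiv.Perm.ext
      intro y
      apply Subtype.ext
      rw [hρa]
      exact hA n hn y (hOs y y.2)
  have hFO : Fintype.card O = 5 := by rw [← hOc, ← Nat.card_eq_fintype_card]; rfl
  have hns : ¬ Group.IsSolvable ρ.range := by
    intro h
    apply hs
    haveI : Group.IsSolvable N := H98.DicksonSolv.solvable_of_card 0 1 (by rw [h3]; norm_num)
    exact Group.isSolvable_of_ker_le_range N.subtype ρ.rangeRestrict (by
      rw [MonoidHom.ker_rangeRestrict, hker, Subgroup.range_subtype])
  have hal := alt_le hFO hns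
  have e0 : K ⧸ N ≃* ρ.range := (QuotientGroup.quotientMulEquivOfEq hker.symm).trans (QuotientGroup.quotientKerEquivRange ρ)
  let eO : O ≃ Fin 5 := Fintype.equivFinOfCardEq hFO
  rcases H61.A8Five.alt_or_top hal with h | h
  · left
    exact ⟨(e0.trans (MulEquiv.subgroupCongr h)).trans (Equiv.altCongrHom eO)⟩
  · right
    exact ⟨((e0.trans (MulEquiv.subgroupCongr h)).trans Subgroup.topEquiv).trans eO.permCongrHom⟩

/-- Abstract form. -/
theorem abs_three {L : Type*} [Group L] [Finite L] (f : L →* P8) (hf : Function.Injective f)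
    (hfA : ∀ l, f l ∈ alternatingGroup (Fin 8)) (hs : ¬ Group.IsSolvable L) (h2 : pCore 2 L = ⊥) (hn : ¬ RF L) :
    Nat.card (pCore 3 L) = 3 ∧
    (Nonempty (L ⧸ pCore 3 L ≃* alternatingGroup (Fin 5)) ∨ Nonempty (L ⧸ pCore 3 L ≃* Equiv.Perm (Fin 5))) := by
  let e : L ≃* f.range := MonoidHom.ofInjective hf
  have hK : f.range ≤ alternatingGroup (Fin 8) := by
    rintro _ ⟨l, rfl⟩; exact hfA l
  have hs' : ¬ Group.IsSolvable f.range := by
    intro h
    exact hs (Group.isSolvable_of_isSolvable_injective (f := e.toMonoidHom) e.injective)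
  have h2' : pCore 2 f.range = ⊥ := by
    rw [← H1.Cores.map_equiv_pCore 2 e, h2, Subgroup.map_bot]
  have hn' : ¬ RF f.range := fun h => hn (h.congr e.symm)
  obtain ⟨p, hp, hp2, hpc⟩ := exists_p h2' hn'
  have h5 := five_dvd hK hs' hp hp2 hpc
  haveI : Fact (Nat.Prime 5) := ⟨by norm_num⟩
  obtain ⟨x, hx⟩ := exists_prime_orderOf_dvd_card' 5 h5
  obtain ⟨rfl, h3, hcomm⟩ := three hK hs' hp hp2 hpc hx
  have hm := H1.Cores.map_equiv_pCore 3 e
  have ecard : Nat.card (pCore 3 L) = Nat.card (pCore 3 f.range) := by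
    rw [← hm]
    exact (Subgroup.card_map_of_injective e.injective).symm
  have eq : L ⧸ pCore 3 L ≃* f.range ⧸ pCore 3 f.range := QuotientGroup.congr _ _ e hm
  refine ⟨by rw [ecard, h3], ?_⟩
  rcases quot_three hK hs' h3 hx hcomm with ⟨⟨e1⟩⟩ | ⟨⟨e1⟩⟩
  · exact Or.inl ⟨eq.trans e1⟩
  · exact Or.inr ⟨eq.trans e1⟩

end H26.PcB
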