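import Cfsg.Agent.Lib.H76.SecRank
import Cfsg.Agent.Lib.H38.Basic

/-!
# Sectional rank is determined by a Sylow subgroup; small centralizers bound the rank of sections
-/

set_option autoImplicit false
set_option linter.unusedSectionVars false
open Cfsg H38.Basic

namespace H26.SecRankSyl

variable {G : Type*} [Group G] [Finite G]

/-- the index of a subgroup with elementary abelian quotient is a power of `p` -/
theorem relIndex_pow {p : ℕ} [Fact p.Prime] {N H : Subgroup G}
    (hcomm : ∀ x ∈ H, ∀ y ∈ H, x * y * x⁻¹ * y⁻¹ ∈ N) (hpow : ∀ x ∈ H, x ^ p ∈ N) :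
    ∃ n : ℕ, N.relIndex H = p ^ n := by
  have hN : (N.subgroupOf H).Normal := by
    constructor
    intro n hn g
    rw [Subgroup.mem_subgroupOf] at hn ⊢
    have h1 := mul_mem (hcomm g g.2 n n.2) hn
    have h2 : (g : G) * n * (g : G)⁻¹ * (n : G)⁻¹ * n = g * n * (g : G)⁻¹ := by group
    rw [h2] at h1
    exact h1
  have h1 : IsPGroup p (H ⧸ N.subgroupOf H) := by
    intro q
    induction q using QuotientGroup.induction_on with
    | H x =>
      refine ⟨1, ?_⟩
      rw [pow_one, ← QuotientGroup.mk_pow, QuotientGroup.eq_one_iff, Subgroup.mem_subgroupOf]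
      exact hpow x x.2
  exact IsPGroup.iff_card.mp h1

theorem relIndex_le_syl {p : ℕ} [Fact p.Prime] {N H P : Subgroup G} (hNH : N ≤ H)
    (hcomm : ∀ x ∈ H, ∀ y ∈ H, x * y * x⁻¹ * y⁻¹ ∈ N) (hpow : ∀ x ∈ H, x ^ p ∈ N)
    (hP : IsSyl p P H) : N.relIndex H ≤ (N ⊓ P).relIndex P := by
  obtain ⟨n, hn⟩ := relIndex_pow hcomm hpow
  have h1 : N.relIndex H ∣ (N ⊓ P).relIndex P * P.relIndex H := by
    rw [Subgroup.relIndex_mul_relIndex _ _ _ inf_le_right hP.1,
      ← Subgroup.relIndex_mul_relIndex (N ⊓ P) N H inf_le_left hNH]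
    exact Dvd.intro_left _ rfl
  have h2 : (N.relIndex H).Coprime (P.relIndex H) := by
    rw [hn]
    exact Nat.Coprime.pow_left n (((Fact.out : p.Prime).coprime_iff_not_dvd).mpr hP.2.2)
  have h3 := h2.dvd_of_dvd_mul_right h1
  exact Nat.le_of_dvd (Nat.pos_of_ne_zero (by
    rw [Subgroup.relIndex]; exact Subgroup.index_ne_zero_of_finite)) h3

/-- it suffices to bound the sections of a Sylow subgroup -/
theorem of_sylow {p k : ℕ} [Fact p.Prime] (S : Sylow p G) (h : SectionalPRankLE p k (S : Subgroup G)) :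
    SectionalPRankLE p k G := by
  rw [H76.SecRank.sectionalPRankLE_iff] at h ⊢
  intro N H hNH hcomm hpow
  obtain ⟨P, hP⟩ := exists_isSyl (p := p) H
  refine (relIndex_le_syl hNH hcomm hpow hP).trans ?_
  obtain ⟨g, -, hg⟩ := (isSyl_sylow S).exists_conj_le hP.2.1 le_top
  set f := (MulAut.conj g).toMonoidHom with hf
  have h1 : (N ⊓ P).relIndex P = ((N ⊓ P).map f).relIndex (P.map f) := (relIndex_conj _ _ g).symm
  rw [h1]
  have h2 := h (((N ⊓ P).map f).subgroupOf S) ((P.map f).subgroupOf S)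
    (fun x hx => by
      rw [Subgroup.mem_subgroupOf] at hx ⊢
      exact Subgroup.map_mono inf_le_right hx)
    (by
      rintro ⟨x, hxS⟩ hx ⟨y, hyS⟩ hy
      rw [Subgroup.mem_subgroupOf] at hx hy ⊢
      obtain ⟨x', hx', rfl⟩ := hx
      obtain ⟨y', hy', rfl⟩ := hy
      have hx'' : x' ∈ P := hx'
      have hy'' : y' ∈ P := hy'
      refine ⟨x' * y' * x'⁻¹ * y'⁻¹, ⟨hcomm x' (hP.1 hx') y' (hP.1 hy'), ?_⟩, ?_⟩
      · exact P.mul_mem (P.mul_mem (P.mul_mem hx'' hy'') (P.inv_mem hx'')) (P.inv_mem hy'')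
      · rw [map_mul, map_mul, map_mul, map_inv, map_inv]; rfl)
    (by
      rintro ⟨x, hxS⟩ hx
      rw [Subgroup.mem_subgroupOf] at hx ⊢
      obtain ⟨x', hx', rfl⟩ := hx
      refine ⟨x' ^ p, ⟨hpow x' (hP.1 hx'), pow_mem hx' p⟩, ?_⟩
      rw [map_pow]; rfl)
  rwa [Subgroup.relIndex_subgroupOf hg] at h2

/-- an element with a small centralizer bounds the elementary abelian quotients of the subgroups
containing it -/
theorem le_card_centralizer {N H : Subgroup G} (hNH : N ≤ H)
    (hcomm : ∀ x ∈ H, ∀ y ∈ H, x * y * x⁻¹ * y⁻¹ ∈ N) {b : G} (hb : b ∈ H) :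
    N.relIndex H ≤ Nat.card (H ⊓ Subgroup.centralizer ({b} : Set G) : Subgroup G) := by
  classical
  -- the map `H / C_H(b) → N`
  let C := (Subgroup.centralizer ({b} : Set G)).subgroupOf H
  let f : (H ⧸ C) → N := fun q => Quotient.liftOn' q
    (fun h : H => (⟨(h : G) * b * (h : G)⁻¹ * b⁻¹, hcomm h h.2 b hb⟩ : N)) (by
      intro x y hxy
      rw [QuotientGroup.leftRel_apply, Subgroup.mem_subgroupOf,
        Subgroup.mem_centralizer_singleton_iff] at hxy
      apply Subtype.ext
      change (x : G) * b * (x : G)⁻¹ * b⁻¹ = (y : G) * b * (y : G)⁻¹ * b⁻¹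
      have h2 : (x : G)⁻¹ * y * b = b * ((x : G)⁻¹ * y) := by simpa using hxy
      have h3 : (y : G) * b = x * (b * ((x : G)⁻¹ * y)) := by
        rw [← h2]; group
      rw [h3]; group)
  have hinj : Function.Injective f := by
    intro q1 q2
    induction q1 using QuotientGroup.induction_on with
    | H x =>
      induction q2 using QuotientGroup.induction_on with
      | H y =>
        intro h
        have h1 : (x : G) * b * (x : G)⁻¹ * b⁻¹ = (y : G) * b * (y : G)⁻¹ * b⁻¹ :=
          congrArg Subtype.val h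
        have h2 : (x : G) * b * (x : G)⁻¹ = (y : G) * b * (y : G)⁻¹ := mul_right_cancel h1
        rw [QuotientGroup.eq, Subgroup.mem_subgroupOf, Subgroup.mem_centralizer_singleton_iff]
        change (x : G)⁻¹ * y * b = b * ((x : G)⁻¹ * y)
        calc (x : G)⁻¹ * y * b = (x : G)⁻¹ * (y * b * (y : G)⁻¹) * y := by group
          _ = (x : G)⁻¹ * (x * b * (x : G)⁻¹) * y := by rw [h2]
          _ = b * ((x : G)⁻¹ * y) := by group
  have h1 : C.index ≤ Nat.card N := by
    rw [Subgroup.index]; exact Nat.card_le_card_of_injective f hinj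
  have h2 : Nat.card C * C.index = Nat.card H := C.card_mul_index
  have h3 : Nat.card C = Nat.card (H ⊓ Subgroup.centralizer ({b} : Set G) : Subgroup G) := by
    have h31 : C = (H ⊓ Subgroup.centralizer ({b} : Set G)).subgroupOf H := by
      ext y
      simp only [C, Subgroup.mem_subgroupOf, Subgroup.mem_inf, SetLike.coe_mem, true_and]
    rw [h31]
    exact Nat.card_congr (Subgroup.subgroupOfEquivOfLe inf_le_left).toEquiv
  have h4 : Nat.card N * N.relIndex H = Nat.card H := by
    have := (N.subgroupOf H).card_mul_index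
    rw [Nat.card_congr (Subgroup.subgroupOfEquivOfLe hNH).toEquiv] at this
    exact this
  have h5 : 0 < Nat.card N := Nat.card_pos
  rw [← h3]
  by_contra hcon
  push Not at hcon
  have h6 : Nat.card H < Nat.card H := by
    calc Nat.card H = Nat.card C * C.index := h2.symm
      _ ≤ Nat.card C * Nat.card N := Nat.mul_le_mul_left _ h1
      _ < N.relIndex H * Nat.card N := Nat.mul_lt_mul_of_pos_right hcon h5
      _ = Nat.card H := by rw [mul_comm]; exact h4
  exact lt_irrefl _ h6

end H26.SecRankSyl
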