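import Cfsg.Agent.Lib.H26.SecRankSyl
import Cfsg.Agent.Lib.H29.PGrp

/-!
# 2-groups with a self-centralizing elementary abelian subgroup of order 16

`T` elementary abelian of order 16, `B ≤ T` a four-group all of whose involutions have centralizer `T`:
the group has order at most 128 and sectional rank at most 4.
-/

set_option autoImplicit false
set_option linter.unusedSectionVars false
open Cfsg H38.Basic H26.SecRankSyl

namespace H26.SelfCent16

variable {S : Type*} [Group S] [Finite S]

/-- `|A| |B| ≤ |A ∩ B| |M|` for subgroups of `M` -/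
theorem card_mul_le {A B M : Subgroup S} (hA : A ≤ M) (hB : B ≤ M) :
    Nat.card A * Nat.card B ≤ Nat.card (A ⊓ B : Subgroup S) * Nat.card M := by
  have h1 : A.relIndex B ≤ A.relIndex M :=
    Subgroup.relIndex_le_of_le_right hB (by rw [Subgroup.relIndex]; exact Subgroup.index_ne_zero_of_finite)
  have h2 : Nat.card A * A.relIndex M = Nat.card M := by
    have := (A.subgroupOf M).card_mul_index
    rwa [Nat.card_congr (Subgroup.subgroupOfEquivOfLe hA).toEquiv] at this
  have h3 : Nat.card (A ⊓ B : Subgroup S) * A.relIndex B = Nat.card B := by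
    have := ((A ⊓ B).subgroupOf B).card_mul_index
    rw [Nat.card_congr (Subgroup.subgroupOfEquivOfLe inf_le_right).toEquiv] at this
    rw [← Subgroup.inf_relIndex_right]
    exact this
  calc Nat.card A * Nat.card B = Nat.card A * (Nat.card (A ⊓ B : Subgroup S) * A.relIndex B) := by
        rw [h3]
    _ = Nat.card (A ⊓ B : Subgroup S) * (Nat.card A * A.relIndex B) := by ring
    _ ≤ Nat.card (A ⊓ B : Subgroup S) * (Nat.card A * A.relIndex M) := by
        exact Nat.mul_le_mul_left _ (Nat.mul_le_mul_left _ h1)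
    _ = Nat.card (A ⊓ B : Subgroup S) * Nat.card M := by rw [h2]

theorem card_lt_of_lt {H K : Subgroup S} (h : H < K) : Nat.card H < Nat.card K := by
  by_contra hle
  exact h.ne (Subgroup.eq_of_le_of_card_ge h.le (not_lt.1 hle))

/-- cards of subgroups of a 2-group: rounding up -/
theorem card_ge (hS : IsPGroup 2 S) (A : Subgroup S) {k : ℕ} (h : 2 ^ k < Nat.card A) :
    2 ^ (k + 1) ≤ Nat.card A := by
  obtain ⟨n, hn⟩ := IsPGroup.iff_card.mp (hS.to_subgroup A)
  rw [hn] at h ⊢
  exact Nat.pow_le_pow_right (by norm_num) ((Nat.pow_lt_pow_iff_right (by norm_num)).mp h)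

structure Hyp (T B : Subgroup S) : Prop where
  two : IsPGroup 2 S
  sq : ∀ t ∈ T, t * t = 1
  card : Nat.card T = 16
  le : B ≤ T
  cardB : Nat.card B = 4
  cen : ∀ b ∈ B, b ≠ 1 → ∀ g : S, g * b = b * g → g ∈ T

theorem comm_of_sq {A : Subgroup S} (hA : ∀ a ∈ A, a * a = 1) {a b : S} (ha : a ∈ A) (hb : b ∈ A) :
    a * b = b * a := by
  have h1 := hA _ (mul_mem ha hb)
  have h2 := hA a ha
  have h3 := hA b hb
  calc a * b = a * (a * b * (a * b)) * b := by rw [h1, mul_one]
    _ = (a * a) * b * a * (b * b) := by group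
    _ = b * a := by rw [h2, h3, one_mul, mul_one]

variable {T B : Subgroup S}

theorem Hyp.meets (h : Hyp T B) {A : Subgroup S} (hA : A ≤ T) (h8 : 4 < Nat.card A) :
    ∃ b ∈ A, b ∈ B ∧ b ≠ 1 := by
  by_contra hcon
  push Not at hcon
  have h1 : A ⊓ B = ⊥ := by
    rw [Subgroup.eq_bot_iff_forall]
    intro x hx
    exact hcon x (Subgroup.mem_inf.mp hx).1 (Subgroup.mem_inf.mp hx).2
  have h2 := card_mul_le hA h.le
  rw [h1, Subgroup.card_bot, h.card, h.cardB] at h2
  omega

theorem Hyp.mem_of (h : Hyp T B) {A : Subgroup S} (hA : A ≤ T) (h8 : 4 < Nat.card A) {g : S}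
    (hg : ∀ a ∈ A, g * a = a * g) : g ∈ T := by
  obtain ⟨b, hbA, hbB, hb1⟩ := h.meets hA h8
  exact h.cen b hbB hb1 g (hg b hbA)

/-- the normalizer of `T` has order at most 64 -/
theorem Hyp.card_normalizer (h : Hyp T B) : Nat.card (Subgroup.normalizer (T : Set S)) ≤ 64 := by
  classical
  have hp : Fact (Nat.Prime 2) := ⟨Nat.prime_two⟩
  set M := Subgroup.normalizer (T : Set S) with hM
  obtain ⟨K, hKT, hMK, hK⟩ := H29.PGrp.exists_normal_card (p := 2) (P := M) (M := T)
    (h.two.to_subgroup M) Subgroup.le_normalizer le_rfl (k := 3) (by rw [h.card]; norm_num)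
  obtain ⟨b, hbK, hbB, hb1⟩ := h.meets hKT (by rw [hK]; norm_num)
  -- the conjugates of `b` under `M`
  have hCM : (Subgroup.centralizer ({b} : Set S)) ≤ T := by
    intro g hg
    exact h.cen b hbB hb1 g (Subgroup.mem_centralizer_singleton_iff.mp hg)
  have hTC : T ≤ Subgroup.centralizer ({b} : Set S) := by
    intro g hg
    rw [Subgroup.mem_centralizer_singleton_iff]
    exact comm_of_sq h.sq hg (h.le hbB)
  have hC : Subgroup.centralizer ({b} : Set S) = T := le_antisymm hCM hTC
  let f : (M ⧸ T.subgroupOf M) → {x : K // x ≠ 1} := fun q => Quotient.liftOn' q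
    (fun m : M => (⟨⟨(m : S) * b * (m : S)⁻¹, (Subgroup.mem_normalizer_iff.mp (hMK m.2) b).mp hbK⟩,
      fun hh => hb1 (by
        have h2 : (m : S) * b * (m : S)⁻¹ = 1 := congrArg Subtype.val hh
        calc b = (m : S)⁻¹ * ((m : S) * b * (m : S)⁻¹) * m := by group
          _ = 1 := by rw [h2]; group)⟩ : {x : K // x ≠ 1})) (by
      intro x y hxy
      rw [QuotientGroup.leftRel_apply, Subgroup.mem_subgroupOf] at hxy
      apply Subtype.ext
      apply Subtype.ext
      change (x : S) * b * (x : S)⁻¹ = (y : S) * b * (y : S)⁻¹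
      have h2 : (x : S)⁻¹ * y * b = b * ((x : S)⁻¹ * y) := comm_of_sq h.sq hxy (h.le hbB)
      have h3 : (y : S) * b = x * (b * ((x : S)⁻¹ * y)) := by
        rw [← h2]; group
      rw [h3]; group)
  have hinj : Function.Injective f := by
    intro q1 q2
    induction q1 using QuotientGroup.induction_on with
    | H x =>
      induction q2 using QuotientGroup.induction_on with
      | H y =>
        intro hh
        have h2 : (x : S) * b * (x : S)⁻¹ = (y : S) * b * (y : S)⁻¹ :=
          congrArg (fun z => ((z : K) : S)) (congrArg Subtype.val hh)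
        rw [QuotientGroup.eq, Subgroup.mem_subgroupOf]
        apply h.cen b hbB hb1
        change (x : S)⁻¹ * y * b = b * ((x : S)⁻¹ * y)
        calc (x : S)⁻¹ * y * b = (x : S)⁻¹ * (y * b * (y : S)⁻¹) * y := by group
          _ = (x : S)⁻¹ * (x * b * (x : S)⁻¹) * y := by rw [h2]
          _ = b * ((x : S)⁻¹ * y) := by group
  have h1 : (T.subgroupOf M).index ≤ 7 := by
    rw [Subgroup.index]
    refine (Nat.card_le_card_of_injective f hinj).trans ?_
    have h3 : Nat.card {x : K // x ≠ 1} + 1 = Nat.card K := by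
      have hfin := Fintype.ofFinite K
      rw [Nat.card_eq_fintype_card, Nat.card_eq_fintype_card, Fintype.card_subtype_compl,
        Fintype.card_subtype_eq]
      have : 0 < Fintype.card K := Fintype.card_pos
      omega
    rw [hK] at h3
    omega
  have h2 : 16 * (T.subgroupOf M).index = Nat.card M := by
    have := (T.subgroupOf M).card_mul_index
    rwa [Nat.card_congr (Subgroup.subgroupOfEquivOfLe Subgroup.le_normalizer).toEquiv, h.card]
      at this
  by_contra hcon
  push Not at hcon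
  have h4 := card_ge h.two M (k := 6) (by norm_num; omega)
  norm_num at h4
  omega

/-- conjugates of `T` and `B` -/
theorem Hyp.conj (h : Hyp T B) (g : S) : Hyp (T.map (MulAut.conj g).toMonoidHom)
    (B.map (MulAut.conj g).toMonoidHom) where
  two := h.two
  sq := by
    rintro _ ⟨t, ht, rfl⟩
    rw [← map_mul, h.sq t ht, map_one]
  card := by rw [card_conj, h.card]
  le := Subgroup.map_mono h.le
  cardB := by rw [card_conj, h.cardB]
  cen := by
    rintro _ ⟨b, hb, rfl⟩ hb1 x hx
    have h1 : x * (g * b * g⁻¹) = g * b * g⁻¹ * x := hx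
    have h2 : g⁻¹ * x * g ∈ T := h.cen b hb (fun hh => hb1 (by rw [hh, map_one])) _ (by
      calc g⁻¹ * x * g * b = g⁻¹ * (x * (g * b * g⁻¹)) * g := by group
        _ = g⁻¹ * (g * b * g⁻¹ * x) * g := by rw [h1]
        _ = b * (g⁻¹ * x * g) := by group)
    refine ⟨g⁻¹ * x * g, h2, ?_⟩
    change g * (g⁻¹ * x * g) * g⁻¹ = x
    group

/-- the second elementary abelian subgroup of order 16 -/
structure Swap (T T1 : Subgroup S) : Prop where
  le1 : T1 ≤ Subgroup.normalizer (T : Set S)
  card1 : Nat.card T1 = 16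
  cardZ : Nat.card (T ⊓ T1 : Subgroup S) = 4
  cardM : Nat.card (Subgroup.normalizer (T : Set S)) = 64
  sub : ∀ E : Subgroup S, E ≤ Subgroup.normalizer (T : Set S) → (∀ e ∈ E, e * e = 1) → E ≤ T ∨ E ≤ T1

theorem Hyp.swap (h : Hyp T B) {g : S}
    (hgM : g ∈ Subgroup.normalizer ((Subgroup.normalizer (T : Set S) : Subgroup S) : Set S))
    (hgT : g ∉ Subgroup.normalizer (T : Set S)) : Swap T (T.map (MulAut.conj g).toMonoidHom) := by
  have hc := h.conj g
  set T1 := T.map (MulAut.conj g).toMonoidHom with hT1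
  set M := Subgroup.normalizer (T : Set S) with hM
  have hne : T1 ≠ T := fun hh => hgT (by rw [hM, H38.Basic.mem_normalizer_iff']; exact hh)
  have hle1 : T1 ≤ M := by
    rintro _ ⟨t, ht, rfl⟩
    exact (Subgroup.mem_normalizer_iff.mp hgM t).mp (Subgroup.le_normalizer ht)
  have hcardZ : Nat.card (T ⊓ T1 : Subgroup S) ≤ 4 := by
    by_contra hcon
    push Not at hcon
    apply hne
    apply Subgroup.eq_of_le_of_card_ge
    · intro y hy
      exact h.mem_of inf_le_left hcon (fun a ha => comm_of_sq hc.sq hy (Subgroup.mem_inf.mp ha).2)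
    · rw [hc.card, h.card]
  have hM64 : Nat.card M ≤ 64 := h.card_normalizer
  have h1 := card_mul_le (A := T) (B := T1) (M := M) Subgroup.le_normalizer hle1
  rw [h.card, hc.card] at h1
  have hZ4 : Nat.card (T ⊓ T1 : Subgroup S) = 4 := by
    have h2 : 16 * 16 ≤ Nat.card (T ⊓ T1 : Subgroup S) * 64 := h1.trans (Nat.mul_le_mul_left _ hM64)
    omega
  have hMc : Nat.card M = 64 := by
    rw [hZ4] at h1
    omega
  have hsup : T ⊔ T1 = M := by
    apply Subgroup.eq_of_le_of_card_ge (sup_le Subgroup.le_normalizer hle1)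
    have h2 := card_mul_le (A := T) (B := T1) (M := T ⊔ T1) le_sup_left le_sup_right
    rw [h.card, hc.card, hZ4] at h2
    rw [hMc]
    omega
  have hdec : ∀ y ∈ M, ∃ τ ∈ T, ∃ σ ∈ T1, y = τ * σ := by
    intro y hy
    have h2 : y ∈ ((T ⊔ T1 : Subgroup S) : Set S) := by rw [hsup]; exact hy
    rw [Subgroup.coe_mul_of_right_le_normalizer_left _ _ hle1] at h2
    obtain ⟨τ, hτ, σ, hσ, rfl⟩ := h2
    exact ⟨τ, hτ, σ, hσ, rfl⟩
  have hkey : ∀ τ ∈ T, ∀ σ ∈ T1, τ * σ = σ * τ → τ ∈ T1 ∨ σ ∈ T := by
    intro τ hτ σ hσ hcomm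
    by_contra hcon
    push Not at hcon
    obtain ⟨hτ1, hσT⟩ := hcon
    apply hσT
    have hle : T ⊓ T1 ⊔ Subgroup.zpowers τ ≤ T :=
      sup_le inf_le_left (by rw [Subgroup.zpowers_le]; exact hτ)
    apply h.mem_of hle
    · have hlt : T ⊓ T1 < T ⊓ T1 ⊔ Subgroup.zpowers τ := by
        refine lt_of_le_of_ne le_sup_left (fun hh => hτ1 ?_)
        have h2 : τ ∈ T ⊓ T1 ⊔ Subgroup.zpowers τ := Subgroup.mem_sup_right (Subgroup.mem_zpowers τ)
        rw [← hh] at h2
        exact (Subgroup.mem_inf.mp h2).2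
      have := card_lt_of_lt hlt
      rwa [hZ4] at this
    · intro a ha
      have h2 : T ⊓ T1 ⊔ Subgroup.zpowers τ ≤ Subgroup.centralizer ({σ} : Set S) := by
        refine sup_le (fun x hx => ?_) ?_
        · rw [Subgroup.mem_centralizer_singleton_iff]
          exact comm_of_sq hc.sq (Subgroup.mem_inf.mp hx).2 hσ
        · rw [Subgroup.zpowers_le, Subgroup.mem_centralizer_singleton_iff]
          exact hcomm
      exact (Subgroup.mem_centralizer_singleton_iff.mp (h2 ha)).symm
  refine ⟨hle1, hc.card, hZ4, hMc, ?_⟩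
  intro E hE hE2
  have hmem : ∀ y ∈ E, y ∈ T ∨ y ∈ T1 := by
    intro y hy
    obtain ⟨τ, hτ, σ, hσ, rfl⟩ := hdec y (hE hy)
    have h2 := hE2 _ hy
    have h3 : τ * σ = σ * τ := by
      calc τ * σ = (τ * σ)⁻¹ := eq_inv_of_mul_eq_one_left h2
        _ = σ⁻¹ * τ⁻¹ := mul_inv_rev _ _
        _ = σ * τ := by
            rw [← eq_inv_of_mul_eq_one_left (hc.sq σ hσ), ← eq_inv_of_mul_eq_one_left (h.sq τ hτ)]
    rcases hkey τ hτ σ hσ h3 with h4 | h4
    · right; exact mul_mem h4 hσ
    · left; exact mul_mem hτ h4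
  by_contra hcon
  push Not at hcon
  obtain ⟨hE1, hE2'⟩ := hcon
  obtain ⟨e1, he1, he1T⟩ := SetLike.not_le_iff_exists.mp hE1
  obtain ⟨e2, he2, he2T⟩ := SetLike.not_le_iff_exists.mp hE2'
  have h5 : e1 ∈ T1 := (hmem e1 he1).resolve_left he1T
  have h6 : e2 ∈ T := (hmem e2 he2).resolve_right he2T
  rcases hmem _ (mul_mem he1 he2) with h7 | h7
  · exact he1T ((Subgroup.mul_mem_cancel_right T h6).mp h7)
  · exact he2T ((Subgroup.mul_mem_cancel_left T1 h5).mp h7)

/-- the order of the group -/
theorem Hyp.card_le (h : Hyp T B) {g : S}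
    (hgM : g ∈ Subgroup.normalizer ((Subgroup.normalizer (T : Set S) : Subgroup S) : Set S))
    (hgT : g ∉ Subgroup.normalizer (T : Set S)) : Nat.card S ≤ 128 := by
  have hs := h.swap hgM hgT
  have hc := h.conj g
  set T1 := T.map (MulAut.conj g).toMonoidHom with hT1
  set M := Subgroup.normalizer (T : Set S) with hM
  set L := Subgroup.normalizer (M : Set S) with hL
  have hne : T1 ≠ T := fun hh => hgT (by rw [hM, H38.Basic.mem_normalizer_iff']; exact hh)
  have hML : M ≤ L := Subgroup.le_normalizer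
  -- conjugates of `T` in `M`
  have hconj : ∀ s : S, T.map (MulAut.conj s).toMonoidHom ≤ M →
      T.map (MulAut.conj s).toMonoidHom = T ∨ T.map (MulAut.conj s).toMonoidHom = T1 := by
    intro s hle
    rcases hs.sub _ hle (h.conj s).sq with h1 | h1
    · left
      exact Subgroup.eq_of_le_of_card_ge h1 (by rw [h.card, (h.conj s).card])
    · right
      exact Subgroup.eq_of_le_of_card_ge h1 (by rw [hs.card1, (h.conj s).card])
  -- elements `s` with `T ^ s = T1`
  have hconj1 : ∀ s : S, T.map (MulAut.conj s).toMonoidHom = T1 → g⁻¹ * s ∈ M := by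
    intro s hs1
    rw [hM, H38.Basic.mem_normalizer_iff', ← H38.Basic.conj_conj, hs1, hT1, H38.Basic.conj_conj,
      inv_mul_cancel, H38.Basic.conj_one]
  have hconjM : ∀ s : S, T.map (MulAut.conj s).toMonoidHom ≤ M → s ∈ L := by
    intro s hle
    rcases hconj s hle with h1 | h1
    · apply hML
      rw [hM, H38.Basic.mem_normalizer_iff']; exact h1
    · have h2 := hML (hconj1 s h1)
      have h3 : s = g * (g⁻¹ * s) := by group
      rw [h3]
      exact mul_mem hgM h2
  have hmemL : ∀ s ∈ L, s ∈ M ∨ g⁻¹ * s ∈ M := by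
    intro s hsL
    have hle : T.map (MulAut.conj s).toMonoidHom ≤ M := by
      rintro _ ⟨t, ht, rfl⟩
      exact (Subgroup.mem_normalizer_iff.mp hsL t).mp (Subgroup.le_normalizer ht)
    rcases hconj s hle with h1 | h1
    · left; rw [hM, H38.Basic.mem_normalizer_iff']; exact h1
    · right; exact hconj1 s h1
  have hrel : M.relIndex L = 2 := by
    change (M.subgroupOf L).index = 2
    rw [Subgroup.index_eq_two_iff]
    refine ⟨⟨g⁻¹, inv_mem hgM⟩, fun b => ?_⟩
    rw [Subgroup.mem_subgroupOf, Subgroup.mem_subgroupOf]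
    change Xor ((b : S) * g⁻¹ ∈ M) ((b : S) ∈ M)
    by_cases hbM : (b : S) ∈ M
    · right
      refine ⟨hbM, fun hh => hgT ?_⟩
      have h9 : g = ((b : S) * g⁻¹)⁻¹ * b := by group
      rw [h9]; exact mul_mem (inv_mem hh) hbM
    · left
      refine ⟨?_, hbM⟩
      rcases hmemL b b.2 with h1 | h1
      · exact absurd h1 hbM
      · have h9 : (b : S) * g⁻¹ = g * (g⁻¹ * b) * g⁻¹ := by group
        rw [h9]; exact (Subgroup.mem_normalizer_iff.mp hgM _).mp h1
  have hcardL : Nat.card L = 128 := by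
    have := (M.subgroupOf L).card_mul_index
    rw [Nat.card_congr (Subgroup.subgroupOfEquivOfLe hML).toEquiv, hs.cardM] at this
    have h2 : (M.subgroupOf L).index = 2 := hrel
    rw [h2] at this
    exact this.symm
  -- `L` is self-normalizing
  have hself : Subgroup.normalizer (L : Set S) ≤ L := by
    intro s hsN
    by_cases hle : T.map (MulAut.conj s).toMonoidHom ≤ M
    · exact hconjM s hle
    · exfalso
      obtain ⟨e, heT, heM⟩ := SetLike.not_le_iff_exists.mp hle
      have hTsL : T.map (MulAut.conj s).toMonoidHom ≤ L := by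
        rintro _ ⟨t, ht, rfl⟩
        exact (Subgroup.mem_normalizer_iff.mp hsN t).mp (hML (Subgroup.le_normalizer ht))
      have heL := hTsL heT
      have he1 : T.map (MulAut.conj e).toMonoidHom = T1 := by
        have hle' : T.map (MulAut.conj e).toMonoidHom ≤ M := by
          rintro _ ⟨t, ht, rfl⟩
          exact (Subgroup.mem_normalizer_iff.mp heL t).mp (Subgroup.le_normalizer ht)
        rcases hconj e hle' with h1 | h1
        · exact absurd (by rw [hM, H38.Basic.mem_normalizer_iff']; exact h1) heM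
        · exact h1
      have hee := (h.conj s).sq e heT
      have he2 : T1.map (MulAut.conj e).toMonoidHom = T := by
        rw [← he1, H38.Basic.conj_conj, hee, H38.Basic.conj_one]
      have hE := card_mul_le (A := T.map (MulAut.conj s).toMonoidHom) (B := M) (M := L) hTsL hML
      rw [(h.conj s).card, hs.cardM, hcardL] at hE
      have hEcomm : ∀ y ∈ T.map (MulAut.conj s).toMonoidHom ⊓ M, e * y * e⁻¹ = y := by
        intro y hy
        rw [comm_of_sq (h.conj s).sq heT (Subgroup.mem_inf.mp hy).1, mul_inv_cancel_right]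
      have hle2 : T.map (MulAut.conj s).toMonoidHom ⊓ M ≤ T ⊓ T1 := by
        rcases hs.sub _ inf_le_right (fun y hy => (h.conj s).sq y (Subgroup.mem_inf.mp hy).1) with h1 | h1
        · intro y hy
          refine Subgroup.mem_inf.mpr ⟨h1 hy, ?_⟩
          rw [← he1]
          exact ⟨y, h1 hy, hEcomm y hy⟩
        · intro y hy
          refine Subgroup.mem_inf.mpr ⟨?_, h1 hy⟩
          rw [← he2]
          exact ⟨y, h1 hy, hEcomm y hy⟩
      have h5 := Subgroup.card_le_of_le hle2
      rw [hs.cardZ] at h5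
      omega
  have hLtop : L = ⊤ := by
    by_contra hne'
    have hp : Fact (Nat.Prime 2) := ⟨Nat.prime_two⟩
    have hnil : Group.IsNilpotent S := h.two.isNilpotent
    have := Group.normalizerCondition_of_isNilpotent (G := S) L (lt_top_iff_ne_top.mpr hne')
    exact absurd hself (not_le_of_gt this)
  rw [← Nat.card_congr Subgroup.topEquiv.toEquiv (α := (⊤ : Subgroup S)), ← hLtop, hcardL]

/-- the main theorem -/
theorem Hyp.relIndex_le (h : Hyp T B) {N H : Subgroup S} (hNH : N ≤ H)
    (hcomm : ∀ x ∈ H, ∀ y ∈ H, x * y * x⁻¹ * y⁻¹ ∈ N) (hpow : ∀ x ∈ H, x ^ 2 ∈ N) :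
    N.relIndex H ≤ 16 := by
  have hp : Fact (Nat.Prime 2) := ⟨Nat.prime_two⟩
  by_contra hcon
  push Not at hcon
  obtain ⟨n, hn⟩ := relIndex_pow hcomm hpow
  have h32 : 32 ≤ N.relIndex H := by
    rw [hn] at hcon ⊢
    have h1 : 2 ^ 4 < 2 ^ n := by norm_num; exact hcon
    have h2 := (Nat.pow_lt_pow_iff_right (by norm_num)).mp h1
    have h3 : 2 ^ 5 ≤ 2 ^ n := Nat.pow_le_pow_right (by norm_num) h2
    norm_num at h3; exact h3
  have hNcard : Nat.card N * N.relIndex H = Nat.card H := by
    have := (N.subgroupOf H).card_mul_index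
    rwa [Nat.card_congr (Subgroup.subgroupOfEquivOfLe hNH).toEquiv] at this
  have hN0 : 0 < Nat.card N := Nat.card_pos
  have hH32 : 32 ≤ Nat.card H := by
    rw [← hNcard]
    calc 32 ≤ N.relIndex H := h32
      _ ≤ Nat.card N * N.relIndex H := Nat.le_mul_of_pos_left _ hN0
  -- no conjugate of an involution of `B` lies in `H`
  have hno : ∀ s : S, ∀ b ∈ B, b ≠ 1 → s * b * s⁻¹ ∉ H := by
    intro s b hb hb1 hmem
    have h1 := le_card_centralizer hNH hcomm hmem
    have h2 : (H ⊓ Subgroup.centralizer ({s * b * s⁻¹} : Set S) : Subgroup S) ≤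
        T.map (MulAut.conj s).toMonoidHom := by
      intro x hx
      refine (h.conj s).cen (s * b * s⁻¹) ⟨b, hb, rfl⟩ (fun hh => hb1 ?_) x
        (Subgroup.mem_centralizer_singleton_iff.mp (Subgroup.mem_inf.mp hx).2)
      calc b = s⁻¹ * (s * b * s⁻¹) * s := by group
        _ = 1 := by rw [hh]; group
    have h3 := Subgroup.card_le_of_le h2
    rw [(h.conj s).card] at h3
    omega
  have hmeet : ∀ (s : S) (E : Subgroup S), E ≤ H → E ≤ T.map (MulAut.conj s).toMonoidHom →
      Nat.card E ≤ 4 := by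
    intro s E hEH hET
    by_contra hE
    push Not at hE
    obtain ⟨b, hbE, hbB, hb1⟩ := (h.conj s).meets hET hE
    obtain ⟨b', hb', rfl⟩ := hbB
    exact hno s b' hb' (fun hh => hb1 (by rw [hh, map_one])) (hEH hbE)
  have hmeet1 : ∀ E : Subgroup S, E ≤ H → E ≤ T → Nat.card E ≤ 4 := by
    intro E hEH hET
    apply hmeet 1 E hEH
    rw [H38.Basic.conj_one]; exact hET
  have hcS := card_mul_le (A := T) (B := H) (M := ⊤) le_top le_top
  have hTH := hmeet1 (T ⊓ H) inf_le_right inf_le_left
  have htop : Nat.card (⊤ : Subgroup S) = Nat.card S := Nat.card_congr Subgroup.topEquiv.toEquiv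
  rw [htop, h.card] at hcS
  have hcS2 : 16 * Nat.card H ≤ 4 * Nat.card S := hcS.trans (Nat.mul_le_mul_right _ hTH)
  -- `M` is proper
  have hM64 := h.card_normalizer
  set M := Subgroup.normalizer (T : Set S) with hM
  have hMlt : M < ⊤ := by
    rw [lt_top_iff_ne_top]
    intro hh
    rw [hh, htop] at hM64
    omega
  have hnil : Group.IsNilpotent S := h.two.isNilpotent
  have hlt2 := Group.normalizerCondition_of_isNilpotent (G := S) M hMlt
  obtain ⟨g, hgM, hgT⟩ := SetLike.exists_of_lt hlt2
  have h128 := h.card_le hgM hgT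
  have hs := h.swap hgM hgT
  have hH : Nat.card H = 32 := by omega
  have hN1 : Nat.card N = 1 := by
    rw [hH] at hNcard
    by_contra hne
    have h2 : 2 ≤ Nat.card N := by omega
    have := Nat.mul_le_mul h2 h32
    omega
  have hNbot : N = ⊥ := Subgroup.card_eq_one.mp hN1
  have hE := card_mul_le (A := H) (B := M) (M := ⊤) le_top le_top
  rw [htop, hH, hs.cardM] at hE
  have hE16 : 16 ≤ Nat.card (H ⊓ M : Subgroup S) := by
    have := hE.trans (Nat.mul_le_mul_left _ h128)
    omega
  rcases hs.sub (H ⊓ M) inf_le_right (fun e he => by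
    have := hpow e (Subgroup.mem_inf.mp he).1
    rw [hNbot, Subgroup.mem_bot, pow_two] at this
    exact this) with h1 | h1
  · have := hmeet1 _ inf_le_left h1
    omega
  · have := hmeet g _ inf_le_left h1
    omega

end H26.SelfCent16
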