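import Cfsg.Agent.Lib.H26.SelfCent16

/-!
# 2-groups with a subgroup `D × B`, `D` of maximal class type, `B` a four-group
-/

set_option autoImplicit false
set_option linter.unusedSectionVars false
open Cfsg H38.Basic H26.SecRankSyl H26.SelfCent16

namespace H26.SelfCent8

variable {S : Type*} [Group S] [Finite S] {T B A : Subgroup S}

theorem exists_t (hS : IsPGroup 2 S) (hlt : T < ⊤) :
    ∃ t : S, t ∈ Subgroup.normalizer (T : Set S) ∧ t ∉ T ∧ t * t ∈ T := by
  have hp : Fact (Nat.Prime 2) := ⟨Nat.prime_two⟩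
  have hnil : Group.IsNilpotent S := hS.isNilpotent
  have h1 := Group.normalizerCondition_of_isNilpotent (G := S) T hlt
  obtain ⟨m, hmN, hmQ⟩ := SetLike.exists_of_lt h1
  obtain ⟨k, hk⟩ := (IsPGroup.iff_orderOf.mp hS) m
  classical
  have hex : ∃ j : ℕ, m ^ (2 ^ j) ∈ T := ⟨k, by rw [← hk, pow_orderOf_eq_one]; exact one_mem _⟩
  set j := Nat.find hex with hj
  have hj1 := Nat.find_spec hex
  have hj0 : j ≠ 0 := by
    intro h0
    rw [← hj, h0, pow_zero, pow_one] at hj1
    exact hmQ hj1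
  have hj2 := Nat.find_min hex (m := j - 1) (by omega)
  refine ⟨m ^ (2 ^ (j - 1)), pow_mem hmN _, hj2, ?_⟩
  have h3 : m ^ (2 ^ (j - 1)) * m ^ (2 ^ (j - 1)) = m ^ (2 ^ j) := by
    rw [← pow_add, ← two_mul, ← pow_succ']
    congr 2; omega
  rw [h3]; exact hj1

/-- the order of the fixed points of an involutory action on an elementary abelian group -/
theorem card_fix {t : S} (hA2 : ∀ a ∈ A, a * a = 1) (htA : t ∈ Subgroup.normalizer (A : Set S))
    (htt : ∀ a ∈ A, (t * t) * a = a * (t * t)) :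
    Nat.card A ≤ Nat.card (A ⊓ Subgroup.centralizer ({t} : Set S) : Subgroup S) ^ 2 := by
  set A' := A ⊓ Subgroup.centralizer ({t} : Set S) with hA'
  have hta : ∀ a ∈ A, t * a * t⁻¹ ∈ A := fun a ha => (Subgroup.mem_normalizer_iff.mp htA a).mp ha
  have hmem : ∀ a ∈ A, a * (t * a * t⁻¹) ∈ A' := by
    intro a ha
    rw [hA', Subgroup.mem_inf, Subgroup.mem_centralizer_singleton_iff]
    refine ⟨mul_mem ha (hta a ha), ?_⟩
    have h1 := htt a ha
    have h2 := comm_of_sq hA2 ha (hta a ha)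
    have h3 : t * (t * a * t⁻¹) * t⁻¹ = a := by
      calc t * (t * a * t⁻¹) * t⁻¹ = (t * t) * a * (t * t)⁻¹ := by group
        _ = a := by rw [h1, mul_inv_cancel_right]
    have h4 : t * (a * (t * a * t⁻¹)) * t⁻¹ = a * (t * a * t⁻¹) := by
      calc t * (a * (t * a * t⁻¹)) * t⁻¹ = (t * a * t⁻¹) * (t * (t * a * t⁻¹) * t⁻¹) := by group
        _ = (t * a * t⁻¹) * a := by rw [h3]
        _ = a * (t * a * t⁻¹) := h2.symm
    calc a * (t * a * t⁻¹) * t = t * (a * (t * a * t⁻¹)) * t⁻¹ * t := by rw [h4]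
      _ = t * (a * (t * a * t⁻¹)) := by group
  let f : A →* A' :=
    { toFun := fun a => ⟨a * (t * a * t⁻¹), hmem a a.2⟩
      map_one' := Subtype.ext (by simp)
      map_mul' := by
        intro a b
        apply Subtype.ext
        change (a : S) * b * (t * (a * b) * t⁻¹) = a * (t * a * t⁻¹) * (b * (t * b * t⁻¹))
        have h2 := comm_of_sq hA2 b.2 (hta a a.2)
        calc (a : S) * b * (t * (a * b) * t⁻¹) = a * (b * (t * a * t⁻¹)) * (t * b * t⁻¹) := by group
          _ = a * ((t * a * t⁻¹) * b) * (t * b * t⁻¹) := by rw [h2]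
          _ = a * (t * a * t⁻¹) * (b * (t * b * t⁻¹)) := by group }
  have hker : Nat.card f.ker ≤ Nat.card A' := by
    have hk : ∀ a : f.ker, ((a : A) : S) ∈ A' := by
      intro a
      change ((a : A) : S) ∈ A ⊓ Subgroup.centralizer ({t} : Set S)
      rw [Subgroup.mem_inf, Subgroup.mem_centralizer_singleton_iff]
      refine ⟨a.1.2, ?_⟩
      have h1 : (a.1 : S) * (t * a.1 * t⁻¹) = 1 := congrArg Subtype.val (MonoidHom.mem_ker.mp a.2)
      have h2 := hA2 _ a.1.2
      have h3 : t * (a.1 : S) * t⁻¹ = a.1 := mul_left_cancel (h1.trans h2.symm)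
      calc (a.1 : S) * t = t * a.1 * t⁻¹ * t := by rw [h3]
        _ = t * a.1 := by group
    refine Nat.card_le_card_of_injective (fun a : f.ker => (⟨((a : A) : S), hk a⟩ : A')) ?_
    intro a b hab
    have hab' : ((a : A) : S) = ((b : A) : S) := congrArg (fun z : A' => (z : S)) hab
    exact Subtype.ext (Subtype.ext hab')
  have hrange : Nat.card f.range ≤ Nat.card A' := Nat.card_le_card_of_injective _ f.range.subtype_injective
  have h1 : Nat.card A = Nat.card f.ker * Nat.card f.range := by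
    rw [← f.ker.card_mul_index, Subgroup.index_ker]
  rw [h1, pow_two]
  exact Nat.mul_le_mul hker hrange

theorem eq_top (hS : IsPGroup 2 S) (hBA : B ≤ A) (hB4 : Nat.card B = 4)
    (hcen : ∀ b ∈ B, b ≠ 1 → ∀ g : S, g * b = b * g → g ∈ T)
    (hAT : ∀ a ∈ A, ∀ t ∈ T, t * a = a * t) (hA2 : ∀ a ∈ A, a * a = 1)
    (hAn : Subgroup.normalizer (T : Set S) ≤ Subgroup.normalizer (A : Set S))
    (hA8 : Nat.card A ≤ 8) : T = ⊤ := by
  by_contra hne
  obtain ⟨t, htN, htT, htt⟩ := exists_t hS (lt_top_iff_ne_top.mpr hne)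
  have h1 := card_fix hA2 (hAn htN) (fun a ha => hAT a ha _ htt)
  set A' := A ⊓ Subgroup.centralizer ({t} : Set S) with hA'
  have h2 := card_mul_le (A := A') (B := B) (M := A) inf_le_left hBA
  have h3 : A' ⊓ B = ⊥ := by
    rw [Subgroup.eq_bot_iff_forall]
    intro x hx
    obtain ⟨hx1, hx2⟩ := Subgroup.mem_inf.mp hx
    by_contra hx0
    apply htT
    exact hcen x hx2 hx0 t (Subgroup.mem_centralizer_singleton_iff.mp (Subgroup.mem_inf.mp hx1).2).symm
  rw [h3, Subgroup.card_bot, one_mul, hB4] at h2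
  have h4 : 4 ≤ Nat.card A := by rw [← hB4]; exact Subgroup.card_le_of_le hBA
  have h5 : Nat.card A' ≤ 2 := by omega
  have h6 : Nat.card A ≤ 4 := h1.trans (by
    calc Nat.card A' ^ 2 ≤ 2 ^ 2 := Nat.pow_le_pow_left h5 2
      _ = 4 := by norm_num)
  have h7 : Nat.card A' ≤ 1 := by omega
  have h8 : Nat.card A ≤ 1 := h1.trans (by
    calc Nat.card A' ^ 2 ≤ 1 ^ 2 := Nat.pow_le_pow_left h7 2
      _ = 1 := by norm_num)
  omega

/-- `Ω₁(Z(T))` -/
def omegaCenter (T : Subgroup S) : Subgroup S where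
  carrier := {a | a ∈ T ∧ (∀ t ∈ T, t * a = a * t) ∧ a * a = 1}
  one_mem' := ⟨one_mem _, fun t _ => by rw [mul_one, one_mul], mul_one 1⟩
  mul_mem' := by
    rintro a b ⟨ha, ha1, ha2⟩ ⟨hb, hb1, hb2⟩
    refine ⟨mul_mem ha hb, fun t ht => ?_, ?_⟩
    · rw [← mul_assoc, ha1 t ht, mul_assoc, hb1 t ht, mul_assoc]
    · calc a * b * (a * b) = a * (b * a) * b := by group
        _ = (a * a) * (b * b) := by rw [ha1 b hb]; group
        _ = 1 := by rw [ha2, hb2, one_mul]
  inv_mem' := by
    rintro a ⟨ha, ha1, ha2⟩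
    rw [← eq_inv_of_mul_eq_one_left ha2]
    exact ⟨ha, ha1, ha2⟩

theorem mem_omegaCenter {a : S} : a ∈ omegaCenter T ↔ a ∈ T ∧ (∀ t ∈ T, t * a = a * t) ∧ a * a = 1 :=
  Iff.rfl

theorem normalizer_le_omegaCenter :
    Subgroup.normalizer (T : Set S) ≤ Subgroup.normalizer (omegaCenter T : Set S) := by
  intro n hn
  have key : ∀ n ∈ Subgroup.normalizer (T : Set S), ∀ a ∈ omegaCenter T, n * a * n⁻¹ ∈ omegaCenter T := by
    intro n hn a ha
    obtain ⟨h1, h2, h3⟩ := mem_omegaCenter.mp ha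
    refine ⟨(Subgroup.mem_normalizer_iff.mp hn a).mp h1, fun t ht => ?_, ?_⟩
    · have h4 : n⁻¹ * t * n ∈ T := by
        have := (Subgroup.mem_normalizer_iff.mp (inv_mem hn) t).mp ht
        rwa [inv_inv] at this
      calc t * (n * a * n⁻¹) = n * ((n⁻¹ * t * n) * a) * n⁻¹ := by group
        _ = n * (a * (n⁻¹ * t * n)) * n⁻¹ := by rw [h2 _ h4]
        _ = n * a * n⁻¹ * t := by group
    · calc n * a * n⁻¹ * (n * a * n⁻¹) = n * (a * a) * n⁻¹ := by group
        _ = 1 := by rw [h3]; group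
  rw [Subgroup.mem_normalizer_iff]
  intro a
  refine ⟨fun ha => key n hn a ha, fun ha => ?_⟩
  have := key n⁻¹ (inv_mem hn) _ ha
  have e : n⁻¹ * (n * a * n⁻¹) * n⁻¹⁻¹ = a := by group
  rwa [e] at this

/-- subgroups of index two in `D`, `T = D B` -/
theorem card_omegaCenter_le {D C : Subgroup S} (hDT : D ≤ T) (hB4 : Nat.card B = 4)
    (hB2 : ∀ b ∈ B, b * b = 1) (hcomm : ∀ d ∈ D, ∀ b ∈ B, d * b = b * d)
    (hdec : ∀ t ∈ T, ∃ d ∈ D, ∃ b ∈ B, t = d * b) (hCD : C ≤ D) (hCc : IsCyclic C)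
    (hidx : ∀ d ∈ D, d ∉ C → ∀ y ∈ D, y ∈ C ∨ d⁻¹ * y ∈ C)
    (hna : ∃ x ∈ D, ∃ y ∈ D, x * y ≠ y * x) : Nat.card (omegaCenter T) ≤ 8 := by
  classical
  -- elements of `D` central with square one lie in `C`
  have hCcomm : ∀ x ∈ C, ∀ y ∈ C, x * y = y * x := by
    intro x hx y hy
    have := hCc.isMulCommutative
    exact congrArg Subtype.val (mul_comm' (⟨x, hx⟩ : C) ⟨y, hy⟩)
  have hcenC : ∀ d ∈ D, (∀ y ∈ D, y * d = d * y) → d ∈ C := by
    intro d hd hdc
    by_contra hdC
    obtain ⟨x, hx, y, hy, hxy⟩ := hna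
    apply hxy
    have h1 : ∀ u ∈ D, ∃ c ∈ C, u = c ∨ u = d * c := by
      intro u hu
      rcases hidx d hd hdC u hu with h | h
      · exact ⟨u, h, Or.inl rfl⟩
      · exact ⟨_, h, Or.inr (by group)⟩
    obtain ⟨c1, hc1, h1x⟩ := h1 x hx
    obtain ⟨c2, hc2, h2y⟩ := h1 y hy
    have e1 := hCcomm c1 hc1 c2 hc2
    have e2 := hdc c1 (hCD hc1)
    have e3 := hdc c2 (hCD hc2)
    rcases h1x with rfl | rfl <;> rcases h2y with rfl | rfl
    · exact e1
    · rw [← mul_assoc, e2, mul_assoc, e1, mul_assoc]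
    · rw [← mul_assoc, e3, mul_assoc, mul_assoc, e1]
    · calc d * c1 * (d * c2) = d * (c1 * d) * c2 := by group
        _ = d * d * (c1 * c2) := by rw [e2]; group
        _ = d * d * (c2 * c1) := by rw [e1]
        _ = d * (d * c2) * c1 := by group
        _ = d * (c2 * d) * c1 := by rw [e3]
        _ = d * c2 * (d * c1) := by group
  -- `Ω₁(Z(D))` has at most two elements
  set Z0 : Set S := {d | d ∈ D ∧ (∀ y ∈ D, y * d = d * y) ∧ d * d = 1} with hZ0
  have hZ0c : Z0.ncard ≤ 2 := by
    by_cases hex : ∃ d ∈ Z0, d ≠ 1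
    · obtain ⟨d, hd, hd1⟩ := hex
      have hsub : Z0 ⊆ {1, d} := by
        intro e he
        by_cases he1 : e = 1
        · left; exact he1
        · right
          have h1 : (⟨e, hcenC e he.1 he.2.1⟩ : C) = ⟨d, hcenC d hd.1 hd.2.1⟩ := by
            by_contra hne
            have hfin := Fintype.ofFinite C
            have h2 := IsCyclic.card_pow_eq_one_le (α := C) (n := 2) (by norm_num)
            have h3 : ({1, ⟨e, hcenC e he.1 he.2.1⟩, ⟨d, hcenC d hd.1 hd.2.1⟩} : Finset C) ⊆
                Finset.univ.filter (fun x : C => x ^ 2 = 1) := by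
              intro x hx
              simp only [Finset.mem_insert, Finset.mem_singleton] at hx
              rw [Finset.mem_filter]
              refine ⟨Finset.mem_univ _, ?_⟩
              rcases hx with rfl | rfl | rfl
              · simp
              · rw [pow_two]; exact Subtype.ext he.2.2
              · rw [pow_two]; exact Subtype.ext hd.2.2
            have h4 := Finset.card_le_card h3
            rw [Finset.card_insert_of_notMem, Finset.card_insert_of_notMem, Finset.card_singleton] at h4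
            · have h5 : (Finset.univ.filter (fun x : C => x ^ 2 = 1)).card ≤ 2 := by
                convert h2
              omega
            · rw [Finset.mem_singleton]; exact hne
            · rw [Finset.mem_insert, Finset.mem_singleton]
              rintro (h | h)
              · exact he1 (congrArg Subtype.val h).symm
              · exact hd1 (congrArg Subtype.val h).symm
          exact congrArg Subtype.val h1
      refine (Set.ncard_le_ncard hsub (Set.toFinite _)).trans ?_
      have := Set.ncard_insert_le (1 : S) {d}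
      rw [Set.ncard_singleton] at this
      exact this
    · push Not at hex
      have hsub : Z0 ⊆ {1} := fun e he => hex e he
      refine (Set.ncard_le_ncard hsub (Set.toFinite _)).trans ?_
      rw [Set.ncard_singleton]; omega
  -- decomposition
  have himg : ((omegaCenter T : Subgroup S) : Set S) ⊆ (fun q : S × S => q.1 * q.2) '' (Z0 ×ˢ (B : Set S)) := by
    intro a ha
    obtain ⟨h1, h2, h3⟩ := mem_omegaCenter.mp ha
    obtain ⟨d, hd, b, hb, rfl⟩ := hdec a h1
    refine ⟨(d, b), ⟨⟨hd, fun y hy => ?_, ?_⟩, hb⟩, rfl⟩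
    · have h4 := h2 y (hDT hy)
      have h5 := hcomm y hy b hb
      have h6 : y * d * b = d * y * b := by
        calc y * d * b = y * (d * b) := by group
          _ = d * b * y := h4
          _ = d * (b * y) := by group
          _ = d * (y * b) := by rw [h5]
          _ = d * y * b := by group
      exact mul_right_cancel h6
    · have h5 := hcomm d hd b hb
      have h6 := hB2 b hb
      calc d * d = d * (d * (b * b)) := by rw [h6, mul_one]
        _ = d * (d * b) * b := by group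
        _ = d * (b * d) * b := by rw [h5]
        _ = d * b * (d * b) := by group
        _ = 1 := h3
  have h1 : Nat.card (omegaCenter T) = ((omegaCenter T : Subgroup S) : Set S).ncard := rfl
  rw [h1]
  refine (Set.ncard_le_ncard himg (Set.toFinite _)).trans ?_
  refine (Set.ncard_image_le (Set.toFinite _)).trans ?_
  rw [Set.ncard_prod]
  have h2 : ((B : Subgroup S) : Set S).ncard = 4 := hB4
  rw [h2]
  omega

/-- sections of a group with a cyclic subgroup of index at most 8 -/
theorem relIndex_le_of_cyclic {C N H : Subgroup S} (hCc : IsCyclic C) (hC : C.index ≤ 8)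
    (hpow : ∀ x ∈ H, x ^ 2 ∈ N) : N.relIndex H ≤ 16 := by
  have hfi : ∀ A B : Subgroup S, A.relIndex B ≠ 0 := fun A B => by
    rw [Subgroup.relIndex]; exact Subgroup.index_ne_zero_of_finite
  have h1 : N.relIndex H ≤ (N ⊓ C).relIndex H := Subgroup.relIndex_le_of_le_left inf_le_left (hfi _ _)
  have h2 : (N ⊓ C).relIndex H ≤ (N ⊓ (C ⊓ H)).relIndex H :=
    Subgroup.relIndex_le_of_le_left (by rw [← inf_assoc]; exact inf_le_left) (hfi _ _)
  have h3 : (N ⊓ (C ⊓ H)).relIndex (C ⊓ H) * (C ⊓ H).relIndex H = (N ⊓ (C ⊓ H)).relIndex H :=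
    Subgroup.relIndex_mul_relIndex _ _ _ inf_le_right inf_le_right
  have h4 : (C ⊓ H).relIndex H ≤ 8 := by
    rw [Subgroup.inf_relIndex_right]
    refine (Subgroup.relIndex_le_of_le_right (L := ⊤) le_top (hfi _ _)).trans ?_
    rw [Subgroup.relIndex_top_right]; exact hC
  have h5 : (N ⊓ (C ⊓ H)).relIndex (C ⊓ H) ≤ 2 := by
    rw [Subgroup.inf_relIndex_right]
    set K := C ⊓ H with hK
    have hKc : IsCyclic K := by
      have := hCc
      exact isCyclic_of_injective (Subgroup.inclusion (inf_le_left : K ≤ C))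
        (Subgroup.inclusion_injective _)
    obtain ⟨k, hk⟩ := hKc.exists_generator
    have hcardk : orderOf (k : S) = Nat.card K := by
      rw [Subgroup.orderOf_coe]
      exact orderOf_eq_card_of_forall_mem_zpowers hk
    have hkN : (k : S) ^ 2 ∈ N := hpow _ (Subgroup.mem_inf.mp k.2).2
    have h6 : Subgroup.zpowers ((k : S) ^ 2) ≤ N ⊓ K := by
      rw [Subgroup.zpowers_le]; exact Subgroup.mem_inf.mpr ⟨hkN, pow_mem k.2 2⟩
    have h7 := Subgroup.card_le_of_le h6
    rw [Nat.card_zpowers, orderOf_pow, hcardk] at h7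
    have h8 : Nat.card (N ⊓ K : Subgroup S) * N.relIndex K = Nat.card K := by
      have := ((N ⊓ K).subgroupOf K).card_mul_index
      rw [Nat.card_congr (Subgroup.subgroupOfEquivOfLe inf_le_right).toEquiv] at this
      rw [← Subgroup.inf_relIndex_right]
      exact this
    have h9 : (Nat.card K).gcd 2 ≤ 2 := Nat.le_of_dvd (by norm_num) (Nat.gcd_dvd_right _ _)
    have h10 : Nat.card K ≤ 2 * Nat.card (N ⊓ K : Subgroup S) := by
      have h11 := Nat.div_mul_cancel (Nat.gcd_dvd_left (Nat.card K) 2)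
      calc Nat.card K = Nat.card K / (Nat.card K).gcd 2 * (Nat.card K).gcd 2 := h11.symm
        _ ≤ Nat.card (N ⊓ K : Subgroup S) * 2 := Nat.mul_le_mul h7 h9
        _ = _ := by ring
    have h12 : 0 < Nat.card (N ⊓ K : Subgroup S) := Nat.card_pos
    by_contra hcon
    push Not at hcon
    have h13 : Nat.card (N ⊓ K : Subgroup S) * 3 ≤ Nat.card (N ⊓ K : Subgroup S) * N.relIndex K :=
      Nat.mul_le_mul_left _ hcon
    rw [h8] at h13
    omega
  calc N.relIndex H ≤ (N ⊓ (C ⊓ H)).relIndex H := h1.trans h2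
    _ = (N ⊓ (C ⊓ H)).relIndex (C ⊓ H) * (C ⊓ H).relIndex H := h3.symm
    _ ≤ 2 * 8 := Nat.mul_le_mul h5 h4

end H26.SelfCent8
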